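import Mathlib
import Cfsg.Agent.Lib.Helper94.OPStmt
import Cfsg.Agent.Lib.Helper44.NegPairs
import Cfsg.Agent.Lib.Helper44.WittND2
import Cfsg.Agent.Lib.Helper44.Inv7
import Cfsg.Agent.Lib.Helper40.AltRank

/-!
# S5989 / PFIXA: an isometry `x` of the plus form with `(x - 1) V ≤ Fix x` stabilising a
nondegenerate subspace of odd dimension `m` has `dim (x - 1) V ≤ d - 1`, with `m ≡ 1 (mod 4)` in
case of equality.
-/

set_option autoImplicit false
set_option maxHeartbeats 400000

namespace Cfsg.Agent.Lib.Helper77.OPPFIXA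

open Module QuadraticMap
open Cfsg.Agent.Lib.Helper44.QSpace Cfsg.Agent.Lib.Helper44.NegPairs
open Cfsg.Agent.Lib.Helper44.WittND Cfsg.Agent.Lib.Helper44.WittND2
open Cfsg.Agent.Lib.Helper94.OPStmt

universe u

section gen

variable {F : Type*} [Field F] {V : Type u} [AddCommGroup V] [Module F V] [FiniteDimensional F V]

/-- a totally singular subspace of a nondegenerate subspace has at most half its dimension -/
theorem ts_half (Q : QuadraticForm F V) {W T : Submodule F V} (hW : NDsub Q W) (hTW : T ≤ W)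
    (hT : ∀ t ∈ T, Q t = 0) : 2 * finrank F T ≤ finrank F W := by
  have hS : Sep (res Q W) := sep_res_of_ndsub hW
  have h1 := Cfsg.Agent.Lib.Helper44.Inv7.two_finrank_le_of_sing hS (W := T.comap W.subtype)
    (fun w hw => hT _ hw)
  have h2 : finrank F (T.comap W.subtype) = finrank F T := by
    rw [← Submodule.finrank_map_subtype_eq W (T.comap W.subtype), Submodule.map_comap_subtype,
      inf_eq_right.mpr hTW]
  rw [h2] at h1
  exact h1

theorem coreA (h2 : (2 : F) ≠ 0) (Q : QuadraticForm F V) (hS : Sep Q) (A : V →ₗ[F] V)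
    (hA : ∀ v, Q (A v) = Q v)
    (hNN : ∀ v, (A - LinearMap.id : V →ₗ[F] V) ((A - LinearMap.id : V →ₗ[F] V) v) = 0)
    (W : Submodule F V) (hW : NDsub Q W) (hAW : ∀ w ∈ W, A w ∈ W)
    (m : ℕ) (hm : Odd m) (hk : finrank F W = m) (d : ℕ) (hd : 1 ≤ d)
    (hV : finrank F V = 2 * d) :
    finrank F ↥(LinearMap.range (A - LinearMap.id)) ≤ d - 1 ∧
      (finrank F ↥(LinearMap.range (A - LinearMap.id)) = d - 1 → m % 4 = 1) := by
  obtain ⟨N, hNdef⟩ : ∃ N : V →ₗ[F] V, N = A - LinearMap.id := ⟨_, rfl⟩
  rw [← hNdef] at hNN ⊢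
  have hN : ∀ v, N v = A v - v := by
    intro v
    rw [hNdef, LinearMap.sub_apply, LinearMap.id_apply]
  have hAN : ∀ v, A v = v + N v := by
    intro v
    rw [hN]
    abel
  obtain ⟨W', hW'def⟩ : ∃ W', W' = LinearMap.BilinForm.orthogonal (polarBilin Q) W := ⟨_, rfl⟩
  have hW'mem : ∀ v, v ∈ W' ↔ ∀ w ∈ W, polar Q w v = 0 := by
    intro v
    rw [hW'def]
    exact Iff.rfl
  have hinf : W ⊓ W' = ⊥ := by
    rw [eq_bot_iff]
    rintro x ⟨hx1, hx2⟩
    rw [Submodule.mem_bot]
    apply hW x hx1
    intro y hy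
    rw [polar_comm]
    exact (hW'mem x).mp hx2 y hy
  have hW'nd : NDsub Q W' := by
    rw [hW'def]
    apply ndsub_orth hS
    rw [← hW'def]
    exact hinf
  have hfW' : finrank F W' = finrank F V - finrank F W := by
    rw [hW'def, LinearMap.BilinForm.finrank_orthogonal (nondegenerate_of_sep hS)]
  have hWle : finrank F W ≤ finrank F V := Submodule.finrank_le W
  have hsup : W ⊔ W' = ⊤ := by
    apply Submodule.eq_top_of_finrank_eq
    have h3 := Submodule.finrank_sup_add_finrank_inf_eq W W'
    rw [hinf, finrank_bot] at h3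
    omega
  have hpol : ∀ u v, polar Q (A u) (A v) = polar Q u v := by
    intro u v
    unfold polar
    rw [← map_add, hA, hA, hA]
  have hAinj : Function.Injective A := by
    rw [injective_iff_map_eq_zero]
    intro v hv
    apply hS
    intro y
    rw [← hpol, hv]
    simp [polar]
  have hsurj : ∀ w ∈ W, ∃ w₂ ∈ W, A w₂ = w := by
    have hinjr : Function.Injective (A.restrict hAW) := by
      intro a b hab
      apply Subtype.ext
      apply hAinj
      have := congrArg (Subtype.val) hab
      simpa [LinearMap.restrict_apply] using this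
    have hsur := LinearMap.injective_iff_surjective.mp hinjr
    intro w hw
    obtain ⟨w₂, hw₂⟩ := hsur ⟨w, hw⟩
    refine ⟨w₂.1, w₂.2, ?_⟩
    have := congrArg (Subtype.val) hw₂
    simpa [LinearMap.restrict_apply] using this
  have hAW' : ∀ v ∈ W', A v ∈ W' := by
    intro v hv
    rw [hW'mem]
    intro w hw
    obtain ⟨w₂, hw₂, rfl⟩ := hsurj w hw
    rw [hpol]
    exact (hW'mem v).mp hv w₂ hw₂
  have hNW : ∀ w ∈ W, N w ∈ W := by
    intro w hw
    rw [hN]
    exact W.sub_mem (hAW w hw) hw
  have hNW' : ∀ w ∈ W', N w ∈ W' := by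
    intro w hw
    rw [hN]
    exact W'.sub_mem (hAW' w hw) hw
  -- the image of `N` is totally singular
  have hsing : ∀ v, Q (N v) = 0 := by
    intro w
    have hfix : A (N w) = N w := by
      rw [hAN, hNN, add_zero]
    obtain ⟨t, ht⟩ : ∃ t, t = N w := ⟨_, rfl⟩
    rw [← ht] at hfix ⊢
    have e1 : polar Q (A w) t = polar Q w t := by
      calc polar Q (A w) t = polar Q (A w) (A t) := by rw [hfix]
        _ = polar Q w t := hpol w t
    have h6 : polar Q t t = 0 := by
      conv_lhs => arg 2; rw [ht, hN w]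
      rw [polar_sub_left, e1, sub_self]
    rw [polar_self'] at h6
    exact (mul_eq_zero.mp h6).resolve_left h2
  have hNNpol : ∀ u v, polar Q (N u) (N v) = 0 := by
    intro u v
    unfold polar
    rw [← map_add, hsing, hsing, hsing]
    simp
  have hskew : ∀ u v, polar Q (N u) v = - polar Q u (N v) := by
    intro u v
    have h := hpol u v
    rw [hAN u, hAN v, polar_add_left, polar_add_right, polar_add_right, hNNpol] at h
    linear_combination h
  have halt : ∀ u, polar Q u (N u) = 0 := by
    intro u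
    have h := hskew u u
    rw [polar_comm] at h
    have h' : (2 : F) * polar Q u (N u) = 0 := by linear_combination h
    exact (mul_eq_zero.mp h').resolve_left h2
  have hT₁W : W.map N ≤ W := by
    rintro t ht1
    obtain ⟨w, hw, rfl⟩ := Submodule.mem_map.mp ht1
    exact hNW w hw
  have hT₂W' : W'.map N ≤ W' := by
    rintro t ht1
    obtain ⟨w, hw, rfl⟩ := Submodule.mem_map.mp ht1
    exact hNW' w hw
  have hsingmap : ∀ (U : Submodule F V), ∀ t ∈ U.map N, Q t = 0 := by
    intro U t ht
    obtain ⟨w, -, rfl⟩ := Submodule.mem_map.mp ht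
    exact hsing w
  have hle : LinearMap.range N ≤ W.map N ⊔ W'.map N := by
    rintro t ht1
    obtain ⟨v, rfl⟩ := LinearMap.mem_range.mp ht1
    have hv : v ∈ W ⊔ W' := by rw [hsup]; exact Submodule.mem_top
    obtain ⟨w, hw, w', hw', rfl⟩ := Submodule.mem_sup.mp hv
    rw [map_add]
    exact Submodule.add_mem_sup (Submodule.mem_map_of_mem hw) (Submodule.mem_map_of_mem hw')
  have hd1 := Submodule.finrank_mono hle
  have hd2 := Submodule.finrank_add_le_finrank_add_finrank (W.map N) (W'.map N)
  have hd3 := ts_half Q hW hT₁W (hsingmap W)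
  have hd4 := ts_half Q hW'nd hT₂W' (hsingmap W')
  -- evenness of the rank of `N` on `W`
  obtain ⟨g, hg⟩ : ∃ g : ↥W →ₗ[F] V, g = N.domRestrict W := ⟨_, rfl⟩
  have hgapp : ∀ w : W, g w = N (w : V) := by
    intro w
    rw [hg]
    rfl
  have hrange : LinearMap.range g = W.map N := by rw [hg, LinearMap.range_domRestrict]
  have hrn := LinearMap.finrank_range_add_finrank_ker g
  obtain ⟨C, hC⟩ := Submodule.exists_isCompl (LinearMap.ker g)
  have hCdim := Submodule.finrank_add_eq_of_isCompl hC
  obtain ⟨β, hβ⟩ : ∃ β : LinearMap.BilinForm F ↥C,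
      ∀ a b : ↥C, β a b = polar Q ((a : W) : V) (N ((b : W) : V)) :=
    ⟨LinearMap.BilinForm.restrict
      (LinearMap.BilinForm.restrict ((polarBilin Q).compl₂ N) W) C, fun a b => rfl⟩
  have hev : Even (finrank F ↥C) := by
    apply Cfsg.Agent.Lib.Helper40.AltRank.even_finrank_of_alt β
    · intro a
      rw [hβ]
      exact halt _
    · intro c hc
      have h1 : ∀ w : W, polar Q ((c : W) : V) (N (w : V)) = 0 := by
        intro w
        have hw : w ∈ LinearMap.ker g ⊔ C := by
          rw [hC.sup_eq_top]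
          exact Submodule.mem_top
        obtain ⟨k, hk, c', hc', rfl⟩ := Submodule.mem_sup.mp hw
        have hk0 : N (k : V) = 0 := by
          rw [← hgapp]
          exact hk
        rw [Submodule.coe_add, map_add, hk0, zero_add]
        have h := hc ⟨c', hc'⟩
        rwa [hβ] at h
      have h2' : N ((c : W) : V) = 0 := by
        apply hW _ (hNW _ (c : W).2)
        intro y hy
        rw [hskew, h1 ⟨y, hy⟩, neg_zero]
      have h3 : (c : W) ∈ LinearMap.ker g ⊓ C := by
        refine ⟨?_, c.2⟩
        show g (c : W) = 0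
        rw [hgapp]
        exact h2'
      rw [hC.inf_eq_bot, Submodule.mem_bot] at h3
      exact Subtype.ext h3
  rw [hrange] at hrn
  obtain ⟨s, hs⟩ := hev
  obtain ⟨k, hk'⟩ := hm
  constructor
  · omega
  · intro heq
    omega

end gen

theorem main : PFixA.{u} := by
  intro F _ _ hodd d m hd hm x hx hT W hW hND hStab
  have h2 : (2 : F) ≠ 0 := by
    apply Ring.two_ne_zero
    intro hc
    have := FiniteField.even_card_iff_char_two.mp hc
    rw [Nat.odd_iff] at hodd
    omega
  have hS : Sep (plusQ d F) := sep_plusQ d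
  have hA : ∀ v, plusQ d F (Matrix.toLin' (x : Matrix (P d) (P d) F) v) = plusQ d F v := by
    intro v
    rw [Matrix.toLin'_apply]
    exact hx v v
  have hWnd : NDsub (plusQ d F) W := by
    intro y hy hyz
    by_contra hy0
    obtain ⟨-, z, hz, hz0⟩ := hND y hy hy0
    exact hz0 (hyz z hz)
  have hAW : ∀ w ∈ W, Matrix.toLin' (x : Matrix (P d) (P d) F) w ∈ W := by
    intro w hw
    exact hStab (Submodule.mem_map_of_mem hw)
  have hV : finrank F (P d → F) = 2 * d := by
    rw [Module.finrank_fintype_fun_eq_card, Fintype.card_sum, Fintype.card_fin]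
    omega
  have hNN : ∀ v, (Matrix.toLin' (x : Matrix (P d) (P d) F) - LinearMap.id :
      (P d → F) →ₗ[F] (P d → F))
      ((Matrix.toLin' (x : Matrix (P d) (P d) F) - LinearMap.id :
      (P d → F) →ₗ[F] (P d → F)) v) = 0 := by
    intro v
    have h1 : NP (x : Matrix (P d) (P d) F) v ∈ FxP (x : Matrix (P d) (P d) F) :=
      hT (LinearMap.mem_range_self _ v)
    exact LinearMap.mem_ker.mp h1
  exact coreA h2 (plusQ d F) hS (Matrix.toLin' (x : Matrix (P d) (P d) F)) hA hNN W hWnd hAW
    m hm hW d hd hV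

end Cfsg.Agent.Lib.Helper77.OPPFIXA
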