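import Mathlib
import Cfsg.Prelude.Def_GeometricClasses

set_option maxHeartbeats 400000

/-!
# Field subalgebras of matrix algebras as fields (tools for S5975)
-/

namespace Cfsg.Agent.Lib.Helper77.SpFField

universe u

variable {F : Type u} [Field F] {ι : Type} [Fintype ι] [DecidableEq ι]

theorem isField_of {r : ℕ} (K : Subalgebra F (Matrix ι ι F))
    (hK : Cfsg.Geo.IsFieldSubalgebra r K) [Nontrivial (Matrix ι ι F)] : IsField ↥K where
  exists_pair_ne := ⟨0, 1, fun h => zero_ne_one (congrArg Subtype.val h)⟩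
  mul_comm := fun a b => Subtype.ext (hK.comm a.1 a.2 b.1 b.2)
  mul_inv_cancel := fun {a} ha => by
    obtain ⟨b, hbK, hb⟩ := hK.inv a.1 a.2 (fun h0 => ha (Subtype.ext h0))
    exact ⟨⟨b, hbK⟩, Subtype.ext hb⟩

/-- the field structure on a field subalgebra (same ring structure) -/
@[reducible] noncomputable def fieldK {r : ℕ} (K : Subalgebra F (Matrix ι ι F))
    (hK : Cfsg.Geo.IsFieldSubalgebra r K) [Nontrivial (Matrix ι ι F)] : Field ↥K :=
  { (inferInstance : Ring ↥K), IsField.toSemifield (isField_of K hK) with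
    qsmul := _
    qsmul_def := fun _ _ => rfl }

/-- rank of a difference -/
theorem rank_sub_le' (A B : Matrix ι ι F) : (A - B).rank ≤ A.rank + B.rank := by
  unfold Matrix.rank
  have h : LinearMap.range (A - B).mulVecLin
      ≤ LinearMap.range A.mulVecLin ⊔ LinearMap.range B.mulVecLin := by
    rintro _ ⟨v, rfl⟩
    rw [Submodule.mem_sup]
    refine ⟨A.mulVecLin v, ⟨v, rfl⟩, -(B.mulVecLin v), Submodule.neg_mem _ ⟨v, rfl⟩, ?_⟩
    simp [Matrix.sub_mulVec, sub_eq_add_neg]
  exact (Submodule.finrank_mono h).trans (Submodule.finrank_add_le_finrank_add_finrank _ _)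

/-- a `K`-invariant subspace has dimension divisible by the degree -/
theorem dvd_finrank {r : ℕ} (K : Subalgebra F (Matrix ι ι F))
    (hK : Cfsg.Geo.IsFieldSubalgebra r K) (U : Submodule F (ι → F))
    (hU : ∀ a ∈ K, ∀ u ∈ U, a.mulVec u ∈ U) : r ∣ Module.finrank F U := by
  rcases subsingleton_or_nontrivial (Matrix ι ι F) with hs | hn
  · -- the index type is empty
    have hι : IsEmpty ι := by
      by_contra hne
      rw [not_isEmpty_iff] at hne
      haveI := hne
      exact not_subsingleton (Matrix ι ι F) hs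
    haveI : Subsingleton (ι → F) := inferInstance
    have : Module.finrank F U = 0 := Module.finrank_zero_of_subsingleton
    rw [this]
    exact dvd_zero _
  · letI : Field ↥K := fieldK K hK
    letI : Module ↥K ↥U :=
      { smul := fun a u => ⟨a.1.mulVec u.1, hU a.1 a.2 u.1 u.2⟩
        one_smul := fun u => Subtype.ext (Matrix.one_mulVec _)
        mul_smul := fun a b u => Subtype.ext (Matrix.mulVec_mulVec _ _ _).symm
        smul_zero := fun a => Subtype.ext (Matrix.mulVec_zero _)
        smul_add := fun a u v => Subtype.ext (Matrix.mulVec_add _ _ _)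
        add_smul := fun a b u => Subtype.ext (Matrix.add_mulVec _ _ _)
        zero_smul := fun u => Subtype.ext (Matrix.zero_mulVec _) }
    haveI : IsScalarTower F ↥K ↥U :=
      ⟨fun c a u => Subtype.ext (Matrix.smul_mulVec c a.1 u.1)⟩
    have h := Module.finrank_mul_finrank F ↥K ↥U
    rw [hK.finrank_eq] at h
    exact ⟨_, h.symm⟩

end Cfsg.Agent.Lib.Helper77.SpFField
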