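import Mathlib
import Cfsg.Agent.Lib.Helper94.OPStmt

set_option autoImplicit false
set_option maxHeartbeats 400000

namespace Cfsg.Agent.Lib.Helper77.OPTOPNDP

open Cfsg.Agent.Lib.Helper94.OPStmt
open scoped Matrix

universe u

/-- the polar form of the standard plus form -/
theorem polar_formula (d : ℕ) (F : Type u) [Field F] (u v : P d → F) :
    QuadraticMap.polar (Cfsg.quadFormPlus d F) u v =
      ∑ i : Fin d, (u (.inl i) * v (.inr i) + v (.inl i) * u (.inr i)) := by
  unfold QuadraticMap.polar Cfsg.quadFormPlus
  simp only [Pi.add_apply]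
  rw [← Finset.sum_sub_distrib, ← Finset.sum_sub_distrib]
  apply Finset.sum_congr rfl
  intro i _
  ring

theorem main : TopNDP.{u} := by
  intro F _ _ _ d
  classical
  have key : ∀ w : P d → F, w ≠ 0 →
      ∃ x : P d → F, QuadraticMap.polar (Cfsg.quadFormPlus d F) x w ≠ 0 := by
    intro w hw
    have hex : ∃ j, w j ≠ 0 := by
      by_contra hno
      push_neg at hno
      exact hw (funext hno)
    obtain ⟨j, hj⟩ := hex
    rcases j with i | i
    · refine ⟨Pi.single (Sum.inr i) 1, ?_⟩
      rw [polar_formula]
      simp only [Pi.single_apply, Sum.inr.injEq, reduceCtorEq, if_false, mul_zero, zero_mul,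
        zero_add]
      rw [Finset.sum_eq_single i]
      · simpa using hj
      · intro b _ hb
        rw [if_neg (fun h => hb h)]
        ring
      · intro h
        exact absurd (Finset.mem_univ i) h
    · refine ⟨Pi.single (Sum.inl i) 1, ?_⟩
      rw [polar_formula]
      simp only [Pi.single_apply, Sum.inl.injEq, reduceCtorEq, if_false, mul_zero, zero_mul,
        add_zero]
      rw [Finset.sum_eq_single i]
      · simpa using hj
      · intro b _ hb
        rw [if_neg (fun h => hb h)]
        ring
      · intro h
        exact absurd (Finset.mem_univ i) h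
  intro w _ hw
  obtain ⟨x, hx⟩ := key w hw
  refine ⟨⟨x, Submodule.mem_top, hx⟩, ⟨x, Submodule.mem_top, ?_⟩⟩
  rw [QuadraticMap.polar_comm]
  exact hx

end Cfsg.Agent.Lib.Helper77.OPTOPNDP
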