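import Cfsg.Agent.Lib.Helper77.BPNil

/-!
# Brauer pairs of a block of `C_G(Q)` as Brauer pairs of `G`
-/

set_option autoImplicit false

namespace Cfsg.Agent.Lib.Helper77.BPCentPair

open Cfsg Cfsg.Agent.Lib.Helper77.LocalRing Cfsg.Agent.Lib.Helper77.CentralChar
  Cfsg.Agent.Lib.Helper77.ClassSum Cfsg.Agent.Lib.Helper77.BlockIdem
  Cfsg.Agent.Lib.Helper77.OsimaVanish Cfsg.Agent.Lib.Helper77.IdemIn
  Cfsg.Agent.Lib.Helper77.BPBasic Cfsg.Agent.Lib.Helper77.BPBrauer
  Cfsg.Agent.Lib.Helper77.BPPairs Cfsg.Agent.Lib.Helper77.BPConj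
  Cfsg.Agent.Lib.Helper77.BPNormal Cfsg.Agent.Lib.Helper77.BPSubpair
  Cfsg.Agent.Lib.Helper77.BPIdem Cfsg.Agent.Lib.Helper77.BPMax
  Cfsg.Agent.Lib.Helper77.BPMax2 Cfsg.Agent.Lib.Helper77.BPEquiv
  Cfsg.Agent.Lib.Helper77.BPEquiv2
  Cfsg.Agent.Lib.Helper77.BPTransport Cfsg.Agent.Lib.Helper77.BPConjMax
  Cfsg.Agent.Lib.Helper77.BPCent Cfsg.Agent.Lib.Helper77.BPStab
  Cfsg.Agent.Lib.Helper77.BPNorm Cfsg.Agent.Lib.Helper77.BPFix
  Cfsg.Agent.Lib.Helper77.BPSub Cfsg.Agent.Lib.Helper77.BPUp Cfsg.Agent.Lib.Helper77.BPNil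
  Cfsg.Agent.Lib.CT.Wedderburn Cfsg.Agent.Lib.Helper16.ZR Cfsg.Agent.Lib.Helper33.Conj
  Cfsg.Agent.Lib.Helper16.MinMax

universe u
variable {G : Type u} [Group G] {M : Ideal AlgInt}

/-- The centralizer in `G` of `Q R'` is the centralizer of `R'` in `C_G(Q)`. -/
theorem hS_sup (Q : Subgroup G) (R' : Subgroup (Subgroup.centralizer (Q : Set G))) :
    ∀ y : G, y ∈ Subgroup.centralizer
        ((Q ⊔ R'.map (Subgroup.centralizer (Q : Set G)).subtype : Subgroup G) : Set G) ↔
      ∃ hy : y ∈ Subgroup.centralizer (Q : Set G),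
        (⟨y, hy⟩ : Subgroup.centralizer (Q : Set G)) ∈ Subgroup.centralizer (R' : Set _) := by
  intro y
  constructor
  · intro hy
    refine ⟨Subgroup.centralizer_le (by exact_mod_cast le_sup_left) hy, ?_⟩
    rw [Subgroup.mem_centralizer_iff] at hy ⊢
    intro r hr
    apply Subtype.ext
    exact hy r ((le_sup_right : R'.map (Subgroup.centralizer (Q : Set G)).subtype ≤ _)
      ⟨r, hr, rfl⟩)
  · rintro ⟨hy, hy'⟩
    have h1 : Q ⊔ R'.map (Subgroup.centralizer (Q : Set G)).subtype ≤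
        Subgroup.centralizer ({y} : Set G) := by
      apply sup_le
      · intro q hq
        rw [mem_centralizer_singleton]
        exact (Subgroup.mem_centralizer_iff.mp hy q hq).symm
      · rintro _ ⟨r, hr, rfl⟩
        rw [mem_centralizer_singleton]
        exact (congrArg Subtype.val (Subgroup.mem_centralizer_iff.mp hy' r hr)).symm
    rw [Subgroup.mem_centralizer_iff]
    intro s hs
    have h2 := h1 hs
    rw [mem_centralizer_singleton] at h2
    exact h2.symm

/-- A Brauer pair `(R', g')` of the block `f` of `C_G(Q)` gives the Brauer pair `(Q R', g')` of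
`G`, which normally contains `(Q, f)`. -/
theorem isNormalSubpair_sup [Finite G] {p : ℕ} [Fact p.Prime] {Q : Subgroup G}
    {f : Set (IrrCharacter (Subgroup.centralizer (Q : Set G)))} (hQf : IsBrauerPair p M Q f)
    (R' : Subgroup (Subgroup.centralizer (Q : Set G)))
    (g' : Set (IrrCharacter (Subgroup.centralizer (R' : Set (Subgroup.centralizer (Q : Set G))))))
    (h : IsBrauerPairOf p M f R' g') :
    IsNormalSubpair p M Q f (Q ⊔ R'.map (Subgroup.centralizer (Q : Set G)).subtype)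
      (pull (zIso (Subgroup.centralizer (Q : Set G)) R' _ (hS_sup Q R')).symm '' g') := by
  have hRC : R'.map (Subgroup.centralizer (Q : Set G)).subtype ≤
      Subgroup.centralizer (Q : Set G) := Subgroup.map_subtype_le R'
  have hCN : Subgroup.centralizer (Q : Set G) ≤ Subgroup.normalizer (Q : Set G) :=
    Subgroup.centralizer_le_normalizer _
  have hRN : R'.map (Subgroup.centralizer (Q : Set G)).subtype ≤
      Subgroup.normalizer (Q : Set G) := hRC.trans hCN
  have hSst : Q ⊔ R'.map (Subgroup.centralizer (Q : Set G)).subtype ≤ stab Q f := by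
    apply sup_le
    · intro q hq
      exact mem_stab.mpr ⟨Subgroup.le_normalizer hq, stabilizes_of_mem Q f hq⟩
    · intro r hr
      exact mem_stab.mpr ⟨hRN hr, stabilizes_of_mem_centralizer Q f (hRC hr)⟩
  refine ⟨hQf, ⟨?_, isPBlock_pull _ h.1.2⟩, le_sup_left, ?_, ?_, ?_⟩
  · exact IsPGroup.to_sup_of_normal_left' hQf.1 (h.1.1.map _) hRN
  · intro x hx
    exact (mem_stab.mp (hSst hx)).1
  · intro x hx
    exact (mem_stab.mp (hSst hx)).2
  · rintro ξ ⟨ξ', hξ', rfl⟩
    have h2 := h.2.2 ξ' hξ'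
    have h3 := brauerOmega_zIso (Subgroup.centralizer (Q : Set G)) R' _ (hS_sup Q R')
      (subgroupBlockCoeff (Subgroup.centralizer (Q : Set G)) f) (blockCoeff f)
      (fun h => (subgroupBlockCoeff_coe _ f h).symm)
      (pull (zIso (Subgroup.centralizer (Q : Set G)) R' _ (hS_sup Q R')).symm ξ' : _ → ℂ)
    have h4 : (fun x => (pull (zIso (Subgroup.centralizer (Q : Set G)) R' _
        (hS_sup Q R')).symm ξ' : _ → ℂ)
        (zIso (Subgroup.centralizer (Q : Set G)) R' _ (hS_sup Q R') x)) = (ξ' : _ → ℂ) := by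
      funext x
      rw [pull_apply, MulEquiv.symm_apply_apply]
    rw [h4] at h3
    rw [← h3]
    exact h2

/-- Nilpotency passes to the blocks of centralizers. -/
theorem isNilpotentBlock_centralizer [Finite G] {p : ℕ} [Fact p.Prime] (hM : IsPModular p M)
    {B : Set (IrrCharacter G)} (hnil : IsNilpotentBlock p M B) {Q : Subgroup G}
    {f : Set (IrrCharacter (Subgroup.centralizer (Q : Set G)))}
    (hQf : IsBrauerPairOf p M B Q f) : IsNilpotentBlock p M f := by
  refine ⟨hQf.1.2, fun R' g' hpair x hxN hxs hreg => ?_⟩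
  have hn := isNormalSubpair_sup hQf.1 R' g' hpair
  have hBS := (isBrauerPairOf_iff_of_normal hM hn B hQf.2.1).mpr hQf
  have hxS : (x : G) ∈ Subgroup.normalizer
      ((Q ⊔ R'.map (Subgroup.centralizer (Q : Set G)).subtype : Subgroup G) : Set G) := by
    rw [mem_normalizer_iff_cj_eq, Subgroup.map_sup, ← map_cj, cj_eq_of_mem_normalizer hxN,
      cj_eq_of_mem_normalizer (Subgroup.centralizer_le_normalizer _ x.2)]
  have h1 := hnil.2 _ _ hBS (x : G) hxS ?_ ?_
  · obtain ⟨hy, hy'⟩ := (hS_sup Q R' (x : G)).mp h1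
    exact hy'
  · refine ⟨normalizer_le_normalizer_centralizer _ hxS, ?_⟩
    rintro ξ ⟨χ, hχ, rfl⟩
    obtain ⟨χ', hχ', hconj⟩ := hxs.2 χ hχ
    refine ⟨_, ⟨χ', hχ', rfl⟩, ?_⟩
    intro k k' hkk'
    rw [pull_apply, pull_apply]
    apply hconj
    apply Subtype.ext
    show ((((zIso (Subgroup.centralizer (Q : Set G)) R' _ (hS_sup Q R')).symm k' : _) :
      Subgroup.centralizer (Q : Set G)) : G) = (x : G) *
      ((((zIso (Subgroup.centralizer (Q : Set G)) R' _ (hS_sup Q R')).symm k : _) :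
      Subgroup.centralizer (Q : Set G)) : G) * (x : G)⁻¹
    rw [coe_zIso_symm, coe_zIso_symm, hkk']
  · unfold IsPRegular
    rw [Subgroup.orderOf_coe]
    exact hreg

end Cfsg.Agent.Lib.Helper77.BPCentPair
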