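import Cfsg.Agent.Lib.Helper77.BPCentPair

/-!
# Brauer pairs with normalizer the whole group; blocks of `Q C_G(Q)` with small defect groups
-/

set_option autoImplicit false

namespace Cfsg.Agent.Lib.Helper77.BPCentric

open Cfsg Cfsg.Agent.Lib.Helper77.LocalRing Cfsg.Agent.Lib.Helper77.CentralChar
  Cfsg.Agent.Lib.Helper77.ClassSum Cfsg.Agent.Lib.Helper77.BlockIdem
  Cfsg.Agent.Lib.Helper77.OsimaVanish Cfsg.Agent.Lib.Helper77.IdemIn
  Cfsg.Agent.Lib.Helper77.BPBasic Cfsg.Agent.Lib.Helper77.BPBrauer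
  Cfsg.Agent.Lib.Helper77.BPPairs Cfsg.Agent.Lib.Helper77.BPConj
  Cfsg.Agent.Lib.Helper77.BPNormal Cfsg.Agent.Lib.Helper77.BPSubpair
  Cfsg.Agent.Lib.Helper77.BPIdem Cfsg.Agent.Lib.Helper77.BPMax
  Cfsg.Agent.Lib.Helper77.BPMax2 Cfsg.Agent.Lib.Helper77.BPEquiv
  Cfsg.Agent.Lib.Helper77.BPEquiv2
  Cfsg.Agent.Lib.Helper77.BPTransport Cfsg.Agent.Lib.Helper77.BPConjMax
  Cfsg.Agent.Lib.Helper77.BPCent Cfsg.Agent.Lib.Helper77.BPStab
  Cfsg.Agent.Lib.Helper77.BPNorm Cfsg.Agent.Lib.Helper77.BPFix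
  Cfsg.Agent.Lib.Helper77.BPSub Cfsg.Agent.Lib.Helper77.BPUp Cfsg.Agent.Lib.Helper77.BPNil
  Cfsg.Agent.Lib.Helper77.BPCentPair
  Cfsg.Agent.Lib.CT.Wedderburn Cfsg.Agent.Lib.Helper16.ZR Cfsg.Agent.Lib.Helper33.Conj
  Cfsg.Agent.Lib.Helper16.MinMax

universe u
variable {G : Type u} [Group G] {M : Ideal AlgInt}

/-- If the whole group stabilizes the Brauer pair `(Q, f)` of `B`, then the idempotent of `B` is
the idempotent of `f`. -/
theorem blockCoeff_eq_of_stab_top [Finite G] {p : ℕ} [Fact p.Prime] (hM : IsPModular p M)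
    {B : Set (IrrCharacter G)} {Q : Subgroup G}
    {f : Set (IrrCharacter (Subgroup.centralizer (Q : Set G)))}
    (hBQ : IsBrauerPairOf p M B Q f)
    (hG : ∀ x : G, x ∈ Subgroup.normalizer (Q : Set G) ∧
      StabilizesBlock (Subgroup.centralizer (Q : Set G)) f x) (g : G) :
    blockCoeff B g = subgroupBlockCoeff (Subgroup.centralizer (Q : Set G)) f g := by
  have hMp := isPrime_of_isPModular hM
  obtain ⟨F₀, hF₀, hF₀c⟩ := exists_block_coeff hM hBQ.1.1 hBQ.1.2 (⊤ : Subgroup G) le_top le_top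
    (fun x _ => (hG x).1) (fun x _ => (hG x).2)
  obtain ⟨B', hB'⟩ : ∃ B' : Set (IrrCharacter G),
      B' = pull (Subgroup.topEquiv (G := G)).symm '' F₀ := ⟨_, rfl⟩
  have hB'blk : IsPBlock M B' := by
    rw [hB']
    exact isPBlock_pull _ hF₀
  have hB'c : ∀ g : G, blockCoeff B' g =
      subgroupBlockCoeff (Subgroup.centralizer (Q : Set G)) f g := by
    intro g
    rw [hB', blockCoeff_pull, hF₀c]
    rfl
  have hpair' : IsBrauerPairOf p M B' Q f := by
    refine ⟨hBQ.1, hB'blk, fun ξ hξ => ?_⟩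
    have h1 : blockCoeff B' = subgroupBlockCoeff (Subgroup.centralizer (Q : Set G)) f :=
      funext hB'c
    rw [h1, brauerOmega_eq, ofFun_subgroupBlockCoeff, om_ext_blockIdem, if_pos hξ, sub_self]
    exact memLocalIdeal_zero hMp
  obtain ⟨χ₀, hχ₀⟩ := isBrauerPairOf_iff hM Q f hBQ.1
  have h1 : χ₀ ∈ B := (hχ₀ B hBQ.2.1).mp hBQ
  have h2 : χ₀ ∈ B' := (hχ₀ B' hB'blk).mp hpair'
  have h3 : B = B' := by
    rw [isPBlock_eq_blockOf hMp hBQ.2.1 h1, isPBlock_eq_blockOf hMp hB'blk h2]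
  rw [h3]
  exact hB'c g

/-- A normal `p`-subgroup `Q` of `L` lies in every defect group of the block of `L` above `f`. -/
theorem le_defectGroup [Finite G] {p : ℕ} [Fact p.Prime] (hM : IsPModular p M)
    {Q : Subgroup G} {f : Set (IrrCharacter (Subgroup.centralizer (Q : Set G)))}
    (hQf : IsBrauerPair p M Q f) (L : Subgroup G) (hQL : Q ≤ L)
    (hCL : Subgroup.centralizer (Q : Set G) ≤ L) (hLN : L ≤ Subgroup.normalizer (Q : Set G))
    (F' : Set (IrrCharacter L)) (hF' : IsPBlock M F')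
    (hFc : ∀ t : L, blockCoeff F' t =
      subgroupBlockCoeff (Subgroup.centralizer (Q : Set G)) f (t : G))
    (D : Subgroup L) (hD : IsDefectGroup p M F' D) : Q.subgroupOf L ≤ D := by
  obtain ⟨D₁, hD₁, hle₁⟩ := exists_defectGroup_ge_normalizer hM hQf
    (Relation.ReflTransGen.refl : SubpairLE p M Q f Q f) L hCL F' hF' hFc
  have hQN : Q ⊓ Subgroup.normalizer (Q : Set G) = Q := inf_eq_left.mpr Subgroup.le_normalizer
  rw [hQN] at hle₁
  obtain ⟨t, ht⟩ := defectGroup_conj hM F' hF' hD₁ hD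
  haveI : (Q.subgroupOf L).Normal :=
    (Subgroup.normal_subgroupOf_iff_le_normalizer hQL).mpr hLN
  have h2 : (Q.subgroupOf L).map (MulAut.conj t).toMonoidHom = Q.subgroupOf L := by
    apply cj_eq_of_mem_normalizer
    rw [Subgroup.normalizer_eq_top]
    trivial
  rw [ht, ← h2]
  exact cj_mono hle₁

/-- If `L = Q C_G(Q)` and the defect groups of `f` lie in `Q`, then the defect groups of the block
of `L` above `f` lie in `Q`. -/
theorem defectGroup_le [Finite G] {p : ℕ} [Fact p.Prime] (hM : IsPModular p M)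
    {Q : Subgroup G} {f : Set (IrrCharacter (Subgroup.centralizer (Q : Set G)))}
    (hQf : IsBrauerPair p M Q f) (L : Subgroup G) (hQL : Q ≤ L)
    (hCL : Subgroup.centralizer (Q : Set G) ≤ L) (hLN : L ≤ Subgroup.normalizer (Q : Set G))
    (F' : Set (IrrCharacter L)) (hF' : IsPBlock M F')
    (hFc : ∀ t : L, blockCoeff F' t =
      subgroupBlockCoeff (Subgroup.centralizer (Q : Set G)) f (t : G))
    (h1 : ∀ t ∈ L, ∃ q ∈ Q, q⁻¹ * t ∈ Subgroup.centralizer (Q : Set G))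
    (h2 : ∀ Df : Subgroup (Subgroup.centralizer (Q : Set G)), IsDefectGroup p M f Df →
      Df.map (Subgroup.centralizer (Q : Set G)).subtype ≤ Q)
    (D : Subgroup L) (hD : IsDefectGroup p M F' D) : D.map L.subtype ≤ Q := by
  classical
  have hMp := isPrime_of_isPModular hM
  have hQD := le_defectGroup hM hQf L hQL hCL hLN F' hF' hFc D hD
  obtain ⟨c₀, hc₀, hsyl⟩ := isDefectGroup_iff.mp hD
  have hcoef : ¬ MemLocalIdeal M
      (subgroupBlockCoeff (Subgroup.centralizer (Q : Set G)) f (c₀ : G)) := by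
    rw [← hFc]
    exact hc₀.2.1
  have hc₀C : (c₀ : G) ∈ Subgroup.centralizer (Q : Set G) := by
    by_contra hcon
    apply hcoef
    unfold subgroupBlockCoeff
    rw [dif_neg hcon]
    exact memLocalIdeal_zero hMp
  have hcoef' : ¬ MemLocalIdeal M (blockCoeff f ⟨(c₀ : G), hc₀C⟩) := by
    rw [← subgroupBlockCoeff_coe]
    exact hcoef
  have hD₀p : IsPGroup p ((D.map L.subtype).subgroupOf (Subgroup.centralizer (Q : Set G))) :=
    (hsyl.2.1.map _).comap_subtype
  obtain ⟨Df, hDf, hle⟩ := exists_defectGroup_ge hM f hQf.2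
    ((D.map L.subtype).subgroupOf (Subgroup.centralizer (Q : Set G))) hD₀p
    ⟨(c₀ : G), hc₀C⟩ hcoef' (by
      intro d hd
      rw [Subgroup.mem_subgroupOf] at hd
      obtain ⟨d', hd', hdd'⟩ := hd
      have h3 := hsyl.1 hd'
      rw [mem_centralizer_singleton] at h3 ⊢
      apply Subtype.ext
      have h4 := congrArg Subtype.val h3
      rw [Subgroup.coe_mul, Subgroup.coe_mul] at h4 ⊢
      have h5 : ((L.subtype d' : G)) = (d' : G) := rfl
      rw [← hdd', h5]
      exact h4)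
  have hinf : ∀ d ∈ D.map L.subtype, d ∈ Subgroup.centralizer (Q : Set G) → d ∈ Q := by
    intro d hd hdC
    have h3 : (⟨d, hdC⟩ : Subgroup.centralizer (Q : Set G)) ∈ Df :=
      hle (Subgroup.mem_subgroupOf.mpr hd)
    exact h2 Df hDf ⟨⟨d, hdC⟩, h3, rfl⟩
  intro d hd
  have hdL : d ∈ L := Subgroup.map_subtype_le D hd
  obtain ⟨q, hq, hqc⟩ := h1 d hdL
  have hqD : q ∈ D.map L.subtype :=
    ⟨⟨q, hQL hq⟩, hQD (Subgroup.mem_subgroupOf.mpr hq), rfl⟩
  have h3 := hinf (q⁻¹ * d) (mul_mem (inv_mem hqD) hd) hqc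
  have h4 := mul_mem hq h3
  rwa [mul_inv_cancel_left] at h4

/-- If `L = Q C_G(Q)` and the defect groups of `f` lie in `Q`, then the block of `L` above `f` is
nilpotent. -/
theorem isNilpotentBlock_of_le [Finite G] {p : ℕ} [Fact p.Prime] (hM : IsPModular p M)
    {Q : Subgroup G} {f : Set (IrrCharacter (Subgroup.centralizer (Q : Set G)))}
    (hQf : IsBrauerPair p M Q f) (L : Subgroup G) (hQL : Q ≤ L)
    (hCL : Subgroup.centralizer (Q : Set G) ≤ L) (hLN : L ≤ Subgroup.normalizer (Q : Set G))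
    (F' : Set (IrrCharacter L)) (hF' : IsPBlock M F')
    (hFc : ∀ t : L, blockCoeff F' t =
      subgroupBlockCoeff (Subgroup.centralizer (Q : Set G)) f (t : G))
    (h1 : ∀ t ∈ L, ∃ q ∈ Q, q⁻¹ * t ∈ Subgroup.centralizer (Q : Set G))
    (h2 : ∀ Df : Subgroup (Subgroup.centralizer (Q : Set G)), IsDefectGroup p M f Df →
      Df.map (Subgroup.centralizer (Q : Set G)).subtype ≤ Q) :
    IsNilpotentBlock p M F' := by
  classical
  have hp : p.Prime := Fact.out
  refine ⟨hF', fun R' g' hpair x hxN hxs hreg => ?_⟩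
  obtain ⟨d, hdmax, hRd⟩ := exists_maximal_above (p := p) (M := M) F' _ ⟨R', g'⟩ ⟨R', g'⟩ hpair
    Relation.ReflTransGen.refl rfl
  have hR'd : R' ≤ d.1 := le_of_subpairLE (p := p) (M := M) ⟨R', g'⟩ d hRd
  have hdQ := defectGroup_le hM hQf L hQL hCL hLN F' hF' hFc h1 h2 d.1
    (isDefectGroup_of_maximal hM hdmax)
  -- `x` centralizes `Q`
  have hNC : ∀ t ∈ L, t ∈ Subgroup.normalizer
      ((Subgroup.centralizer (Q : Set G) : Subgroup G) : Set G) :=
    fun t ht => normalizer_le_normalizer_centralizer Q (hLN ht)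
  haveI hCn : ((Subgroup.centralizer (Q : Set G)).subgroupOf L).Normal :=
    (Subgroup.normal_subgroupOf_iff_le_normalizer hCL).mpr (fun t ht => hNC t ht)
  obtain ⟨q, hq, hqc⟩ := h1 (x : G) x.2
  obtain ⟨k, hk⟩ := hQf.1 ⟨q, hq⟩
  have hk' : q ^ (p ^ k) = 1 := congrArg Subtype.val hk
  have hmk : (QuotientGroup.mk x : L ⧸ (Subgroup.centralizer (Q : Set G)).subgroupOf L) =
      QuotientGroup.mk ⟨q, hQL hq⟩ := by
    rw [eq_comm, QuotientGroup.eq, Subgroup.mem_subgroupOf]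
    exact hqc
  have hxk : (x : G) ^ (p ^ k) ∈ Subgroup.centralizer (Q : Set G) := by
    have h3 : (QuotientGroup.mk (x ^ (p ^ k)) :
        L ⧸ (Subgroup.centralizer (Q : Set G)).subgroupOf L) = 1 := by
      rw [QuotientGroup.mk_pow, hmk, ← QuotientGroup.mk_pow]
      have h4 : (⟨q, hQL hq⟩ : L) ^ (p ^ k) = 1 := Subtype.ext hk'
      rw [h4]
      rfl
    rw [QuotientGroup.eq_one_iff, Subgroup.mem_subgroupOf] at h3
    exact h3
  have hcop : Nat.Coprime (p ^ k) (orderOf (x : G)) := by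
    rw [Subgroup.orderOf_coe]
    exact Nat.Coprime.pow_left _ ((Nat.Prime.coprime_iff_not_dvd hp).mpr hreg)
  obtain ⟨m, hm⟩ := exists_pow_eq_self_of_coprime hcop
  have hxC : (x : G) ∈ Subgroup.centralizer (Q : Set G) := by
    rw [← hm]
    exact pow_mem hxk _
  rw [Subgroup.mem_centralizer_iff]
  intro r hr
  apply Subtype.ext
  rw [Subgroup.coe_mul, Subgroup.coe_mul]
  exact Subgroup.mem_centralizer_iff.mp hxC (r : G) (hdQ ⟨r, hR'd hr, rfl⟩)

end Cfsg.Agent.Lib.Helper77.BPCentric
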