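import Cfsg.Agent.Lib.Helper77.BPCov

/-!
# Brauer pairs of a subgroup `N` read in `G`

For `R' ≤ N` with image `R` in `G`: `C_N(R')` is identified with the subgroup `N ⊓ C_G(R)` of `G`
(`nIso`).  Blocks, Brauer-pair conditions and stabilizers are transported.
-/

set_option autoImplicit false

namespace Cfsg.Agent.Lib.Helper77.BPCov2

open Cfsg Cfsg.Agent.Lib.Helper77.LocalRing Cfsg.Agent.Lib.Helper77.CentralChar
  Cfsg.Agent.Lib.Helper77.ClassSum Cfsg.Agent.Lib.Helper77.BlockIdem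
  Cfsg.Agent.Lib.Helper77.OsimaVanish Cfsg.Agent.Lib.Helper77.IdemIn
  Cfsg.Agent.Lib.Helper77.BPBasic Cfsg.Agent.Lib.Helper77.BPBrauer
  Cfsg.Agent.Lib.Helper77.BPPairs Cfsg.Agent.Lib.Helper77.BPConj
  Cfsg.Agent.Lib.Helper77.BPNormal Cfsg.Agent.Lib.Helper77.BPSubpair
  Cfsg.Agent.Lib.Helper77.BPIdem Cfsg.Agent.Lib.Helper77.BPMax
  Cfsg.Agent.Lib.Helper77.BPMax2 Cfsg.Agent.Lib.Helper77.BPEquiv
  Cfsg.Agent.Lib.Helper77.BPEquiv2
  Cfsg.Agent.Lib.Helper77.BPTransport Cfsg.Agent.Lib.Helper77.BPConjMax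
  Cfsg.Agent.Lib.Helper77.BPCent Cfsg.Agent.Lib.Helper77.BPStab
  Cfsg.Agent.Lib.Helper77.BPNorm Cfsg.Agent.Lib.Helper77.BPFix
  Cfsg.Agent.Lib.Helper77.BPSub Cfsg.Agent.Lib.Helper77.BPUp
  Cfsg.Agent.Lib.Helper77.BPCov
  Cfsg.Agent.Lib.CT.Wedderburn Cfsg.Agent.Lib.Helper16.ZR Cfsg.Agent.Lib.Helper33.Conj
  Cfsg.Agent.Lib.Helper16.MinMax

universe u
variable {G : Type u} [Group G] {M : Ideal AlgInt}

section Sub

variable (N : Subgroup G) (R' : Subgroup N)

/-- `C_N(R')` as the subgroup `N ⊓ C_G(R)` of `G`. -/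
def nIso : Subgroup.centralizer (R' : Set N) ≃*
    ↥(N ⊓ Subgroup.centralizer ((R'.map N.subtype : Subgroup G) : Set G)) where
  toFun y := ⟨((y : N) : G), Subgroup.mem_inf.mpr ⟨(y : N).2, by
    rw [Subgroup.mem_centralizer_iff]
    rintro _ ⟨r, hr, rfl⟩
    have h := Subgroup.mem_centralizer_iff.mp y.2 r hr
    exact congrArg Subtype.val h⟩⟩
  invFun k := ⟨⟨(k : G), (Subgroup.mem_inf.mp k.2).1⟩, by
    rw [Subgroup.mem_centralizer_iff]
    intro r hr
    apply Subtype.ext
    exact Subgroup.mem_centralizer_iff.mp (Subgroup.mem_inf.mp k.2).2 (r : G) ⟨r, hr, rfl⟩⟩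
  left_inv _ := rfl
  right_inv _ := rfl
  map_mul' _ _ := rfl

theorem coe_nIso (y : Subgroup.centralizer (R' : Set N)) :
    ((nIso N R' y : _) : G) = ((y : N) : G) := rfl

theorem coe_nIso_symm
    (k : ↥(N ⊓ Subgroup.centralizer ((R'.map N.subtype : Subgroup G) : Set G))) :
    ((((nIso N R').symm k : _) : N) : G) = (k : G) := rfl

/-- The idempotent of a block of `C_N(R')`, read in the group algebra of `G`. -/
theorem ext_ext_blockIdem [Finite G] (g : Set (IrrCharacter (Subgroup.centralizer (R' : Set N)))) :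
    ext N (ext (Subgroup.centralizer (R' : Set N)) (blockIdem g)) =
      ext (N ⊓ Subgroup.centralizer ((R'.map N.subtype : Subgroup G) : Set G))
        (blockIdem (pull (nIso N R').symm '' g)) := by
  classical
  ext x
  rw [coeff_ext, coeff_ext]
  by_cases hx : x ∈ N ⊓ Subgroup.centralizer ((R'.map N.subtype : Subgroup G) : Set G)
  · have hxN : x ∈ N := (Subgroup.mem_inf.mp hx).1
    have hx' : (⟨x, hxN⟩ : N) ∈ Subgroup.centralizer (R' : Set N) :=
      ((nIso N R').symm ⟨x, hx⟩).2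
    rw [dif_pos hx, dif_pos hxN, coeff_ext, dif_pos hx', coeff_blockIdem, coeff_blockIdem,
      blockCoeff_pull]
    rfl
  · rw [dif_neg hx]
    by_cases hxN : x ∈ N
    · rw [dif_pos hxN, coeff_ext, dif_neg]
      intro hx'
      exact hx (nIso N R' ⟨⟨x, hxN⟩, hx'⟩).2
    · rw [dif_neg hxN]

/-- Stabilizing a block of `C_N(R')`, in terms of the group algebra of `G`. -/
theorem stabilizes_sub_iff [Finite G]
    (g : Set (IrrCharacter (Subgroup.centralizer (R' : Set N)))) (x' : N)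
    (hx' : x' ∈ Subgroup.normalizer (R' : Set N)) :
    StabilizesBlock (Subgroup.centralizer (R' : Set N)) g x' ↔
      conjA (x' : G) (ext (N ⊓ Subgroup.centralizer ((R'.map N.subtype : Subgroup G) : Set G))
        (blockIdem (pull (nIso N R').symm '' g))) =
      ext (N ⊓ Subgroup.centralizer ((R'.map N.subtype : Subgroup G) : Set G))
        (blockIdem (pull (nIso N R').symm '' g)) := by
  rw [stabilizesBlock_iff_conjA _ x' (normalizer_le_normalizer_centralizer R' hx') g,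
    ← ext_ext_blockIdem, conjA_ext N x']
  constructor
  · intro h
    rw [h]
  · intro h
    have h2 := congrArg (res N) h
    rwa [res_ext, res_ext] at h2

/-- The Brauer-map central character in `N`, in terms of the group algebra of `G`. -/
theorem brauerOmega_sub [Finite G] (β : G → ℂ) (β' : N → ℂ) (hβ : ∀ n : N, β' n = β n)
    (ζ₀ : Subgroup.centralizer (R' : Set N) → ℂ) :
    brauerOmega R' β' ζ₀ =
      om (N ⊓ Subgroup.centralizer ((R'.map N.subtype : Subgroup G) : Set G))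
        (fun k => ζ₀ ((nIso N R').symm k)) (ofFun β) := by
  classical
  cases nonempty_fintype G
  have : Fintype (Subgroup.centralizer (R' : Set N)) := Fintype.ofFinite _
  have : Fintype ↥(N ⊓ Subgroup.centralizer ((R'.map N.subtype : Subgroup G) : Set G)) :=
    Fintype.ofFinite _
  unfold brauerOmega om omega
  rw [finsum_eq_sum_of_fintype, pair_eq_sum, Finset.sum_div]
  apply Fintype.sum_equiv (nIso N R').toEquiv
  intro y
  show β' (y : N) * ζ₀ y / ζ₀ 1 =
    (res _ (ofFun β)).coeff (nIso N R' y) * ζ₀ ((nIso N R').symm (nIso N R' y)) /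
      ζ₀ ((nIso N R').symm 1)
  rw [MulEquiv.symm_apply_apply, map_one, coeff_res, coeff_ofFun, hβ]
  rfl

/-- Brauer pairs of a block `c` of `N` in terms of the group algebra of `G`. -/
theorem isBrauerPairOf_sub_iff [Finite G] {p : ℕ} (β : G → ℂ)
    (c : Set (IrrCharacter N)) (hβ : ∀ n : N, blockCoeff c n = β n)
    (g : Set (IrrCharacter (Subgroup.centralizer (R' : Set N)))) :
    IsBrauerPairOf p M c R' g ↔ IsBrauerPair p M R' g ∧ IsPBlock M c ∧
      ∀ ζ ∈ pull (nIso N R').symm '' g, MemLocalIdeal M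
        (om (N ⊓ Subgroup.centralizer ((R'.map N.subtype : Subgroup G) : Set G))
          (ζ : _ → ℂ) (ofFun β) - 1) := by
  constructor
  · rintro ⟨h1, h2, h3⟩
    refine ⟨h1, h2, ?_⟩
    rintro ζ ⟨ζ₀, hζ₀, rfl⟩
    have h4 := h3 ζ₀ hζ₀
    rw [brauerOmega_sub N R' β (blockCoeff c) hβ] at h4
    exact h4
  · rintro ⟨h1, h2, h3⟩
    refine ⟨h1, h2, fun ζ₀ hζ₀ => ?_⟩
    have h4 := h3 (pull (nIso N R').symm ζ₀) ⟨ζ₀, hζ₀, rfl⟩
    rw [brauerOmega_sub N R' β (blockCoeff c) hβ]
    exact h4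

/-- Transporting a block of `N ⊓ C_G(R)` to `C_N(R')` and back. -/
theorem pull_symm_image_pull_image
    (g' : Set (IrrCharacter ↥(N ⊓ Subgroup.centralizer
      ((R'.map N.subtype : Subgroup G) : Set G)))) :
    pull (nIso N R').symm '' (pull (nIso N R') '' g') = g' := by
  rw [Set.image_image]
  have h : (fun x => pull (nIso N R').symm (pull (nIso N R') x)) = id := by
    funext x
    exact pull_symm_pull (nIso N R') x
  rw [h, Set.image_id]

end Sub

end Cfsg.Agent.Lib.Helper77.BPCov2
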