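import Cfsg.Agent.Lib.Helper75.Section3
import Cfsg.Agent.Lib.Helper75.DefOne
import Cfsg.Agent.Lib.Helper75.BlockOrth
import Cfsg.Agent.Lib.Helper75.BlockRank
import Cfsg.Agent.Lib.Helper16.FR2
import Cfsg.Agent.Lib.Helper16.ZR
import Cfsg.Agent.Lib.Helper77.CentralChar

/-!
# A lower bound for `k(B)` from a major subsection at an involution

`card_ge_four`: let `B` be a 2-block of `G`, `u` an involution, and suppose that the set `β` of
irreducible characters of `C_G(u)` whose block induces `B` is a block with four characters, one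
Brauer character, and all of whose characters agree on 2-regular elements.  Then `k(B) ≥ 4`.

Proof: for `χ ∈ B` the generalized decomposition number `D_χ` at `u` is an integer
(`χ(u y) = D_χ η(y)` for `2`-regular `y ∈ C_G(u)`, `η ∈ β`), `∑_χ D_χ² = 4` by block
orthogonality in the section of `u`, and `∑_χ χ(1) D_χ = 0`.
-/

set_option autoImplicit false

namespace Cfsg.Agent.Lib.Helper77.BPKlein3

open Cfsg Cfsg.Agent.Lib.CT.Wedderburn Cfsg.Agent.Lib.Helper77.LocalRing
  Cfsg.Agent.Lib.Helper75.Section Cfsg.Agent.Lib.Helper75.Section2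
  Cfsg.Agent.Lib.Helper75.Section3 Cfsg.Agent.Lib.Helper75.BlockRank
  Cfsg.Agent.Lib.Helper75.BlockOrth Cfsg.Agent.Lib.Helper75.DefOne
  Cfsg.Agent.Lib.Helper16.ZR Cfsg.Agent.Lib.Helper77.CentralChar
open scoped ComplexConjugate

universe u
variable {G : Type u} [Group G]

theorem four_le_card {α : Type*} (S : Finset α) (D : α → ℤ) (d : α → ℤ)
    (hd : ∀ a ∈ S, 0 < d a) (h1 : ∑ a ∈ S, D a ^ 2 = 4) (h2 : ∑ a ∈ S, d a * D a = 0) :
    4 ≤ S.card := by
  classical
  have hle : ∀ a ∈ S, D a ^ 2 ≤ 1 := by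
    intro a ha
    by_contra hgt
    push Not at hgt
    have h4 : 4 ≤ D a ^ 2 := by
      have hcases : D a ≤ -2 ∨ D a = -1 ∨ D a = 0 ∨ D a = 1 ∨ 2 ≤ D a := by omega
      rcases hcases with h | h | h | h | h
      · nlinarith
      · rw [h] at hgt; norm_num at hgt
      · rw [h] at hgt; norm_num at hgt
      · rw [h] at hgt; norm_num at hgt
      · nlinarith
    have hsplit := Finset.add_sum_erase S (fun a => D a ^ 2) ha
    have hrest : ∑ b ∈ S.erase a, D b ^ 2 = 0 := by
      have hnn : 0 ≤ ∑ b ∈ S.erase a, D b ^ 2 := Finset.sum_nonneg (fun b _ => sq_nonneg _)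
      linarith
    have hzero : ∀ b ∈ S.erase a, D b = 0 := by
      intro b hb
      have h5 := (Finset.sum_eq_zero_iff_of_nonneg (fun b _ => sq_nonneg (D b))).mp hrest b hb
      exact pow_eq_zero_iff (two_ne_zero) |>.mp h5
    have hsplit2 := Finset.add_sum_erase S (fun a => d a * D a) ha
    have hrest2 : ∑ b ∈ S.erase a, d b * D b = 0 :=
      Finset.sum_eq_zero (fun b hb => by rw [hzero b hb, mul_zero])
    rw [hrest2, add_zero, h2] at hsplit2
    have hda := hd a ha
    rcases mul_eq_zero.mp hsplit2 with h | h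
    · omega
    · rw [h] at h4
      norm_num at h4
  have h3 : (4 : ℤ) ≤ S.card := by
    calc (4 : ℤ) = ∑ a ∈ S, D a ^ 2 := h1.symm
      _ ≤ ∑ _a ∈ S, 1 := Finset.sum_le_sum hle
      _ = S.card := by simp
  exact_mod_cast h3

theorem card_ge_four [Finite G] (M : Ideal AlgInt) (hM : IsPModular 2 M)
    (B : Set (IrrCharacter G)) (hB : IsPBlock M B) (u : G) (hu : orderOf u = 2)
    (β : Set (IrrCharacter (Subgroup.centralizer ({u} : Set G)))) (hβb : IsPBlock M β)
    (hβ : ∀ ψ : IrrCharacter (Subgroup.centralizer ({u} : Set G)), ψ ∈ β ↔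
      IsInducedBlock M (Subgroup.centralizer ({u} : Set G))
        (blockOf M (ψ : Subgroup.centralizer ({u} : Set G) → ℂ)) B)
    (hcard : Nat.card β = 4) (hrank : blockRank 2 β = 1)
    (hreg : ∀ ψ ∈ β, ∀ ψ' ∈ β, ∀ y : Subgroup.centralizer ({u} : Set G), ¬ 2 ∣ orderOf y →
      (ψ : Subgroup.centralizer ({u} : Set G) → ℂ) y =
        (ψ' : Subgroup.centralizer ({u} : Set G) → ℂ) y) :
    4 ≤ Nat.card B := by
  classical
  haveI : Fact (Nat.Prime 2) := ⟨Nat.prime_two⟩
  have hMp := isPrime_of_isPModular hM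
  haveI := Fintype.ofFinite G
  haveI := Fintype.ofFinite (Subgroup.centralizer ({u} : Set G))
  haveI := finite_irrCharacter G
  haveI := Fintype.ofFinite (IrrCharacter G)
  haveI := finite_irrCharacter (Subgroup.centralizer ({u} : Set G))
  haveI := Fintype.ofFinite (IrrCharacter (Subgroup.centralizer ({u} : Set G)))
  have htp : ∃ k : ℕ, orderOf u = 2 ^ k := ⟨1, by rw [hu]; rfl⟩
  have hsecT : secT M u B = β := by
    ext ψ
    exact (hβ ψ).symm
  -- the central involution
  have huC : u ∈ Subgroup.centralizer ({u} : Set G) := by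
    rw [Subgroup.mem_centralizer_iff]
    intro h hh
    rw [Set.mem_singleton_iff] at hh
    rw [hh]
  obtain ⟨z, hz⟩ : ∃ z : Subgroup.centralizer ({u} : Set G), (z : G) = u := ⟨⟨u, huC⟩, rfl⟩
  have hz2 : orderOf z = 2 := by rw [← Subgroup.orderOf_coe, hz, hu]
  have hzc : ∀ c : Subgroup.centralizer ({u} : Set G), z * c = c * z := by
    intro c
    apply Subtype.ext
    rw [Subgroup.coe_mul, Subgroup.coe_mul, hz]
    exact Subgroup.mem_centralizer_iff.mp c.2 u rfl
  obtain ⟨η₀, hη₀⟩ := isPBlock_nonempty hMp hβb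
  -- signs
  have hsign : ∀ ψ : IrrCharacter (Subgroup.centralizer ({u} : Set G)), ∃ s : ℤ,
      ∀ c, (ψ : Subgroup.centralizer ({u} : Set G) → ℂ) (z * c) =
        (s : ℂ) * (ψ : Subgroup.centralizer ({u} : Set G) → ℂ) c := by
    intro ψ
    obtain ⟨s, hs, hsc⟩ := exists_sign z hz2 hzc ψ
    rcases hs with rfl | rfl
    · exact ⟨1, fun c => by rw [hsc c]; push_cast; ring⟩
    · exact ⟨-1, fun c => by rw [hsc c]; push_cast; ring⟩
  choose ε hε using hsign
  -- restriction multiplicities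
  have hres : ∀ χ : IrrCharacter G,
      ∃ m : IrrCharacter (Subgroup.centralizer ({u} : Set G)) → ℕ,
      ∀ c : Subgroup.centralizer ({u} : Set G), (χ : G → ℂ) (c : G) =
        ∑ ψ : IrrCharacter (Subgroup.centralizer ({u} : Set G)),
          (m ψ : ℂ) * (ψ : Subgroup.centralizer ({u} : Set G) → ℂ) c := by
    intro χ
    obtain ⟨m, -, hm⟩ := Cfsg.Agent.Lib.Helper16.FR2.char_expand_nat _
      (Cfsg.Agent.Lib.CT.Ops.isCharacter_restrict (Subgroup.centralizer ({u} : Set G))
        (isCharacter_of_irr χ.2))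
    exact ⟨m, hm⟩
  choose m hm using hres
  obtain ⟨D, hD⟩ : ∃ D : IrrCharacter G → ℤ, ∀ χ, D χ =
      ∑ ψ : IrrCharacter (Subgroup.centralizer ({u} : Set G)),
        if ψ ∈ β then (m χ ψ : ℤ) * ε ψ else 0 := ⟨_, fun _ => rfl⟩
  obtain ⟨q, hq⟩ : ∃ q : ℂ, q =
      classInner (pRegularPart 2 (η₀ : Subgroup.centralizer ({u} : Set G) → ℂ))
        (η₀ : Subgroup.centralizer ({u} : Set G) → ℂ) := ⟨_, rfl⟩
  have hpreg : ∀ ψ ∈ β, pRegularPart 2 (ψ : Subgroup.centralizer ({u} : Set G) → ℂ) =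
      pRegularPart 2 (η₀ : Subgroup.centralizer ({u} : Set G) → ℂ) := by
    intro ψ hψ
    exact pRegularPart_congr 2 (fun y hy => hreg ψ hψ η₀ hη₀ y hy)
  have hinner : ∀ ψ' ψ : IrrCharacter (Subgroup.centralizer ({u} : Set G)), ψ ∈ β →
      classInner (pRegularPart 2 (ψ' : Subgroup.centralizer ({u} : Set G) → ℂ))
        (ψ : Subgroup.centralizer ({u} : Set G) → ℂ) = if ψ' ∈ β then q else 0 := by
    intro ψ' ψ hψ
    by_cases hψ' : ψ' ∈ β
    · rw [if_pos hψ', hpreg ψ' hψ', ← classInner_pRegularPart_right, hpreg ψ hψ,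
        classInner_pRegularPart_right, hq]
    · rw [if_neg hψ']
      apply classInner_pRegularPart_eq_zero 2 M hM
        (blockOf M (ψ' : Subgroup.centralizer ({u} : Set G) → ℂ)) (isPBlock_blockOf ψ') ψ' ψ
        (mem_blockOf_self hMp ψ')
      intro h
      apply hψ'
      have h1 := blockOf_eq_of_mem hMp h
      have h2 := isPBlock_eq_blockOf hMp hβb hψ
      rw [h2, h1]
      exact mem_blockOf_self hMp ψ'
  have hcardβ : (Finset.univ.filter
      (fun ψ : IrrCharacter (Subgroup.centralizer ({u} : Set G)) => ψ ∈ β)).card = 4 := by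
    haveI := Fintype.ofFinite β
    rw [← hcard, Nat.card_eq_fintype_card, Fintype.card_of_subtype (Finset.univ.filter
      (fun ψ : IrrCharacter (Subgroup.centralizer ({u} : Set G)) => ψ ∈ β)) (by simp)]
  have hq4 : 4 * q = 1 := by
    have h1 := blockRank_eq_sum 2 M hM β hβb
    rw [hrank] at h1
    have h2 : ∀ ψ : IrrCharacter (Subgroup.centralizer ({u} : Set G)),
        (if ψ ∈ β then classInner (pRegularPart 2 (ψ : Subgroup.centralizer ({u} : Set G) → ℂ))
          (ψ : Subgroup.centralizer ({u} : Set G) → ℂ) else 0) = if ψ ∈ β then q else 0 := by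
      intro ψ
      by_cases hψ : ψ ∈ β
      · rw [if_pos hψ, if_pos hψ, hinner ψ ψ hψ, if_pos hψ]
      · rw [if_neg hψ, if_neg hψ]
    rw [Finset.sum_congr rfl (fun ψ _ => h2 ψ), ← Finset.sum_filter, Finset.sum_const,
      nsmul_eq_mul, hcardβ] at h1
    push_cast at h1
    exact h1.symm
  -- the section restriction
  have hsec : ∀ χ : IrrCharacter G, ∀ ψ ∈ β,
      classInner (secRes 2 u (χ : G → ℂ)) (ψ : Subgroup.centralizer ({u} : Set G) → ℂ) =
        q * (D χ : ℂ) := by
    intro χ ψ hψ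
    have h1 : secRes 2 u (χ : G → ℂ) =
        ∑ ψ' : IrrCharacter (Subgroup.centralizer ({u} : Set G)),
          ((m χ ψ' : ℂ) * (ε ψ' : ℂ)) •
            pRegularPart 2 (ψ' : Subgroup.centralizer ({u} : Set G) → ℂ) := by
      funext c
      rw [Finset.sum_apply]
      by_cases hc : 2 ∣ orderOf c
      · rw [secRes_of_singular 2 u _ hc]
        symm
        apply Finset.sum_eq_zero
        intro ψ' _
        rw [Pi.smul_apply, pRegularPart_of_singular 2 _ hc, smul_zero]
      · rw [secRes_of_regular 2 u _ hc]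
        have h2 : u * (c : G) = ((z * c : Subgroup.centralizer ({u} : Set G)) : G) := by
          rw [Subgroup.coe_mul, hz]
        rw [h2, hm χ (z * c)]
        apply Finset.sum_congr rfl
        intro ψ' _
        rw [Pi.smul_apply, pRegularPart_of_regular 2 _ hc, hε ψ' c, smul_eq_mul]
        ring
    have h3 : classInner (secRes 2 u (χ : G → ℂ))
        (ψ : Subgroup.centralizer ({u} : Set G) → ℂ) =
        ∑ ψ' : IrrCharacter (Subgroup.centralizer ({u} : Set G)),
          ((m χ ψ' : ℂ) * (ε ψ' : ℂ)) *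
            classInner (pRegularPart 2 (ψ' : Subgroup.centralizer ({u} : Set G) → ℂ))
              (ψ : Subgroup.centralizer ({u} : Set G) → ℂ) := by
      rw [h1, ← innerL_apply, map_sum]
      apply Finset.sum_congr rfl
      intro ψ' _
      rw [map_smul, innerL_apply, smul_eq_mul]
    rw [h3, hD χ, Int.cast_sum, Finset.mul_sum]
    apply Finset.sum_congr rfl
    intro ψ' _
    rw [hinner ψ' ψ hψ]
    by_cases hψ' : ψ' ∈ β
    · rw [if_pos hψ', if_pos hψ']
      push_cast
      ring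
    · rw [if_neg hψ', if_neg hψ']
      push_cast
      ring
  have hA : ∀ χ ∈ B, ∀ y : Subgroup.centralizer ({u} : Set G), ¬ 2 ∣ orderOf y →
      (χ : G → ℂ) (u * (y : G)) =
        (D χ : ℂ) * (η₀ : Subgroup.centralizer ({u} : Set G) → ℂ) y := by
    intro χ hχ y hy
    have h1 := secRes_eq_sum 2 M hM u htp B hB χ hχ y
    rw [secRes_of_regular 2 u _ hy] at h1
    rw [h1]
    have h2 : ∀ ψ : IrrCharacter (Subgroup.centralizer ({u} : Set G)),
        (if ψ ∈ secT M u B then classInner (secRes 2 u (χ : G → ℂ))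
            (ψ : Subgroup.centralizer ({u} : Set G) → ℂ) *
          (ψ : Subgroup.centralizer ({u} : Set G) → ℂ) y else 0) =
        if ψ ∈ β then q * (D χ : ℂ) * (η₀ : Subgroup.centralizer ({u} : Set G) → ℂ) y
          else 0 := by
      intro ψ
      rw [hsecT]
      by_cases hψ : ψ ∈ β
      · rw [if_pos hψ, if_pos hψ, hsec χ ψ hψ, hreg ψ hψ η₀ hη₀ y hy]
      · rw [if_neg hψ, if_neg hψ]
    rw [Finset.sum_congr rfl (fun ψ _ => h2 ψ), ← Finset.sum_filter, Finset.sum_const,
      nsmul_eq_mul, hcardβ]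
    push_cast
    linear_combination (D χ : ℂ) * (η₀ : Subgroup.centralizer ({u} : Set G) → ℂ) y * hq4
  have hreg1 : ¬ 2 ∣ orderOf (1 : Subgroup.centralizer ({u} : Set G)) := by
    rw [orderOf_one]
    norm_num
  have hη1 : (η₀ : Subgroup.centralizer ({u} : Set G) → ℂ) 1 ≠ 0 := irr_one_ne_zero η₀.2
  have hB1 : ∀ χ ∈ B, (χ : G → ℂ) u =
      (D χ : ℂ) * (η₀ : Subgroup.centralizer ({u} : Set G) → ℂ) 1 := by
    intro χ hχ
    have h1 := hA χ hχ 1 hreg1
    rwa [OneMemClass.coe_one, mul_one] at h1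
  -- the sum of squares
  have hsumsq : ∑ χ ∈ Finset.univ.filter (fun χ : IrrCharacter G => χ ∈ B), (D χ) ^ 2 = 4 := by
    have h1 := kernel_identity 2 M hM u htp B hB 1 1 hreg1 hreg1
    simp only [OneMemClass.coe_one, mul_one] at h1
    have hL : ∀ χ : IrrCharacter G,
        (if χ ∈ B then (χ : G → ℂ) u * conj ((χ : G → ℂ) u) else 0) =
        if χ ∈ B then (((D χ) ^ 2 : ℤ) : ℂ) *
          ((η₀ : Subgroup.centralizer ({u} : Set G) → ℂ) 1 *
            conj ((η₀ : Subgroup.centralizer ({u} : Set G) → ℂ) 1)) else 0 := by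
      intro χ
      by_cases hχ : χ ∈ B
      · rw [if_pos hχ, if_pos hχ, hB1 χ hχ, map_mul, map_intCast]
        push_cast
        ring
      · rw [if_neg hχ, if_neg hχ]
    have hR : ∀ ψ : IrrCharacter (Subgroup.centralizer ({u} : Set G)),
        (if ψ ∈ secT M u B then (ψ : Subgroup.centralizer ({u} : Set G) → ℂ) 1 *
          conj ((ψ : Subgroup.centralizer ({u} : Set G) → ℂ) 1) else 0) =
        if ψ ∈ β then (η₀ : Subgroup.centralizer ({u} : Set G) → ℂ) 1 *
          conj ((η₀ : Subgroup.centralizer ({u} : Set G) → ℂ) 1) else 0 := by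
      intro ψ
      rw [hsecT]
      by_cases hψ : ψ ∈ β
      · rw [if_pos hψ, if_pos hψ, hreg ψ hψ η₀ hη₀ 1 hreg1]
      · rw [if_neg hψ, if_neg hψ]
    rw [Finset.sum_congr rfl (fun χ _ => hL χ), Finset.sum_congr rfl (fun ψ _ => hR ψ),
      ← Finset.sum_filter, ← Finset.sum_filter, Finset.sum_const, nsmul_eq_mul, hcardβ,
      ← Finset.sum_mul] at h1
    have hne : (η₀ : Subgroup.centralizer ({u} : Set G) → ℂ) 1 *
        conj ((η₀ : Subgroup.centralizer ({u} : Set G) → ℂ) 1) ≠ 0 :=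
      mul_ne_zero hη1 ((map_ne_zero _).mpr hη1)
    have h2 := mul_right_cancel₀ hne h1
    have h3 : ((∑ χ ∈ Finset.univ.filter (fun χ : IrrCharacter G => χ ∈ B), (D χ) ^ 2 : ℤ) : ℂ)
        = ((4 : ℤ) : ℂ) := by
      rw [Int.cast_sum, h2]
      norm_num
    exact_mod_cast h3
  -- the degrees
  have hsumdeg : ∑ χ ∈ Finset.univ.filter (fun χ : IrrCharacter G => χ ∈ B),
      (charDegree (χ : G → ℂ) : ℤ) * D χ = 0 := by
    have h1 := weak_block_orthogonality 2 M hM B hB 1 u (by rw [orderOf_one]; norm_num)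
      (by rw [hu])
    rw [Cfsg.Agent.Lib.Helper75.DefOne.finsum_mem_eq_sum] at h1
    have hL : ∀ χ : IrrCharacter G,
        (if χ ∈ B then (χ : G → ℂ) 1 * conj ((χ : G → ℂ) u) else 0) =
        if χ ∈ B then (((charDegree (χ : G → ℂ) : ℤ) * D χ : ℤ) : ℂ) *
          conj ((η₀ : Subgroup.centralizer ({u} : Set G) → ℂ) 1) else 0 := by
      intro χ
      by_cases hχ : χ ∈ B
      · rw [if_pos hχ, if_pos hχ, hB1 χ hχ, map_mul, map_intCast,
          ← char_natCast_charDegree (isCharacter_of_irr χ.2)]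
        push_cast
        ring
      · rw [if_neg hχ, if_neg hχ]
    rw [Finset.sum_congr rfl (fun χ _ => hL χ), ← Finset.sum_filter, ← Finset.sum_mul] at h1
    have hne : conj ((η₀ : Subgroup.centralizer ({u} : Set G) → ℂ) 1) ≠ 0 :=
      (map_ne_zero _).mpr hη1
    have h2 := (mul_eq_zero.mp h1).resolve_right hne
    exact_mod_cast h2
  have hfin := four_le_card (Finset.univ.filter (fun χ : IrrCharacter G => χ ∈ B)) D
    (fun χ => (charDegree (χ : G → ℂ) : ℤ)) (by
      intro χ _
      have h1 := char_natCast_charDegree (isCharacter_of_irr χ.2)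
      have h2 : charDegree (χ : G → ℂ) ≠ 0 := by
        intro h0
        rw [h0, Nat.cast_zero] at h1
        exact irr_one_ne_zero χ.2 h1.symm
      exact_mod_cast Nat.pos_of_ne_zero h2) hsumsq hsumdeg
  haveI := Fintype.ofFinite B
  rw [Nat.card_eq_fintype_card, Fintype.card_of_subtype (Finset.univ.filter
    (fun χ : IrrCharacter G => χ ∈ B)) (by simp)]
  exact hfin

end Cfsg.Agent.Lib.Helper77.BPKlein3
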