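import Cfsg.Agent.Lib.Helper75.NumMinMax
import Cfsg.Agent.Lib.Helper16.Defect
import Cfsg.Agent.Lib.Helper77.ClassSum
import Cfsg.Agent.Lib.Helper77.LocalRing
import Cfsg.Agent.Lib.CT.SectionOrth

/-!
# Arithmetic lemmas for perfect isometries

* `defect_bound`: `|D| χ(x) / |C_G(x)|` is a local integer for `χ` in a block with defect group `D`.
* `vanish_dvd`: a difference `a θ₁ - b θ₂` of integer multiples of characters vanishing on the
  `p`-singular elements has values divisible by the `p`-part of `|C_G(x)|`.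
* `card_centralizer_mul`: `C_{C_G(u)}(y) ≅ C_G(u y)` for a `p`-element `u` and a `p`-regular `y`.
* `sq_eq_one_of_card`, `memLocalRing_sum_div_four`, `kernel_lemma`: combinatorics of the
  kernel of a perfect isometry between two blocks with four characters.
-/

set_option autoImplicit false

namespace Cfsg.Agent.Lib.Helper77.BPKlein4

open Cfsg Cfsg.Agent.Lib.Helper77.LocalRing Cfsg.Agent.Lib.CT.Wedderburn

universe u
variable {G : Type u} [Group G] {M : Ideal AlgInt}

theorem defect_bound [Finite G] {p : ℕ} [Fact p.Prime] (hM : IsPModular p M)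
    (B : Set (IrrCharacter G)) (hB : IsPBlock M B) (D : Subgroup G) (hD : IsDefectGroup p M B D)
    (χ : IrrCharacter G) (hχ : χ ∈ B) (x : G) :
    MemLocalRing M ((Nat.card D : ℂ) * (χ : G → ℂ) x /
      (Nat.card (Subgroup.centralizer ({x} : Set G)) : ℂ)) := by
  classical
  have hMp := isPrime_of_isPModular hM
  have hp : p.Prime := Fact.out
  obtain ⟨e, he, hdvd, -⟩ := Cfsg.Agent.Lib.Helper75.NumMinMax.exists_defect_data p B ⟨χ, hχ⟩
  have hcardD := Cfsg.Agent.Lib.Helper16.Defect.card_defectGroup p hM B hB D hD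
  have hint := Cfsg.Agent.Lib.Helper77.ClassSum.isIntegral_centralChar χ.2 x
  have hdeg := char_natCast_charDegree (isCharacter_of_irr χ.2)
  have hdegpos := irr_charDegree_pos χ.2
  have h1 : MemLocalRing M (((Nat.card D * charDegree (χ : G → ℂ) : ℕ) : ℂ) /
      ((Nat.card G : ℕ) : ℂ)) := by
    apply Cfsg.Agent.Lib.Helper16.Defect.natCast_div_memLocalRing hM _ _ Nat.card_pos.ne'
    have h2 : p ^ (Nat.card G).factorization p = p ^ blockDefect p B * p ^ e := by
      rw [he, pow_add, mul_comm]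
    rw [h2, hcardD]
    exact Nat.mul_dvd_mul (dvd_refl _) (hdvd χ hχ)
  have h2 := memLocalRing_mul hMp (memLocalRing_of_isIntegral hMp hint) h1
  have hidx : (Nat.card G : ℂ) = ((Subgroup.centralizer ({x} : Set G)).index : ℂ) *
      (Nat.card (Subgroup.centralizer ({x} : Set G)) : ℂ) := by
    rw [← Nat.cast_mul, mul_comm, Subgroup.card_mul_index]
  have hc0 : (Nat.card (Subgroup.centralizer ({x} : Set G)) : ℂ) ≠ 0 :=
    Nat.cast_ne_zero.mpr Nat.card_pos.ne'
  have hi0 : ((Subgroup.centralizer ({x} : Set G)).index : ℂ) ≠ 0 :=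
    Nat.cast_ne_zero.mpr Subgroup.index_ne_zero_of_finite
  have hχ1 : (χ : G → ℂ) 1 ≠ 0 := by
    rw [← hdeg]
    exact Nat.cast_ne_zero.mpr hdegpos.ne'
  have heq : (Nat.card D : ℂ) * (χ : G → ℂ) x /
      (Nat.card (Subgroup.centralizer ({x} : Set G)) : ℂ) =
      centralChar (χ : G → ℂ) x * (((Nat.card D * charDegree (χ : G → ℂ) : ℕ) : ℂ) /
      ((Nat.card G : ℕ) : ℂ)) := by
    unfold centralChar
    rw [hidx, Nat.cast_mul, hdeg]
    field_simp
  rw [heq]
  exact h2

theorem vanish_dvd [Finite G] {p : ℕ} [Fact p.Prime] (hM : IsPModular p M)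
    {θ₁ θ₂ : G → ℂ} (h₁ : IsCharacter G θ₁) (h₂ : IsCharacter G θ₂) (a b : ℤ)
    (hvan : ∀ g : G, p ∣ orderOf g → (a : ℂ) * θ₁ g = (b : ℂ) * θ₂ g) (x : G)
    (hx : ¬ p ∣ orderOf x) :
    MemLocalRing M (((a : ℂ) * θ₁ x - (b : ℂ) * θ₂ x) /
      (Nat.card (Subgroup.centralizer ({x} : Set G)) : ℂ)) := by
  classical
  have hMp := isPrime_of_isPModular hM
  have hp : p.Prime := Fact.out
  obtain ⟨Q₀⟩ : Nonempty (Sylow p (Subgroup.centralizer ({x} : Set G))) := inferInstance
  obtain ⟨Q, hQ⟩ : ∃ Q : Subgroup G, Q = (Q₀ : Subgroup _).map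
      (Subgroup.centralizer ({x} : Set G)).subtype := ⟨_, rfl⟩
  haveI : Fintype Q := Fintype.ofFinite Q
  have hQcomm : ∀ w ∈ Q, x * w = w * x := by
    intro w hw
    rw [hQ] at hw
    obtain ⟨w', -, rfl⟩ := hw
    exact Subgroup.mem_centralizer_iff.mp w'.2 x rfl
  have hQp : IsPGroup p Q := by
    rw [hQ]
    exact Q₀.isPGroup'.map _
  have hQcard : Nat.card Q =
      p ^ (Nat.card (Subgroup.centralizer ({x} : Set G))).factorization p := by
    rw [hQ, Subgroup.card_map_of_injective (Subgroup.subtype_injective _)]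
    exact Q₀.card_eq_multiplicity
  obtain ⟨t₁, ht₁, hs₁⟩ := Cfsg.Agent.Lib.Helper75.NumMinMax.char_sum_mul_subgroup h₁ Q x
    (orderOf_pos x) hQcomm
  obtain ⟨t₂, ht₂, hs₂⟩ := Cfsg.Agent.Lib.Helper75.NumMinMax.char_sum_mul_subgroup h₂ Q x
    (orderOf_pos x) hQcomm
  have hsum : ∑ w : Q, ((a : ℂ) * θ₁ (x * (w : G)) - (b : ℂ) * θ₂ (x * (w : G))) =
      (a : ℂ) * θ₁ x - (b : ℂ) * θ₂ x := by
    rw [Finset.sum_eq_single (1 : Q)]
    · rw [OneMemClass.coe_one, mul_one]
    · intro w _ hw1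
      have hsing : p ∣ orderOf (x * (w : G)) := by
        obtain ⟨k, hk⟩ := (IsPGroup.iff_orderOf.mp hQp) w
        rw [Subgroup.orderOf_mk] at hk
        have hk0 : k ≠ 0 := by
          intro h0
          rw [h0, pow_zero, orderOf_eq_one_iff] at hk
          exact hw1 (Subtype.ext hk)
        have hcop : (orderOf x).Coprime (orderOf (w : G)) := by
          rw [hk]
          exact Nat.Coprime.pow_right _
            (Nat.Coprime.symm ((Nat.Prime.coprime_iff_not_dvd hp).mpr hx))
        have hc : Commute x (w : G) := hQcomm w w.2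
        rw [hc.orderOf_mul_eq_mul_orderOf_of_coprime hcop, hk]
        exact dvd_mul_of_dvd_right (dvd_pow_self p hk0) _
      rw [hvan _ hsing, sub_self]
    · intro h
      exact absurd (Finset.mem_univ _) h
  have hsum2 : ∑ w : Q, ((a : ℂ) * θ₁ (x * (w : G)) - (b : ℂ) * θ₂ (x * (w : G))) =
      (Nat.card Q : ℂ) * ((a : ℂ) * t₁ - (b : ℂ) * t₂) := by
    rw [Finset.sum_sub_distrib, ← Finset.mul_sum, ← Finset.mul_sum, hs₁, hs₂]
    ring
  rw [← hsum, hsum2, mul_div_right_comm]
  apply memLocalRing_mul hMp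
  · exact Cfsg.Agent.Lib.Helper16.Defect.natCast_div_memLocalRing hM _ _ Nat.card_pos.ne'
      (by rw [hQcard])
  · exact memLocalRing_sub hMp
      (memLocalRing_mul hMp (memLocalRing_intCast hMp a) (memLocalRing_of_isIntegral hMp ht₁))
      (memLocalRing_mul hMp (memLocalRing_intCast hMp b) (memLocalRing_of_isIntegral hMp ht₂))

theorem card_centralizer_mul [Finite G] {p : ℕ} (hp : p.Prime) {u : G}
    (hu : ∃ k : ℕ, orderOf u = p ^ k)
    (y : Subgroup.centralizer ({u} : Set G)) (hy : ¬ p ∣ orderOf y) :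
    Nat.card (Subgroup.centralizer ({y} : Set (Subgroup.centralizer ({u} : Set G)))) =
      Nat.card (Subgroup.centralizer ({u * (y : G)} : Set G)) := by
  have hpp : IsPPart p (u * (y : G)) u :=
    ⟨(y : G), rfl, Subgroup.mem_centralizer_iff.mp y.2 u rfl, hu, by
      rwa [Subgroup.orderOf_coe]⟩
  obtain ⟨e, he⟩ := Cfsg.Agent.Lib.CT.SectionOrth.isPPart_exists_pow hp hpp
  have hmap : (Subgroup.centralizer ({y} : Set (Subgroup.centralizer ({u} : Set G)))).map
      (Subgroup.centralizer ({u} : Set G)).subtype =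
      Subgroup.centralizer ({u * (y : G)} : Set G) := by
    ext g
    constructor
    · rintro ⟨t, ht, rfl⟩
      rw [SetLike.mem_coe, Subgroup.mem_centralizer_iff] at ht
      rw [Subgroup.mem_centralizer_iff]
      intro h hh
      rw [Set.mem_singleton_iff] at hh
      rw [hh]
      have h1 : y * t = t * y := ht y rfl
      have h2 : u * (t : G) = (t : G) * u := Subgroup.mem_centralizer_iff.mp t.2 u rfl
      have h1' : (y : G) * (t : G) = (t : G) * (y : G) := congrArg Subtype.val h1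
      show u * (y : G) * (t : G) = (t : G) * (u * (y : G))
      rw [mul_assoc, h1', ← mul_assoc, h2, mul_assoc]
    · intro hg
      have hgx : (u * (y : G)) * g = g * (u * (y : G)) :=
        Subgroup.mem_centralizer_iff.mp hg _ rfl
      have hgu : u * g = g * u := by
        rw [he]
        exact (Commute.pow_left (show Commute (u * (y : G)) g from hgx) e).eq
      have hgC : g ∈ Subgroup.centralizer ({u} : Set G) := by
        rw [Subgroup.mem_centralizer_iff]
        intro h hh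
        rw [Set.mem_singleton_iff] at hh
        rw [hh]
        exact hgu
      refine ⟨⟨g, hgC⟩, ?_, rfl⟩
      rw [SetLike.mem_coe, Subgroup.mem_centralizer_iff]
      intro h hh
      rw [Set.mem_singleton_iff] at hh
      rw [hh]
      apply Subtype.ext
      show (y : G) * g = g * (y : G)
      calc (y : G) * g = u⁻¹ * ((u * (y : G)) * g) := by
            rw [mul_assoc u, inv_mul_cancel_left]
        _ = u⁻¹ * (g * (u * (y : G))) := by rw [hgx]
        _ = g * (y : G) := by
            rw [← mul_assoc g, ← hgu, mul_assoc u g, inv_mul_cancel_left]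
  rw [← hmap, Subgroup.card_map_of_injective (Subgroup.subtype_injective _)]

theorem sq_eq_one_of_card {α : Type*} (S : Finset α) (D : α → ℤ) (d : α → ℤ)
    (hd : ∀ a ∈ S, 0 < d a) (h1 : ∑ a ∈ S, D a ^ 2 = 4) (h2 : ∑ a ∈ S, d a * D a = 0)
    (hcard : S.card = 4) : ∀ a ∈ S, D a = 1 ∨ D a = -1 := by
  classical
  have hle : ∀ a ∈ S, D a ^ 2 ≤ 1 := by
    intro a ha
    by_contra hgt
    push Not at hgt
    have h4 : 4 ≤ D a ^ 2 := by
      have hcases : D a ≤ -2 ∨ D a = -1 ∨ D a = 0 ∨ D a = 1 ∨ 2 ≤ D a := by omega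
      rcases hcases with h | h | h | h | h
      · nlinarith
      · rw [h] at hgt; norm_num at hgt
      · rw [h] at hgt; norm_num at hgt
      · rw [h] at hgt; norm_num at hgt
      · nlinarith
    have hsplit := Finset.add_sum_erase S (fun a => D a ^ 2) ha
    have hrest : ∑ b ∈ S.erase a, D b ^ 2 = 0 := by
      have hnn : 0 ≤ ∑ b ∈ S.erase a, D b ^ 2 := Finset.sum_nonneg (fun b _ => sq_nonneg _)
      linarith
    have hzero : ∀ b ∈ S.erase a, D b = 0 := by
      intro b hb
      have h5 := (Finset.sum_eq_zero_iff_of_nonneg (fun b _ => sq_nonneg (D b))).mp hrest b hb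
      exact pow_eq_zero_iff (two_ne_zero) |>.mp h5
    have hsplit2 := Finset.add_sum_erase S (fun a => d a * D a) ha
    have hrest2 : ∑ b ∈ S.erase a, d b * D b = 0 :=
      Finset.sum_eq_zero (fun b hb => by rw [hzero b hb, mul_zero])
    rw [hrest2, add_zero, h2] at hsplit2
    have hda := hd a ha
    rcases mul_eq_zero.mp hsplit2 with h | h
    · omega
    · rw [h] at h4
      norm_num at h4
  have hsum : ∑ a ∈ S, D a ^ 2 = ∑ _a ∈ S, (1 : ℤ) := by
    rw [h1, Finset.sum_const, hcard]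
    rfl
  have hall := (Finset.sum_eq_sum_iff_of_le hle).mp hsum
  intro a ha
  have h3 := hall a ha
  have h4 : (D a - 1) * (D a + 1) = 0 := by
    have : (D a - 1) * (D a + 1) = D a ^ 2 - 1 := by ring
    rw [this, h3, sub_self]
  rcases mul_eq_zero.mp h4 with h | h
  · left; omega
  · right; omega

theorem memLocalRing_sum_div_four (hMp : M.IsPrime) {α γ : Type*} (S : Finset α) (g : α → γ)
    (F : α → ℂ) (h4 : ∀ a ∈ S, ∃ T : Finset α, T.card = 4 ∧ ∀ a', a' ∈ T ↔ (a' ∈ S ∧ g a' = g a))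
    (hconst : ∀ a ∈ S, ∀ a' ∈ S, g a' = g a → F a' = F a)
    (hO : ∀ a ∈ S, MemLocalRing M (F a)) : MemLocalRing M ((∑ a ∈ S, F a) / 4) := by
  classical
  rw [← Finset.sum_fiberwise_of_maps_to (g := g) (t := S.image g)
    (fun a ha => Finset.mem_image_of_mem g ha), Finset.sum_div]
  apply memLocalRing_sum hMp
  intro b hb
  obtain ⟨a, ha, rfl⟩ := Finset.mem_image.mp hb
  obtain ⟨T, hT4, hT⟩ := h4 a ha
  have hTeq : S.filter (fun a' => g a' = g a) = T := by
    ext a'
    rw [Finset.mem_filter, hT a']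
  have h : ∑ a' ∈ S.filter (fun a' => g a' = g a), F a' = 4 * F a := by
    rw [Finset.sum_congr rfl (fun a' ha' => hconst a ha a' (Finset.mem_filter.mp ha').1
      (Finset.mem_filter.mp ha').2), Finset.sum_const, hTeq, hT4, nsmul_eq_mul]
    norm_num
  rw [h, mul_div_cancel_left₀ _ (by norm_num : (4 : ℂ) ≠ 0)]
  exact hO a ha

theorem kernel_lemma (hMp : M.IsPrime) {α : Type*} (S : Finset α) (hcard : S.card = 4)
    (a b : α → ℂ) (n : ℂ) (Sx Sy : Prop)
    (ha1 : ¬ Sx → ∀ η ∈ S, ∀ η' ∈ S, a η = a η')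
    (hb1 : ¬ Sy → ∀ η ∈ S, ∀ η' ∈ S, b η = b η')
    (ha2 : Sx → ∑ η ∈ S, a η = 0) (hb2 : Sy → ∑ η ∈ S, b η = 0)
    (h3 : Sx → Sy → ∀ η ∈ S, ∀ η' ∈ S, MemLocalRing M ((a η - a η') * (b η - b η') / n))
    (ha4 : ∀ η ∈ S, MemLocalRing M (4 * a η / n)) (hb4 : ∀ η ∈ S, MemLocalRing M (b η)) :
    MemLocalRing M ((∑ η ∈ S, a η * b η) / n) ∧ ((Sx ↔ Sy) ∨ ∑ η ∈ S, a η * b η = 0) := by
  classical
  obtain ⟨η₀, hη₀⟩ : S.Nonempty := Finset.card_pos.mp (by omega)
  by_cases hx : Sx
  · by_cases hy : Sy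
    · have hsa := ha2 hx
      have hsb := hb2 hy
      have key : ∑ η ∈ S, a η * b η =
          ∑ η ∈ S, (a η - a η₀) * (b η - b η₀) - 4 * a η₀ * b η₀ := by
        have h5 : ∑ η ∈ S, (a η - a η₀) * (b η - b η₀) =
            ∑ η ∈ S, a η * b η - a η₀ * ∑ η ∈ S, b η - b η₀ * ∑ η ∈ S, a η +
              (S.card : ℂ) * (a η₀ * b η₀) := by
          have h6 : ∀ η ∈ S, (a η - a η₀) * (b η - b η₀) =
              a η * b η - a η₀ * b η - b η₀ * a η + a η₀ * b η₀ := fun η _ => by ring
          rw [Finset.sum_congr rfl h6, Finset.sum_add_distrib, Finset.sum_sub_distrib,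
            Finset.sum_sub_distrib, ← Finset.mul_sum, ← Finset.mul_sum, Finset.sum_const,
            nsmul_eq_mul]
        rw [h5, hsa, hsb, hcard]
        push_cast
        ring
      refine ⟨?_, Or.inl ⟨fun _ => hy, fun _ => hx⟩⟩
      rw [key, sub_div, Finset.sum_div]
      apply memLocalRing_sub hMp
      · exact memLocalRing_sum hMp _ _ (fun η hη => h3 hx hy η hη η₀ hη₀)
      · have h7 := memLocalRing_mul hMp (ha4 η₀ hη₀) (hb4 η₀ hη₀)
        have h8 : 4 * a η₀ * b η₀ / n = 4 * a η₀ / n * b η₀ := by ring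
        rw [h8]
        exact h7
    · have hconst : ∀ η ∈ S, b η = b η₀ := fun η hη => hb1 hy η hη η₀ hη₀
      have key : ∑ η ∈ S, a η * b η = 0 := by
        rw [Finset.sum_congr rfl (fun η hη => by rw [hconst η hη]), ← Finset.sum_mul, ha2 hx,
          zero_mul]
      refine ⟨?_, Or.inr key⟩
      rw [key, zero_div]
      exact memLocalRing_zero hMp
  · by_cases hy : Sy
    · have hconst : ∀ η ∈ S, a η = a η₀ := fun η hη => ha1 hx η hη η₀ hη₀
      have key : ∑ η ∈ S, a η * b η = 0 := by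
        rw [Finset.sum_congr rfl (fun η hη => by rw [hconst η hη]), ← Finset.mul_sum, hb2 hy,
          mul_zero]
      refine ⟨?_, Or.inr key⟩
      rw [key, zero_div]
      exact memLocalRing_zero hMp
    · have hconsta : ∀ η ∈ S, a η = a η₀ := fun η hη => ha1 hx η hη η₀ hη₀
      have hconstb : ∀ η ∈ S, b η = b η₀ := fun η hη => hb1 hy η hη η₀ hη₀
      have key : ∑ η ∈ S, a η * b η = 4 * a η₀ * b η₀ := by
        rw [Finset.sum_congr rfl (fun η hη => by rw [hconsta η hη, hconstb η hη]),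
          Finset.sum_const, hcard, nsmul_eq_mul]
        push_cast
        ring
      refine ⟨?_, Or.inl ⟨fun h => absurd h hx, fun h => absurd h hy⟩⟩
      have h7 := memLocalRing_mul hMp (ha4 η₀ hη₀) (hb4 η₀ hη₀)
      have h8 : 4 * a η₀ * b η₀ / n = 4 * a η₀ / n * b η₀ := by ring
      rw [key, h8]
      exact h7

end Cfsg.Agent.Lib.Helper77.BPKlein4
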