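import Cfsg.Agent.Lib.Helper77.BPUp

/-!
# Nilpotent blocks: control of fusion by the defect group
-/

set_option autoImplicit false

namespace Cfsg.Agent.Lib.Helper77.BPNil

open Cfsg Cfsg.Agent.Lib.Helper77.LocalRing Cfsg.Agent.Lib.Helper77.CentralChar
  Cfsg.Agent.Lib.Helper77.ClassSum Cfsg.Agent.Lib.Helper77.BlockIdem
  Cfsg.Agent.Lib.Helper77.OsimaVanish Cfsg.Agent.Lib.Helper77.IdemIn
  Cfsg.Agent.Lib.Helper77.BPBasic Cfsg.Agent.Lib.Helper77.BPBrauer
  Cfsg.Agent.Lib.Helper77.BPPairs Cfsg.Agent.Lib.Helper77.BPConj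
  Cfsg.Agent.Lib.Helper77.BPNormal Cfsg.Agent.Lib.Helper77.BPSubpair
  Cfsg.Agent.Lib.Helper77.BPIdem Cfsg.Agent.Lib.Helper77.BPMax
  Cfsg.Agent.Lib.Helper77.BPMax2 Cfsg.Agent.Lib.Helper77.BPEquiv
  Cfsg.Agent.Lib.Helper77.BPEquiv2
  Cfsg.Agent.Lib.Helper77.BPTransport Cfsg.Agent.Lib.Helper77.BPConjMax
  Cfsg.Agent.Lib.Helper77.BPCent Cfsg.Agent.Lib.Helper77.BPStab
  Cfsg.Agent.Lib.Helper77.BPNorm Cfsg.Agent.Lib.Helper77.BPFix
  Cfsg.Agent.Lib.Helper77.BPSub Cfsg.Agent.Lib.Helper77.BPUp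
  Cfsg.Agent.Lib.CT.Wedderburn Cfsg.Agent.Lib.Helper16.ZR Cfsg.Agent.Lib.Helper33.Conj
  Cfsg.Agent.Lib.Helper16.MinMax

universe u
variable {G : Type u} [Group G] {M : Ideal AlgInt}

/-- In a nilpotent block, a suitable `p`-power of an element of the stabilizer of a Brauer pair
centralizes the subgroup. -/
theorem pow_mem_centralizer_of_nil [Finite G] {p : ℕ} [Fact p.Prime]
    {B : Set (IrrCharacter G)} (hnil : IsNilpotentBlock p M B) {Q : Subgroup G}
    {f : Set (IrrCharacter (Subgroup.centralizer (Q : Set G)))}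
    (hBQ : IsBrauerPairOf p M B Q f) {x : G} (hx : x ∈ stab Q f) :
    ∃ a b : ℕ, ¬ p ∣ b ∧ orderOf x = p ^ a * b ∧
      x ^ (p ^ a) ∈ Subgroup.centralizer (Q : Set G) := by
  have hp : p.Prime := Fact.out
  obtain ⟨a, b, hb, hab'⟩ := Nat.exists_eq_pow_mul_and_not_dvd (orderOf_pos x).ne' p hp.ne_one
  refine ⟨a, b, hb, hab', ?_⟩
  have hst2 : x ^ (p ^ a) ∈ stab Q f := pow_mem hx _
  refine hnil.2 Q f hBQ _ (mem_stab.mp hst2).1 (mem_stab.mp hst2).2 ?_
  unfold IsPRegular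
  have h3 : orderOf (x ^ (p ^ a)) = b := by
    rw [orderOf_pow' x (pow_ne_zero _ hp.ne_zero), hab', Nat.gcd_eq_right (dvd_mul_right _ _)]
    exact Nat.mul_div_cancel_left _ (pow_pos hp.pos _)
  rw [h3]
  exact hb

theorem exists_split {p : ℕ} [Fact p.Prime] {x : G} {a b : ℕ} (hb : ¬ p ∣ b) :
    ∃ A C : ℤ, x = (x ^ (p ^ a)) ^ A * (x ^ b) ^ C := by
  have hp : p.Prime := Fact.out
  have hcop : Nat.Coprime (p ^ a) b :=
    Nat.Coprime.pow_left _ ((Nat.Prime.coprime_iff_not_dvd hp).mpr hb)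
  have hbez := Nat.gcd_eq_gcd_ab (p ^ a) b
  rw [hcop.gcd_eq_one] at hbez
  refine ⟨Nat.gcdA (p ^ a) b, Nat.gcdB (p ^ a) b, ?_⟩
  rw [← zpow_natCast, ← zpow_natCast, ← zpow_mul, ← zpow_mul, ← zpow_add]
  have h5 : ((p ^ a : ℕ) : ℤ) * Nat.gcdA (p ^ a) b + (b : ℤ) * Nat.gcdB (p ^ a) b = 1 := by
    rw [← hbez]
    rfl
  rw [h5, zpow_one]

/-- In a nilpotent block, every element of the stabilizer `T` of `(Q, f)` lies in `D C_G(Q)`
for some defect group `D` of the block of `T` above `f`. -/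
theorem exists_defect_mul_nil [Finite G] {p : ℕ} [Fact p.Prime] (hM : IsPModular p M)
    {B : Set (IrrCharacter G)} (hnil : IsNilpotentBlock p M B) {Q : Subgroup G}
    {f : Set (IrrCharacter (Subgroup.centralizer (Q : Set G)))}
    (hBQ : IsBrauerPairOf p M B Q f) (T : Subgroup G)
    (hCT : Subgroup.centralizer (Q : Set G) ≤ T)
    (hTN : T ≤ Subgroup.normalizer (Q : Set G))
    (hst : ∀ t ∈ T, StabilizesBlock (Subgroup.centralizer (Q : Set G)) f t)
    (F : Set (IrrCharacter T)) (hF : IsPBlock M F)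
    (hFc : ∀ t : T, blockCoeff F t =
      subgroupBlockCoeff (Subgroup.centralizer (Q : Set G)) f (t : G))
    (t : G) (ht : t ∈ T) :
    ∃ D : Subgroup T, IsDefectGroup p M F D ∧ ∃ z : T, z ∈ D ∧
      t⁻¹ * (z : G) ∈ Subgroup.centralizer (Q : Set G) := by
  obtain ⟨a, b, hb, hab, hta⟩ := pow_mem_centralizer_of_nil hnil hBQ
    (x := t) (mem_stab.mpr ⟨hTN ht, hst t ht⟩)
  obtain ⟨A, C, hsplit⟩ := exists_split (p := p) (x := t) (a := a) hb
  obtain ⟨c, hc⟩ : ∃ c : G, c = (t ^ (p ^ a)) ^ A := ⟨_, rfl⟩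
  obtain ⟨y, hy⟩ : ∃ y : G, y = (t ^ b) ^ C := ⟨_, rfl⟩
  have hcC : c ∈ Subgroup.centralizer (Q : Set G) := by
    rw [hc]
    exact zpow_mem hta _
  have hyT : y ∈ T := by
    rw [hy]
    exact zpow_mem (pow_mem ht _) _
  have hyp : y ^ (p ^ a) = 1 := by
    have h1 : (t ^ b) ^ (p ^ a) = 1 := by
      rw [← pow_mul, mul_comm, ← hab, pow_orderOf_eq_one]
    rw [hy, ← zpow_natCast, ← zpow_mul, mul_comm, zpow_mul, zpow_natCast, h1, one_zpow]
  obtain ⟨D, hD, z, hzD, hyz⟩ := exists_defect_mul hM hBQ.1.2 T hCT hTN hst F hF hFc y hyT a hyp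
  refine ⟨D, hD, z, hzD, ?_⟩
  have ht' : t = c * y := by
    rw [hc, hy]
    exact hsplit
  have h2 : t⁻¹ * (z : G) = (y⁻¹ * c⁻¹ * y) * (y⁻¹ * (z : G)) := by
    rw [ht']
    group
  rw [h2]
  have hyN : y⁻¹ ∈ Subgroup.normalizer
      ((Subgroup.centralizer (Q : Set G) : Subgroup G) : Set G) :=
    normalizer_le_normalizer_centralizer Q (hTN (inv_mem hyT))
  have h3 := (Subgroup.mem_normalizer_iff.mp hyN c⁻¹).mp (inv_mem hcC)
  rw [inv_inv] at h3
  exact mul_mem h3 hyz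

/-- In a nilpotent block, the stabilizer `T` of `(Q, f)` is `D C_G(Q)` for every defect group `D`
of the block of `T` above `f`. -/
theorem mul_defect_nil [Finite G] {p : ℕ} [Fact p.Prime] (hM : IsPModular p M)
    {B : Set (IrrCharacter G)} (hnil : IsNilpotentBlock p M B) {Q : Subgroup G}
    {f : Set (IrrCharacter (Subgroup.centralizer (Q : Set G)))}
    (hBQ : IsBrauerPairOf p M B Q f) (T : Subgroup G)
    (hCT : Subgroup.centralizer (Q : Set G) ≤ T)
    (hTN : T ≤ Subgroup.normalizer (Q : Set G))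
    (hst : ∀ t ∈ T, StabilizesBlock (Subgroup.centralizer (Q : Set G)) f t)
    (F : Set (IrrCharacter T)) (hF : IsPBlock M F)
    (hFc : ∀ t : T, blockCoeff F t =
      subgroupBlockCoeff (Subgroup.centralizer (Q : Set G)) f (t : G))
    (D : Subgroup T) (hD : IsDefectGroup p M F D) (t : G) (ht : t ∈ T) :
    ∃ z : T, z ∈ D ∧ (z : G)⁻¹ * t ∈ Subgroup.centralizer (Q : Set G) := by
  classical
  have hNC : ∀ t ∈ T, t ∈ Subgroup.normalizer
      ((Subgroup.centralizer (Q : Set G) : Subgroup G) : Set G) :=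
    fun t ht => normalizer_le_normalizer_centralizer Q (hTN ht)
  haveI hCn : ((Subgroup.centralizer (Q : Set G)).subgroupOf T).Normal :=
    (Subgroup.normal_subgroupOf_iff_le_normalizer hCT).mpr (fun t ht => hNC t ht)
  have hpq : IsPGroup p (T ⧸ (Subgroup.centralizer (Q : Set G)).subgroupOf T) := by
    intro q
    obtain ⟨x, rfl⟩ := QuotientGroup.mk_surjective q
    obtain ⟨a, b, hb, hab, hxa⟩ := pow_mem_centralizer_of_nil hnil hBQ
      (x := (x : G)) (mem_stab.mpr ⟨hTN x.2, hst x x.2⟩)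
    refine ⟨a, ?_⟩
    rw [← QuotientGroup.mk_pow, QuotientGroup.eq_one_iff, Subgroup.mem_subgroupOf]
    exact hxa
  haveI hnilp : Group.IsNilpotent (T ⧸ (Subgroup.centralizer (Q : Set G)).subgroupOf T) :=
    hpq.isNilpotent
  by_contra hcon
  push Not at hcon
  obtain ⟨X, hXdef⟩ : ∃ X : Subgroup (T ⧸ (Subgroup.centralizer (Q : Set G)).subgroupOf T),
      X = D.map (QuotientGroup.mk' _) := ⟨_, rfl⟩
  have hX : X ≠ ⊤ := by
    intro h
    have h1 : (QuotientGroup.mk ⟨t, ht⟩ :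
        T ⧸ (Subgroup.centralizer (Q : Set G)).subgroupOf T) ∈ X := by
      rw [h]
      trivial
    rw [hXdef] at h1
    obtain ⟨z, hz, hzt⟩ := h1
    have h2 := QuotientGroup.eq.mp hzt
    exact hcon z hz (Subgroup.mem_subgroupOf.mp h2)
  obtain ⟨K, hK, hXK⟩ := (eq_top_or_exists_le_coatom X).resolve_left hX
  haveI hKn : K.Normal :=
    Subgroup.NormalizerCondition.normal_of_coatom K Group.normalizerCondition_of_isNilpotent hK
  have hKtop : K = ⊤ := by
    rw [eq_top_iff]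
    intro q _
    obtain ⟨x, rfl⟩ := QuotientGroup.mk_surjective q
    obtain ⟨D', hD', z, hzD', hxz⟩ := exists_defect_mul_nil hM hnil hBQ T hCT hTN hst F hF hFc
      (x : G) x.2
    obtain ⟨s, hs⟩ := defectGroup_conj hM F hF hD hD'
    rw [hs, mem_cj] at hzD'
    have h1 : (QuotientGroup.mk x : T ⧸ (Subgroup.centralizer (Q : Set G)).subgroupOf T) =
        QuotientGroup.mk z := QuotientGroup.eq.mpr (Subgroup.mem_subgroupOf.mpr hxz)
    have h2 : (QuotientGroup.mk z : T ⧸ (Subgroup.centralizer (Q : Set G)).subgroupOf T) =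
        QuotientGroup.mk s * QuotientGroup.mk (s⁻¹ * z * s) * (QuotientGroup.mk s)⁻¹ := by
      rw [← QuotientGroup.mk_inv, ← QuotientGroup.mk_mul, ← QuotientGroup.mk_mul]
      congr 1
      group
    rw [h1, h2]
    apply hKn.conj_mem
    apply hXK
    rw [hXdef]
    exact ⟨_, hzD', rfl⟩
  exact hK.1 hKtop

/-- Fusion control for a nilpotent block, at the top: an element normalizing the maximal pair
lies in `P C_G(P)`. -/
theorem fusion_control_top [Finite G] {p : ℕ} [Fact p.Prime] (hM : IsPModular p M)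
    {B : Set (IrrCharacter G)} {P : Subgroup G}
    {e : Set (IrrCharacter (Subgroup.centralizer (P : Set G)))}
    (hmax : IsMaximalBrauerPair p M B P e) (hnil : IsNilpotentBlock p M B) (g : G)
    (hg : SubpairLE p M (P.map (MulAut.conj g).toMonoidHom) (conjBlock P g e) P e) :
    ∃ u ∈ P, u⁻¹ * g ∈ Subgroup.centralizer (P : Set G) := by
  have hp : p.Prime := Fact.out
  have hPe := hmax.1.1
  have hPgP : P.map (MulAut.conj g).toMonoidHom ≤ P :=
    le_of_subpairLE (p := p) (M := M) ⟨_, _⟩ ⟨P, e⟩ hg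
  have hPg : P.map (MulAut.conj g).toMonoidHom = P :=
    Subgroup.eq_of_le_of_card_ge hPgP (by rw [card_cj])
  have hgN : g ∈ Subgroup.normalizer (P : Set G) := mem_normalizer_iff_cj_eq.mpr hPg
  have hg' : Relation.ReflTransGen (NormalSubpairRel p M) (cjp g ⟨P, e⟩) ⟨P, e⟩ := hg
  rw [cjp_eq_conjB hgN] at hg'
  have hce : conjB (Subgroup.centralizer (P : Set G)) g
      (normalizer_le_normalizer_centralizer P hgN) e = e :=
    subpair_unique hM _ P rfl e P _ e hPe hg' Relation.ReflTransGen.refl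
  have hgs : StabilizesBlock (Subgroup.centralizer (P : Set G)) e g :=
    (stabilizesBlock_iff _ g (normalizer_le_normalizer_centralizer P hgN) e).mpr hce
  have hgst : g ∈ stab P e := mem_stab.mpr ⟨hgN, hgs⟩
  obtain ⟨a, b, hb, hab, hga⟩ := pow_mem_centralizer_of_nil hnil hmax.1 hgst
  obtain ⟨A, C, hsplit⟩ := exists_split (p := p) (x := g) (a := a) hb
  have hst1 : (g ^ b) ^ C ∈ stab P e := zpow_mem (pow_mem hgst _) _
  have hpow : ((g ^ b) ^ C) ^ (p ^ a) = 1 := by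
    have h1 : (g ^ b) ^ (p ^ a) = 1 := by
      rw [← pow_mul, mul_comm, ← hab, pow_orderOf_eq_one]
    rw [← zpow_natCast, ← zpow_mul, mul_comm, zpow_mul, zpow_natCast, h1, one_zpow]
  obtain ⟨u, hu, huc⟩ := mem_mul_of_maximal hM hmax _ (mem_stab.mp hst1).1
    (mem_stab.mp hst1).2 a hpow
  have hun : u ∈ Subgroup.normalizer
      ((Subgroup.centralizer (P : Set G) : Subgroup G) : Set G) :=
    normalizer_le_normalizer_centralizer P (Subgroup.le_normalizer hu)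
  refine ⟨u, hu, ?_⟩
  have h2 : u⁻¹ * g = (u⁻¹ * (g ^ (p ^ a)) ^ A * u) * (u⁻¹ * (g ^ b) ^ C) := by
    conv_lhs => rw [hsplit]
    group
  rw [h2]
  have hun' : u⁻¹ ∈ Subgroup.normalizer
      ((Subgroup.centralizer (P : Set G) : Subgroup G) : Set G) := inv_mem hun
  have h3 := (Subgroup.mem_normalizer_iff.mp hun' ((g ^ (p ^ a)) ^ A)).mp (zpow_mem hga _)
  rw [inv_inv] at h3
  exact mul_mem h3 huc

/-- Fusion control for a nilpotent block: the inductive step. -/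
theorem fusion_control_step [Finite G] {p : ℕ} [Fact p.Prime] (hM : IsPModular p M)
    {B : Set (IrrCharacter G)} {P : Subgroup G}
    {e : Set (IrrCharacter (Subgroup.centralizer (P : Set G)))}
    (hmax : IsMaximalBrauerPair p M B P e) (hnil : IsNilpotentBlock p M B)
    {Q : Subgroup G} {f : Set (IrrCharacter (Subgroup.centralizer (Q : Set G)))}
    (hle : SubpairLE p M Q f P e) (hne : Q ≠ P)
    (ih : ∀ (R : Subgroup G) (r : Set (IrrCharacter (Subgroup.centralizer (R : Set G)))),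
      Nat.card Q < Nat.card R → SubpairLE p M R r P e →
      ∀ g : G, SubpairLE p M (R.map (MulAut.conj g).toMonoidHom) (conjBlock R g r) P e →
        ∃ u ∈ P, u⁻¹ * g ∈ Subgroup.centralizer (R : Set G))
    (g : G) (hg : SubpairLE p M (Q.map (MulAut.conj g).toMonoidHom) (conjBlock Q g f) P e) :
    ∃ u ∈ P, u⁻¹ * g ∈ Subgroup.centralizer (Q : Set G) := by
  classical
  have hMp := isPrime_of_isPModular hM
  have hPe := hmax.1.1
  have hB := hmax.1.2.1
  have hQP : Q ≤ P := le_of_subpairLE (p := p) (M := M) ⟨Q, f⟩ ⟨P, e⟩ hle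
  have hQf := isBrauerPair_of_le (p := p) (M := M) ⟨Q, f⟩ ⟨P, e⟩ hle hPe
  have hBQ : IsBrauerPairOf p M B Q f :=
    (isBrauerPairOf_iff_of_le hM B hB ⟨Q, f⟩ ⟨P, e⟩ hle).mp hmax.1
  obtain ⟨hQT, hCT, hTN, hst, hRT⟩ := stab_data hM hPe hle (stab Q f) (fun y => Iff.rfl)
  obtain ⟨F, hF, hFc⟩ := exists_block_coeff hM hQf.1 hQf.2 (stab Q f) hQT hCT hTN hst
  -- the pair on `N_P(Q)`
  have hlt := lt_inf_normalizer hPe.1 hQP hne
  have hcard₁ : Nat.card Q < Nat.card (P ⊓ Subgroup.normalizer (Q : Set G) : Subgroup G) := by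
    by_contra hcon
    push Not at hcon
    exact hlt.ne (Subgroup.eq_of_le_of_card_ge hlt.le hcon)
  obtain ⟨e₁, hn₁, hle₁⟩ := exists_mid hM hPe hle (P ⊓ Subgroup.normalizer (Q : Set G)) hlt.le
    inf_le_left inf_le_right
  obtain ⟨a₁, ha₁F, ha₁⟩ := exists_down_pair (stab Q f) hn₁ hCT hRT F hF hFc
  obtain ⟨d, hdmax, had⟩ := exists_maximal_above (p := p) (M := M) F _ a₁ a₁ ha₁F
    Relation.ReflTransGen.refl rfl
  have hfst₁ : a₁.1.map (stab Q f).subtype = P ⊓ Subgroup.normalizer (Q : Set G) :=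
    congrArg Sigma.fst ha₁
  have hC₁ : Subgroup.centralizer ((a₁.1.map (stab Q f).subtype : Subgroup G) : Set G) ≤
      stab Q f := by
    rw [hfst₁]
    exact (Subgroup.centralizer_le hlt.le).trans hCT
  have hup := up_le (stab Q f) hC₁ had
  rw [ha₁] at hup
  have hBN₁ : IsBrauerPairOf p M B (P ⊓ Subgroup.normalizer (Q : Set G)) e₁ :=
    (isBrauerPairOf_iff_of_le hM B hB ⟨_, e₁⟩ ⟨P, e⟩ hle₁).mp hmax.1
  have hBd : IsBrauerPairOf p M B (up (stab Q f) d).1 (up (stab Q f) d).2 :=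
    (isBrauerPairOf_iff_of_le hM B hB _ _ hup).mpr hBN₁
  obtain ⟨h, hh⟩ := exists_conj_le_of_maximal hM hmax hBd
  have hh' : Relation.ReflTransGen (NormalSubpairRel p M) (cjp h (up (stab Q f) d)) ⟨P, e⟩ := hh
  have h1 : Relation.ReflTransGen (NormalSubpairRel p M)
      (cjp h ⟨P ⊓ Subgroup.normalizer (Q : Set G), e₁⟩) ⟨P, e⟩ :=
    (subpairLE_conj h hup).trans hh'
  obtain ⟨u, hu, huc⟩ := ih _ e₁ hcard₁ hle₁ h h1
  obtain ⟨c, hc⟩ : ∃ c : G, c = u⁻¹ * h := ⟨_, rfl⟩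
  rw [← hc] at huc
  have hcQ : c ∈ Subgroup.centralizer (Q : Set G) := Subgroup.centralizer_le hlt.le huc
  have hcT : c ∈ stab Q f := hCT hcQ
  have hcd : Relation.ReflTransGen (NormalSubpairRel p M) (cjp c (up (stab Q f) d)) ⟨P, e⟩ := by
    have h2 := subpairLE_conj (M := M) (p := p) u⁻¹ hh'
    rw [cjp_mul hMp h u⁻¹ _ hBd.1.2, ← hc] at h2
    have h3 : cjp u⁻¹ ⟨P, e⟩ = (⟨P, e⟩ : BrauerPairIdx G) :=
      cjp_eq_self (Subgroup.le_normalizer (inv_mem hu)) (stabilizes_of_mem P e (inv_mem hu))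
    rw [h3] at h2
    exact h2
  have hDc : (d.1.map (stab Q f).subtype).map (MulAut.conj c).toMonoidHom ≤
      P ⊓ Subgroup.normalizer (Q : Set G) := by
    apply le_inf
    · exact le_of_subpairLE (p := p) (M := M) _ ⟨P, e⟩ hcd
    · intro x hx
      rw [mem_cj] at hx
      obtain ⟨y, hy, hyx⟩ := hx
      have h2 : x = c * (y : G) * c⁻¹ := by
        have h3 : ((stab Q f).subtype y : G) = (y : G) := rfl
        rw [← h3, hyx]
        group
      rw [h2]
      exact hTN (mul_mem (mul_mem hcT y.2) (inv_mem hcT))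
  have hDd : IsDefectGroup p M F d.1 := isDefectGroup_of_maximal hM hdmax
  have hTdec : ∀ t ∈ stab Q f, ∃ n ∈ P ⊓ Subgroup.normalizer (Q : Set G),
      n⁻¹ * t ∈ Subgroup.centralizer (Q : Set G) := by
    intro t ht
    obtain ⟨z, hzd, hz⟩ := mul_defect_nil hM hnil hBQ (stab Q f) hCT hTN hst F hF hFc d.1 hDd t ht
    refine ⟨c * z * c⁻¹, hDc (conj_mem_cj ⟨z, hzd, rfl⟩), ?_⟩
    have h2 : (c * (z : G) * c⁻¹)⁻¹ * t = c * ((z : G)⁻¹ * c⁻¹ * z) * ((z : G)⁻¹ * t) := by group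
    rw [h2]
    have hzN : (z : G)⁻¹ ∈ Subgroup.normalizer
        ((Subgroup.centralizer (Q : Set G) : Subgroup G) : Set G) :=
      normalizer_le_normalizer_centralizer Q (hTN (inv_mem z.2))
    have h3 := (Subgroup.mem_normalizer_iff.mp hzN c⁻¹).mp (inv_mem hcQ)
    rw [inv_inv] at h3
    exact mul_mem (mul_mem hcQ h3) hz
  -- the element `g`
  have hQ₂P : Q.map (MulAut.conj g).toMonoidHom ≤ P :=
    le_of_subpairLE (p := p) (M := M) ⟨_, _⟩ ⟨P, e⟩ hg
  have hne₂ : Q.map (MulAut.conj g).toMonoidHom ≠ P := by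
    intro h
    apply hne
    apply Subgroup.eq_of_le_of_card_ge hQP
    rw [← h, card_cj]
  have hlt₂ := lt_inf_normalizer hPe.1 hQ₂P hne₂
  have hcard₂ : Nat.card Q < Nat.card (P ⊓ Subgroup.normalizer
      ((Q.map (MulAut.conj g).toMonoidHom : Subgroup G) : Set G) : Subgroup G) := by
    by_contra hcon
    push Not at hcon
    rw [← card_cj g Q] at hcon
    exact hlt₂.ne (Subgroup.eq_of_le_of_card_ge hlt₂.le hcon)
  obtain ⟨e₂, hn₂, hle₂⟩ := exists_mid hM hPe hg (P ⊓ Subgroup.normalizer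
    ((Q.map (MulAut.conj g).toMonoidHom : Subgroup G) : Set G)) hlt₂.le inf_le_left inf_le_right
  have hn₂' := isNormalSubpair_conj (M := M) g⁻¹ hn₂
  have hback : cjp g⁻¹ (cjp g ⟨Q, f⟩) = (⟨Q, f⟩ : BrauerPairIdx G) := by
    rw [cjp_mul hMp g g⁻¹ ⟨Q, f⟩ hQf.2, inv_mul_cancel, cjp_one hMp _ hQf.2]
  have hn₂'' : NormalSubpairRel p M (cjp g⁻¹ (cjp g ⟨Q, f⟩))
      (cjp g⁻¹ ⟨P ⊓ Subgroup.normalizer
        ((Q.map (MulAut.conj g).toMonoidHom : Subgroup G) : Set G), e₂⟩) := hn₂'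
  rw [hback] at hn₂''
  have hn₃ : IsNormalSubpair p M Q f
      ((P ⊓ Subgroup.normalizer
        ((Q.map (MulAut.conj g).toMonoidHom : Subgroup G) : Set G)).map
          (MulAut.conj g⁻¹).toMonoidHom)
      (conjBlock _ g⁻¹ e₂) := hn₂''
  have hR₂T : (P ⊓ Subgroup.normalizer
      ((Q.map (MulAut.conj g).toMonoidHom : Subgroup G) : Set G)).map
        (MulAut.conj g⁻¹).toMonoidHom ≤ stab Q f :=
    fun x hx => mem_stab.mpr ⟨hn₃.2.2.2.1 hx, hn₃.2.2.2.2.1 x hx⟩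
  obtain ⟨a₂, ha₂F, ha₂⟩ := exists_down_pair (stab Q f) hn₃ hCT hR₂T F hF hFc
  obtain ⟨t, ht⟩ := exists_conj_le_of_maximal hM hdmax ha₂F
  have ht' : Relation.ReflTransGen (NormalSubpairRel p M) (cjp t a₂) d := ht
  have hfst₂ : a₂.1.map (stab Q f).subtype = (P ⊓ Subgroup.normalizer
      ((Q.map (MulAut.conj g).toMonoidHom : Subgroup G) : Set G)).map
        (MulAut.conj g⁻¹).toMonoidHom := congrArg Sigma.fst ha₂
  have hC₂ : Subgroup.centralizer ((a₂.1.map (stab Q f).subtype : Subgroup G) : Set G) ≤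
      stab Q f := by
    rw [hfst₂]
    exact (Subgroup.centralizer_le hn₃.2.2.1).trans hCT
  have hup₂ := up_le (stab Q f) (centralizer_cj_le (stab Q f) a₂.1 hC₂ t) ht'
  rw [up_conj (stab Q f) a₂ hC₂ t, ha₂] at hup₂
  have hup₃ : Relation.ReflTransGen (NormalSubpairRel p M)
      (cjp (c * t * g⁻¹) ⟨P ⊓ Subgroup.normalizer
        ((Q.map (MulAut.conj g).toMonoidHom : Subgroup G) : Set G), e₂⟩) ⟨P, e⟩ := by
    have h2 := (subpairLE_conj (M := M) (p := p) c hup₂).trans hcd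
    have h3 : cjp c (cjp (t : G) (cjp g⁻¹ ⟨P ⊓ Subgroup.normalizer
        ((Q.map (MulAut.conj g).toMonoidHom : Subgroup G) : Set G), e₂⟩)) =
        cjp (c * t * g⁻¹) ⟨P ⊓ Subgroup.normalizer
        ((Q.map (MulAut.conj g).toMonoidHom : Subgroup G) : Set G), e₂⟩ := by
      rw [cjp_mul hMp g⁻¹ t _ hn₂.2.1.2, cjp_mul hMp _ c _ hn₂.2.1.2, mul_assoc]
    rw [← h3]
    exact h2
  obtain ⟨u₂, hu₂, hu₂c⟩ := ih _ e₂ hcard₂ hle₂ (c * t * g⁻¹) hup₃
  have h4 : u₂⁻¹ * (c * t * g⁻¹) ∈ Subgroup.centralizer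
      ((Q.map (MulAut.conj g).toMonoidHom : Subgroup G) : Set G) :=
    Subgroup.centralizer_le hlt₂.le hu₂c
  rw [centralizer_cj, mem_cj] at h4
  obtain ⟨n, hn, hnc⟩ := hTdec (c * t) (mul_mem hcT t.2)
  refine ⟨u₂⁻¹ * n, mul_mem (inv_mem hu₂) hn.1, ?_⟩
  have h5 : (u₂⁻¹ * n)⁻¹ * g =
      (n⁻¹ * (c * t)) * (g⁻¹ * (u₂⁻¹ * (c * t * g⁻¹)) * g)⁻¹ := by group
  rw [h5]
  exact mul_mem hnc (inv_mem h4)

/-- **Fusion control in nilpotent blocks.**  If `B` is nilpotent with maximal pair `(P, e)`,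
and both `(Q, f)` and its conjugate by `g` lie below `(P, e)`, then `g ∈ P C_G(Q)`. -/
theorem fusion_control [Finite G] {p : ℕ} [Fact p.Prime] (hM : IsPModular p M)
    {B : Set (IrrCharacter G)} {P : Subgroup G}
    {e : Set (IrrCharacter (Subgroup.centralizer (P : Set G)))}
    (hmax : IsMaximalBrauerPair p M B P e) (hnil : IsNilpotentBlock p M B) :
    ∀ (n : ℕ) (Q : Subgroup G) (f : Set (IrrCharacter (Subgroup.centralizer (Q : Set G)))),
      Nat.card P - Nat.card Q ≤ n → SubpairLE p M Q f P e →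
      ∀ g : G, SubpairLE p M (Q.map (MulAut.conj g).toMonoidHom) (conjBlock Q g f) P e →
        ∃ u ∈ P, u⁻¹ * g ∈ Subgroup.centralizer (Q : Set G) := by
  have hPe := hmax.1.1
  have top : ∀ (Q : Subgroup G) (f : Set (IrrCharacter (Subgroup.centralizer (Q : Set G)))),
      Q = P → SubpairLE p M Q f P e →
      ∀ g : G, SubpairLE p M (Q.map (MulAut.conj g).toMonoidHom) (conjBlock Q g f) P e →
        ∃ u ∈ P, u⁻¹ * g ∈ Subgroup.centralizer (Q : Set G) := by
    intro Q f hQ hle g hg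
    subst hQ
    have hfe : f = e := subpair_unique hM _ Q rfl e Q f e hPe hle Relation.ReflTransGen.refl
    subst hfe
    exact fusion_control_top hM hmax hnil g hg
  intro n
  induction n with
  | zero =>
    intro Q f hn hle g hg
    have hQP : Q ≤ P := le_of_subpairLE (p := p) (M := M) ⟨Q, f⟩ ⟨P, e⟩ hle
    exact top Q f (Subgroup.eq_of_le_of_card_ge hQP (by omega)) hle g hg
  | succ n ih =>
    intro Q f hn hle g hg
    have hQP : Q ≤ P := le_of_subpairLE (p := p) (M := M) ⟨Q, f⟩ ⟨P, e⟩ hle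
    by_cases hQ : Q = P
    · exact top Q f hQ hle g hg
    · refine fusion_control_step hM hmax hnil hle hQ ?_ g hg
      intro R r hcard hleR g' hg'
      exact ih R r (by omega) hleR g' hg'

end Cfsg.Agent.Lib.Helper77.BPNil
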