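import Cfsg.Prelude.Def_BlockFusion
import Cfsg.Agent.Lib.Helper77.BPCentric

/-!
# The fusion system of a block on a maximal Brauer pair: construction
-/

set_option autoImplicit false

namespace Cfsg.Agent.Lib.Helper77.BPSat1

open Cfsg Cfsg.Agent.Lib.Helper77.LocalRing Cfsg.Agent.Lib.Helper77.CentralChar
  Cfsg.Agent.Lib.Helper77.ClassSum Cfsg.Agent.Lib.Helper77.BlockIdem
  Cfsg.Agent.Lib.Helper77.OsimaVanish Cfsg.Agent.Lib.Helper77.IdemIn
  Cfsg.Agent.Lib.Helper77.BPBasic Cfsg.Agent.Lib.Helper77.BPBrauer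
  Cfsg.Agent.Lib.Helper77.BPPairs Cfsg.Agent.Lib.Helper77.BPConj
  Cfsg.Agent.Lib.Helper77.BPNormal Cfsg.Agent.Lib.Helper77.BPSubpair
  Cfsg.Agent.Lib.Helper77.BPIdem Cfsg.Agent.Lib.Helper77.BPMax
  Cfsg.Agent.Lib.Helper77.BPMax2 Cfsg.Agent.Lib.Helper77.BPEquiv
  Cfsg.Agent.Lib.Helper77.BPEquiv2
  Cfsg.Agent.Lib.Helper77.BPTransport Cfsg.Agent.Lib.Helper77.BPConjMax
  Cfsg.Agent.Lib.Helper77.BPCent Cfsg.Agent.Lib.Helper77.BPStab
  Cfsg.Agent.Lib.Helper77.BPNorm Cfsg.Agent.Lib.Helper77.BPFix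
  Cfsg.Agent.Lib.Helper77.BPSub Cfsg.Agent.Lib.Helper77.BPUp Cfsg.Agent.Lib.Helper77.BPNil
  Cfsg.Agent.Lib.Helper77.BPCentPair Cfsg.Agent.Lib.Helper77.BPCentric
  Cfsg.Agent.Lib.CT.Wedderburn Cfsg.Agent.Lib.Helper16.ZR Cfsg.Agent.Lib.Helper33.Conj
  Cfsg.Agent.Lib.Helper16.MinMax

universe u
variable {G : Type u} [Group G] {M : Ideal AlgInt}

/-- Below a pair, the subpair on a smaller subgroup of a subpair is the subpair. -/
theorem subpairLE_of_le [Finite G] {p : ℕ} [Fact p.Prime] (hM : IsPModular p M)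
    {P Q R : Subgroup G} {e : Set (IrrCharacter (Subgroup.centralizer (P : Set G)))}
    {f : Set (IrrCharacter (Subgroup.centralizer (Q : Set G)))}
    {g : Set (IrrCharacter (Subgroup.centralizer (R : Set G)))}
    (hPe : IsBrauerPair p M P e) (hQ : SubpairLE p M Q f P e) (hR : SubpairLE p M R g P e)
    (hQR : Q ≤ R) : SubpairLE p M Q f R g := by
  have hRg : IsBrauerPair p M R g :=
    isBrauerPair_of_le (p := p) (M := M) ⟨R, g⟩ ⟨P, e⟩ hR hPe
  obtain ⟨f', hf'⟩ := exists_subpair hM R g hRg Q hQR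
  have h1 : f' = f := subpair_unique hM _ P rfl e Q f' f hPe (hf'.trans hR) hQ
  rw [← h1]
  exact hf'

theorem cjp_inv_cjp [Finite G] (hMp : M.IsPrime) (g : G) (a : BrauerPairIdx G)
    (ha : IsPBlock M a.2) : cjp g⁻¹ (cjp g a) = a := by
  rw [cjp_mul hMp g g⁻¹ a ha, inv_mul_cancel, cjp_one hMp _ ha]

/-- The fusion system of a block on a Brauer pair `(P, e)`. -/
def blockFusion [Finite G] {p : ℕ} [Fact p.Prime] (hM : IsPModular p M) (P : Subgroup G)
    (e : Set (IrrCharacter (Subgroup.centralizer (P : Set G)))) (hPe : IsBrauerPair p M P e) :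
    FusionSystem P where
  Hom Q := {φ | Q ≤ P ∧ ∃ g : G, (∀ u : Q, φ u = g * (u : G) * g⁻¹) ∧
    Q.map (MulAut.conj g).toMonoidHom ≤ P ∧
    ∃ f : Set (IrrCharacter (Subgroup.centralizer (Q : Set G))),
      SubpairLE p M Q f P e ∧
        SubpairLE p M (Q.map (MulAut.conj g).toMonoidHom) (conjBlock Q g f) P e}
  le_of_mem := by
    rintro Q φ ⟨hQP, g, hg, hQg, -⟩
    refine ⟨hQP, fun x => ?_⟩
    rw [hg x]
    exact hQg (conj_mem_cj x.2)
  injective_of_mem := by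
    rintro Q φ ⟨-, g, hg, -⟩ a b hab
    rw [hg a, hg b] at hab
    exact Subtype.ext (mul_left_cancel (mul_right_cancel hab))
  conj_mem := by
    intro Q g hQP hg
    obtain ⟨f, hf⟩ := exists_subpair hM P e hPe Q hQP
    refine ⟨hQP, g, fun u => rfl, cj_le_of_le_of_mem hQP hg, f, hf, ?_⟩
    have h1 := subpairLE_conj (M := M) (p := p) g hf
    rw [cjp_eq_self (Subgroup.le_normalizer hg) (stabilizes_of_mem P e hg)] at h1
    exact h1
  comp_mem := by
    rintro Q R φ ψ ⟨hQP, g, hg, hQg, f, hf, hf'⟩ ⟨hRP, h, hh, hRh, f₂, hf₂, hf₂'⟩ hφR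
    have hMp := isPrime_of_isPModular hM
    have hQf : IsBrauerPair p M Q f :=
      isBrauerPair_of_le (p := p) (M := M) ⟨Q, f⟩ ⟨P, e⟩ hf hPe
    have hQgR : Q.map (MulAut.conj g).toMonoidHom ≤ R := by
      rintro _ ⟨u, hu, rfl⟩
      have h1 := hφR ⟨u, hu⟩
      rw [hg] at h1
      exact h1
    have h3 := subpairLE_of_le hM hPe hf' hf₂ hQgR
    have h4 := subpairLE_conj (M := M) (p := p) h h3
    have h5 : cjp h (cjp g ⟨Q, f⟩) = cjp (h * g) ⟨Q, f⟩ := cjp_mul hMp g h ⟨Q, f⟩ hQf.2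
    have h6 : Relation.ReflTransGen (NormalSubpairRel p M) (cjp (h * g) ⟨Q, f⟩) ⟨P, e⟩ := by
      rw [← h5]
      exact h4.trans hf₂'
    refine ⟨hQP, h * g, ?_, le_of_subpairLE (p := p) (M := M) _ ⟨P, e⟩ h6, f, hf, h6⟩
    intro u
    show ψ ⟨φ u, hφR u⟩ = _
    rw [hh]
    show h * φ u * h⁻¹ = _
    rw [hg]
    group
  inv_mem := by
    rintro Q φ ⟨hQP, g, hg, hQg, f, hf, hf'⟩
    have hMp := isPrime_of_isPModular hM
    have hQf : IsBrauerPair p M Q f :=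
      isBrauerPair_of_le (p := p) (M := M) ⟨Q, f⟩ ⟨P, e⟩ hf hPe
    have hrange : φ.range = Q.map (MulAut.conj g).toMonoidHom := by
      ext y
      rw [MonoidHom.mem_range, mem_cj]
      constructor
      · rintro ⟨u, rfl⟩
        rw [hg]
        have h1 : g⁻¹ * (g * (u : G) * g⁻¹) * g = u := by group
        rw [h1]
        exact u.2
      · intro hy
        refine ⟨⟨g⁻¹ * y * g, hy⟩, ?_⟩
        rw [hg]
        group
    have key : ∀ R : Subgroup G, R = Q.map (MulAut.conj g).toMonoidHom →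
        ∃ f₂ : Set (IrrCharacter (Subgroup.centralizer (R : Set G))),
          SubpairLE p M R f₂ P e ∧
            SubpairLE p M (R.map (MulAut.conj g⁻¹).toMonoidHom) (conjBlock R g⁻¹ f₂) P e := by
      intro R hR
      subst hR
      refine ⟨conjBlock Q g f, hf', ?_⟩
      show Relation.ReflTransGen (NormalSubpairRel p M) (cjp g⁻¹ (cjp g ⟨Q, f⟩)) ⟨P, e⟩
      rw [cjp_inv_cjp hMp g ⟨Q, f⟩ hQf.2]
      exact hf
    obtain ⟨f₂, hf₂, hf₂'⟩ := key φ.range hrange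
    refine ⟨conjHom φ.range g⁻¹, ⟨?_, g⁻¹, fun u => rfl, ?_, f₂, hf₂, hf₂'⟩, ?_⟩
    · rw [hrange]
      exact hQg
    · rw [hrange, cj_inv_cj]
      exact hQP
    · intro x
      show g⁻¹ * φ x * g⁻¹⁻¹ = x
      rw [hg]
      group

theorem isBlockFusionSystemOn_blockFusion [Finite G] {p : ℕ} [Fact p.Prime]
    (hM : IsPModular p M) {B : Set (IrrCharacter G)} {P : Subgroup G}
    {e : Set (IrrCharacter (Subgroup.centralizer (P : Set G)))}
    (hmax : IsMaximalBrauerPair p M B P e) :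
    IsBlockFusionSystemOn p M B P e (blockFusion hM P e hmax.1.1) :=
  ⟨hmax, fun _ _ => Iff.rfl⟩

end Cfsg.Agent.Lib.Helper77.BPSat1
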