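import Cfsg.Agent.Lib.Helper77.BPSat1
import Cfsg.Agent.Lib.Helper77.BPFusion

/-!
# The fusion system of a block: fully normalized subgroups are fully automized
-/

set_option autoImplicit false

namespace Cfsg.Agent.Lib.Helper77.BPSat2

open Cfsg Cfsg.Agent.Lib.Helper77.LocalRing Cfsg.Agent.Lib.Helper77.CentralChar
  Cfsg.Agent.Lib.Helper77.ClassSum Cfsg.Agent.Lib.Helper77.BlockIdem
  Cfsg.Agent.Lib.Helper77.OsimaVanish Cfsg.Agent.Lib.Helper77.IdemIn
  Cfsg.Agent.Lib.Helper77.BPBasic Cfsg.Agent.Lib.Helper77.BPBrauer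
  Cfsg.Agent.Lib.Helper77.BPPairs Cfsg.Agent.Lib.Helper77.BPConj
  Cfsg.Agent.Lib.Helper77.BPNormal Cfsg.Agent.Lib.Helper77.BPSubpair
  Cfsg.Agent.Lib.Helper77.BPIdem Cfsg.Agent.Lib.Helper77.BPMax
  Cfsg.Agent.Lib.Helper77.BPMax2 Cfsg.Agent.Lib.Helper77.BPEquiv
  Cfsg.Agent.Lib.Helper77.BPEquiv2
  Cfsg.Agent.Lib.Helper77.BPTransport Cfsg.Agent.Lib.Helper77.BPConjMax
  Cfsg.Agent.Lib.Helper77.BPCent Cfsg.Agent.Lib.Helper77.BPStab
  Cfsg.Agent.Lib.Helper77.BPNorm Cfsg.Agent.Lib.Helper77.BPFix
  Cfsg.Agent.Lib.Helper77.BPSub Cfsg.Agent.Lib.Helper77.BPUp Cfsg.Agent.Lib.Helper77.BPNil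
  Cfsg.Agent.Lib.Helper77.BPCentPair Cfsg.Agent.Lib.Helper77.BPCentric
  Cfsg.Agent.Lib.Helper77.BPSat1 Cfsg.Agent.Lib.Helper77.BPFusion
  Cfsg.Agent.Lib.CT.Wedderburn Cfsg.Agent.Lib.Helper16.ZR Cfsg.Agent.Lib.Helper33.Conj
  Cfsg.Agent.Lib.Helper16.MinMax

universe u
variable {G : Type u} [Group G] {M : Ideal AlgInt}

section Img

variable {K : Type*} [Group K] [Finite K] {A : Type*} [Group A] {p : ℕ} [Fact p.Prime]

/-- The image of a Sylow subgroup is a Sylow subgroup of the image (cardinality form). -/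
theorem card_map_sylow (κ : K →* A) (S : Sylow p K) :
    Nat.card ((S : Subgroup K).map κ) = p ^ (Nat.card κ.range).factorization p := by
  haveI : Finite κ.range := Finite.of_surjective κ.rangeRestrict κ.rangeRestrict_surjective
  have h1 := (S.mapSurjective κ.rangeRestrict_surjective).card_eq_multiplicity
  rw [← h1]
  have h0 : Nat.card (S.mapSurjective κ.rangeRestrict_surjective) =
      Nat.card ((S : Subgroup K).map κ.rangeRestrict) := by
    rw [← Sylow.coe_mapSurjective κ.rangeRestrict_surjective S]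
  rw [h0]
  have h2 : ((S : Subgroup K).map κ.rangeRestrict).map κ.range.subtype =
      (S : Subgroup K).map κ := by
    rw [Subgroup.map_map, MonoidHom.subtype_comp_rangeRestrict]
  rw [← h2]
  exact Subgroup.card_map_of_injective (Subgroup.subtype_injective _)

theorem card_map_sylow_sub (κ : K →* A) (Z : Subgroup K) (S : Sylow p Z) :
    Nat.card (((S : Subgroup Z).map Z.subtype).map κ) =
      p ^ (Nat.card (Z.map κ)).factorization p := by
  have h1 := card_map_sylow (κ.comp Z.subtype) S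
  have h2 : (κ.comp Z.subtype).range = Z.map κ := by
    ext x
    constructor
    · rintro ⟨z, rfl⟩
      exact ⟨z, z.2, rfl⟩
    · rintro ⟨z, hz, rfl⟩
      exact ⟨⟨z, hz⟩, rfl⟩
  rw [h2] at h1
  rw [Subgroup.map_map]
  exact h1

end Img

/-- The image of a defect group of the block of `T` above `f` under a homomorphism that is
trivial on `C_G(Q)` has the order of a Sylow `p`-subgroup of the image of `T`. -/
theorem card_map_defectGroup [Finite G] {p : ℕ} [Fact p.Prime] (hM : IsPModular p M)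
    {Q : Subgroup G} {f : Set (IrrCharacter (Subgroup.centralizer (Q : Set G)))}
    (hf : IsPBlock M f) (T : Subgroup G) (hCT : Subgroup.centralizer (Q : Set G) ≤ T)
    (hTN : T ≤ Subgroup.normalizer (Q : Set G))
    (hst : ∀ t ∈ T, StabilizesBlock (Subgroup.centralizer (Q : Set G)) f t)
    (F : Set (IrrCharacter T)) (hF : IsPBlock M F)
    (hFc : ∀ t : T, blockCoeff F t =
      subgroupBlockCoeff (Subgroup.centralizer (Q : Set G)) f (t : G))
    {A : Type*} [Group A] (κ : T →* A)
    (hκ : ∀ t : T, (t : G) ∈ Subgroup.centralizer (Q : Set G) → κ t = 1)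
    (D : Subgroup T) (hD : IsDefectGroup p M F D) :
    Nat.card (D.map κ) = p ^ (Nat.card κ.range).factorization p := by
  classical
  have hMp := isPrime_of_isPModular hM
  have hp : p.Prime := Fact.out
  haveI : Finite κ.range := Finite.of_surjective κ.rangeRestrict κ.rangeRestrict_surjective
  have hfin : ∀ X : Subgroup T, Finite (X.map κ) := fun X =>
    Finite.of_injective (Subgroup.inclusion (Subgroup.map_le_range κ X))
      (Subgroup.inclusion_injective _)
  obtain ⟨S⟩ : Nonempty (Sylow p T) := inferInstance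
  have hNC : ∀ t ∈ T, t ∈ Subgroup.normalizer
      ((Subgroup.centralizer (Q : Set G) : Subgroup G) : Set G) :=
    fun t ht => normalizer_le_normalizer_centralizer Q (hTN ht)
  let φ : ↥(S : Subgroup T) →
      (Subgroup.centralizer (Q : Set G) ≃* Subgroup.centralizer (Q : Set G)) :=
    fun u => normConj _ (((u : T) : G)⁻¹) (hNC _ (inv_mem (u : T).2))
  have hφ_coe : ∀ (u : ↥(S : Subgroup T)) (h : Subgroup.centralizer (Q : Set G)),
      ((φ u h : Subgroup.centralizer (Q : Set G)) : G) =
        ((u : T) : G) * h * ((u : T) : G)⁻¹ := by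
    intro u h
    show (((u : T) : G)⁻¹)⁻¹ * (h : G) * ((u : T) : G)⁻¹ = _
    rw [inv_inv]
  obtain ⟨h₀, hh₀, hconj⟩ := exists_fixed_class hM f hf S.2 φ
    (by
      intro h
      apply Subtype.ext
      rw [hφ_coe]
      simp)
    (by
      intro u v h
      apply Subtype.ext
      rw [hφ_coe, hφ_coe, hφ_coe]
      simp [mul_assoc])
    (by
      intro u
      exact (stabilizesBlock_iff _ _ (hNC _ (inv_mem (u : T).2)) f).mp
        (hst _ (inv_mem (u : T).2)))
  obtain ⟨h₀T, hh₀T⟩ : ∃ h₀T : T, h₀T = ⟨(h₀ : G), hCT h₀.2⟩ := ⟨_, rfl⟩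
  -- the Sylow subgroup of `T` maps into the image of the centralizer of `h₀`
  have hSZ : (S : Subgroup T).map κ ≤ (Subgroup.centralizer ({h₀T} : Set T)).map κ := by
    rintro _ ⟨u, hu, rfl⟩
    obtain ⟨c, hc⟩ := isConj_iff.mp (hconj ⟨u, hu⟩)
    have hc' : (c : G) * ((u : G) * (h₀ : G) * (u : G)⁻¹) * (c : G)⁻¹ = h₀ := by
      have h2 := congrArg Subtype.val hc
      rw [Subgroup.coe_mul, Subgroup.coe_mul, hφ_coe] at h2
      exact h2
    refine ⟨⟨(c : G), hCT c.2⟩ * u, ?_, ?_⟩
    · rw [SetLike.mem_coe, mem_centralizer_singleton, hh₀T]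
      apply Subtype.ext
      show (h₀ : G) * ((c : G) * (u : G)) = (c : G) * (u : G) * (h₀ : G)
      calc (h₀ : G) * ((c : G) * (u : G))
          = ((c : G) * ((u : G) * (h₀ : G) * (u : G)⁻¹) * (c : G)⁻¹) * ((c : G) * (u : G)) := by
            rw [hc']
        _ = (c : G) * (u : G) * (h₀ : G) := by group
    · rw [map_mul, hκ ⟨(c : G), hCT c.2⟩ c.2, one_mul]
  obtain ⟨S'⟩ : Nonempty (Sylow p (Subgroup.centralizer ({h₀T} : Set T))) := inferInstance
  have hD₀p : IsPGroup p ((S' : Subgroup (Subgroup.centralizer ({h₀T} : Set T))).map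
      (Subgroup.centralizer ({h₀T} : Set T)).subtype) := S'.2.map _
  obtain ⟨D', hD', hle'⟩ := exists_defectGroup_ge hM F hF _ hD₀p h₀T
    (by
      rw [hFc, hh₀T]
      show ¬ MemLocalIdeal M (subgroupBlockCoeff (Subgroup.centralizer (Q : Set G)) f (h₀ : G))
      rw [subgroupBlockCoeff_coe]
      exact hh₀)
    (Subgroup.map_subtype_le _)
  obtain ⟨t, ht⟩ := defectGroup_conj hM F hF hD hD'
  have hcardD' : Nat.card (D'.map κ) = Nat.card (D.map κ) := by
    have h1 : D'.map κ = (D.map κ).map (MulAut.conj (κ t)).toMonoidHom := by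
      rw [ht, Subgroup.map_map, Subgroup.map_map]
      congr 1
      ext x
      show κ (t * x * t⁻¹) = κ t * κ x * (κ t)⁻¹
      rw [map_mul, map_mul, map_inv]
    rw [h1, card_cj]
  have h1 := card_map_sylow κ S
  have h2 := Subgroup.card_dvd_of_le hSZ
  have h3 := card_map_sylow_sub κ (Subgroup.centralizer ({h₀T} : Set T)) S'
  have h4 := Subgroup.card_dvd_of_le (Subgroup.map_mono (f := κ) hle')
  haveI := hfin D
  obtain ⟨c₀, -, hsyl⟩ := isDefectGroup_iff.mp hD
  obtain ⟨j, hj⟩ := IsPGroup.iff_card.mp (hsyl.2.1.map κ)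
  haveI := hfin (Subgroup.centralizer ({h₀T} : Set T))
  have hne : Nat.card κ.range ≠ 0 := Nat.card_pos.ne'
  have hne₂ : Nat.card ((Subgroup.centralizer ({h₀T} : Set T)).map κ) ≠ 0 := Nat.card_pos.ne'
  have hjm : j ≤ (Nat.card κ.range).factorization p := by
    have h5 := Subgroup.card_dvd_of_le (Subgroup.map_le_range κ D)
    rw [hj] at h5
    exact (Nat.Prime.pow_dvd_iff_le_factorization hp hne).mp h5
  have hmm₂ : (Nat.card κ.range).factorization p ≤
      (Nat.card ((Subgroup.centralizer ({h₀T} : Set T)).map κ)).factorization p := by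
    rw [h1] at h2
    exact (Nat.Prime.pow_dvd_iff_le_factorization hp hne₂).mp h2
  have hm₂j : (Nat.card ((Subgroup.centralizer ({h₀T} : Set T)).map κ)).factorization p ≤ j := by
    rw [h3, hcardD', hj] at h4
    exact (Nat.pow_dvd_pow_iff_le_right hp.one_lt).mp h4
  rw [hj]
  congr 1
  omega

/-! ### The conjugation action of a subgroup of the normalizer -/

/-- Conjugation by the elements of `T ≤ N_G(Q)` as automorphisms of `Q`. -/
def kap (T Q : Subgroup G) (hTN : T ≤ Subgroup.normalizer (Q : Set G)) : T →* MulAut Q where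
  toFun t :=
    { toFun := fun q => ⟨(t : G) * q * (t : G)⁻¹,
        (Subgroup.mem_normalizer_iff.mp (hTN t.2) q).mp q.2⟩
      invFun := fun q => ⟨(t : G)⁻¹ * q * (t : G), by
        have h := (Subgroup.mem_normalizer_iff.mp (hTN (inv_mem t.2)) q).mp q.2
        rwa [inv_inv] at h⟩
      left_inv := fun q => Subtype.ext (by
        show (t : G)⁻¹ * ((t : G) * q * (t : G)⁻¹) * (t : G) = q
        group)
      right_inv := fun q => Subtype.ext (by
        show (t : G) * ((t : G)⁻¹ * q * (t : G)) * (t : G)⁻¹ = q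
        group)
      map_mul' := fun a b => Subtype.ext (by
        show (t : G) * ((a : G) * b) * (t : G)⁻¹ =
          ((t : G) * a * (t : G)⁻¹) * ((t : G) * b * (t : G)⁻¹)
        group) }
  map_one' := by
    apply MulEquiv.ext
    intro q
    apply Subtype.ext
    show ((1 : T) : G) * q * ((1 : T) : G)⁻¹ = q
    simp
  map_mul' := fun s t => by
    apply MulEquiv.ext
    intro q
    apply Subtype.ext
    show ((s * t : T) : G) * q * ((s * t : T) : G)⁻¹ =
      (s : G) * ((t : G) * q * (t : G)⁻¹) * (s : G)⁻¹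
    rw [Subgroup.coe_mul]
    group

theorem coe_kap (T Q : Subgroup G) (hTN : T ≤ Subgroup.normalizer (Q : Set G)) (t : T) (q : Q) :
    ((kap T Q hTN t q : Q) : G) = (t : G) * q * (t : G)⁻¹ := rfl

theorem kap_eq_one (T Q : Subgroup G) (hTN : T ≤ Subgroup.normalizer (Q : Set G)) (t : T)
    (ht : (t : G) ∈ Subgroup.centralizer (Q : Set G)) : kap T Q hTN t = 1 := by
  apply MulEquiv.ext
  intro q
  apply Subtype.ext
  rw [coe_kap]
  have h1 := Subgroup.mem_centralizer_iff.mp ht (q : G) q.2
  rw [← h1]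
  show (q : G) * (t : G) * (t : G)⁻¹ = q
  group

/-- The automorphisms of `Q` induced by `P` are those induced by `N_P(Q)`. -/
theorem autInducedBy_eq (T P Q : Subgroup G) (hTN : T ≤ Subgroup.normalizer (Q : Set G))
    (hPT : P ⊓ Subgroup.normalizer (Q : Set G) ≤ T) :
    autInducedBy P Q =
      ((P ⊓ Subgroup.normalizer (Q : Set G)).subgroupOf T).map (kap T Q hTN) := by
  unfold autInducedBy
  have hset : {α : MulAut Q | ∃ g ∈ P, ∀ x : Q, ((α x : Q) : G) = g * (x : G) * g⁻¹} =
      ((((P ⊓ Subgroup.normalizer (Q : Set G)).subgroupOf T).map (kap T Q hTN) :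
        Subgroup (MulAut Q)) : Set (MulAut Q)) := by
    ext α
    constructor
    · rintro ⟨g, hgP, hα⟩
      have hgN : g ∈ Subgroup.normalizer (Q : Set G) := by
        rw [Subgroup.mem_normalizer_iff]
        intro h
        constructor
        · intro hh
          have h1 := hα ⟨h, hh⟩
          rw [← h1]
          exact (α ⟨h, hh⟩).2
        · intro hh
          have h1 := hα (α.symm ⟨g * h * g⁻¹, hh⟩)
          rw [MulEquiv.apply_symm_apply] at h1
          have h2 : h = ((α.symm ⟨g * h * g⁻¹, hh⟩ : Q) : G) :=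
            mul_left_cancel (mul_right_cancel h1)
          rw [h2]
          exact (α.symm ⟨g * h * g⁻¹, hh⟩).2
      refine ⟨⟨g, hPT ⟨hgP, hgN⟩⟩, Subgroup.mem_subgroupOf.mpr ⟨hgP, hgN⟩, ?_⟩
      apply MulEquiv.ext
      intro u
      apply Subtype.ext
      rw [coe_kap]
      exact (hα u).symm
    · rintro ⟨t, ht, rfl⟩
      exact ⟨(t : G), (Subgroup.mem_subgroupOf.mp ht).1, fun x => rfl⟩
  rw [hset, Subgroup.closure_eq]

/-- The automorphism group of `Q` in the fusion system of a block is the image of the stabilizer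
of the pair `(Q, f)`. -/
theorem autGroup_eq [Finite G] {p : ℕ} [Fact p.Prime] (hM : IsPModular p M)
    {B : Set (IrrCharacter G)} {P : Subgroup G}
    {e : Set (IrrCharacter (Subgroup.centralizer (P : Set G)))} (F : FusionSystem P)
    (hF : IsBlockFusionSystemOn p M B P e F) {Q : Subgroup G}
    {f : Set (IrrCharacter (Subgroup.centralizer (Q : Set G)))} (hQP : Q ≤ P)
    (hle : SubpairLE p M Q f P e)
    (hTN : stab Q f ≤ Subgroup.normalizer (Q : Set G)) :
    F.autGroup Q = (kap (stab Q f) Q hTN).range := by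
  have hPe := hF.1.1.1
  unfold FusionSystem.autGroup
  have hset : {α : MulAut Q | Q.subtype.comp α.toMonoidHom ∈ F.Hom Q} =
      (((kap (stab Q f) Q hTN).range : Subgroup (MulAut Q)) : Set (MulAut Q)) := by
    ext α
    constructor
    · intro hα
      rw [Set.mem_setOf_eq, hF.2 Q] at hα
      obtain ⟨-, g, hg, hQg, f₁, hf₁, hf₁g⟩ := hα
      have hff : f₁ = f := subpair_unique hM _ P rfl e Q f₁ f hPe hf₁ hle
      rw [hff] at hf₁g
      have hrange := range_conj_eq (Q.subtype.comp α.toMonoidHom) g hg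
      have hrange' : (Q.subtype.comp α.toMonoidHom).range = Q := by
        ext y
        constructor
        · rintro ⟨u, rfl⟩
          exact (α u).2
        · intro hy
          refine ⟨α.symm ⟨y, hy⟩, ?_⟩
          show ((α (α.symm ⟨y, hy⟩) : Q) : G) = y
          rw [MulEquiv.apply_symm_apply]
      rw [hrange'] at hrange
      have hgN : g ∈ Subgroup.normalizer (Q : Set G) := mem_normalizer_iff_cj_eq.mpr hrange.symm
      have hg' : Relation.ReflTransGen (NormalSubpairRel p M) (cjp g ⟨Q, f⟩) ⟨P, e⟩ := hf₁g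
      rw [cjp_eq_conjB hgN] at hg'
      have hce : conjB (Subgroup.centralizer (Q : Set G)) g
          (normalizer_le_normalizer_centralizer Q hgN) f = f :=
        subpair_unique hM _ P rfl e Q _ f hPe hg' hle
      have hgs : StabilizesBlock (Subgroup.centralizer (Q : Set G)) f g :=
        (stabilizesBlock_iff _ g (normalizer_le_normalizer_centralizer Q hgN) f).mpr hce
      refine ⟨⟨g, mem_stab.mpr ⟨hgN, hgs⟩⟩, ?_⟩
      apply MulEquiv.ext
      intro u
      apply Subtype.ext
      rw [coe_kap]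
      exact (hg u).symm
    · rintro ⟨t, rfl⟩
      rw [Set.mem_setOf_eq, hF.2 Q]
      refine ⟨hQP, (t : G), fun u => rfl, ?_, f, hle, ?_⟩
      · rw [cj_eq_of_mem_normalizer (hTN t.2)]
        exact hQP
      · show Relation.ReflTransGen (NormalSubpairRel p M) (cjp (t : G) ⟨Q, f⟩) ⟨P, e⟩
        rw [cjp_eq_self (mem_stab.mp t.2).1 (mem_stab.mp t.2).2]
        exact hle
  rw [hset, Subgroup.closure_eq]

/-- **Fully normalized subgroups are fully automized** in the fusion system of a block. -/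
theorem isFullyAutomized [Finite G] {p : ℕ} [Fact p.Prime] (hM : IsPModular p M)
    {B : Set (IrrCharacter G)} {P : Subgroup G}
    {e : Set (IrrCharacter (Subgroup.centralizer (P : Set G)))}
    (hmax : IsMaximalBrauerPair p M B P e) (F : FusionSystem P)
    (hF : IsBlockFusionSystemOn p M B P e F) {Q : Subgroup G}
    {f : Set (IrrCharacter (Subgroup.centralizer (Q : Set G)))} (hQP : Q ≤ P)
    (hle : SubpairLE p M Q f P e)
    (hbig : ∀ y : G, SubpairLE p M (Q.map (MulAut.conj y).toMonoidHom) (conjBlock Q y f) P e →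
      Nat.card (P ⊓ Subgroup.normalizer
        ((Q.map (MulAut.conj y).toMonoidHom : Subgroup G) : Set G) : Subgroup G) ≤
        Nat.card (P ⊓ Subgroup.normalizer (Q : Set G) : Subgroup G)) :
    F.IsFullyAutomized p Q := by
  have hp : p.Prime := Fact.out
  have hPe := hmax.1.1
  have hQf := isBrauerPair_of_le (p := p) (M := M) ⟨Q, f⟩ ⟨P, e⟩ hle hPe
  obtain ⟨hQT, hCT, hTN, hst, hRT⟩ := stab_data hM hPe hle (stab Q f) (fun y => Iff.rfl)
  obtain ⟨FT, hFT, hFTc⟩ := exists_block_coeff hM hQf.1 hQf.2 (stab Q f) hQT hCT hTN hst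
  have hD := isDefectGroup_of_max_normalizer hM hmax hle (stab Q f) hCT hTN hst hRT FT hFT hFTc
    hbig
  have hcard := card_map_defectGroup hM hQf.2 (stab Q f) hCT hTN hst FT hFT hFTc
    (kap (stab Q f) Q hTN) (kap_eq_one (stab Q f) Q hTN) _ hD
  refine ⟨hQP, ?_⟩
  have key : ∀ A₁ A₂ : Subgroup (MulAut Q), A₁ = (kap (stab Q f) Q hTN).range →
      A₂ = ((P ⊓ Subgroup.normalizer (Q : Set G)).subgroupOf (stab Q f)).map
        (kap (stab Q f) Q hTN) →
      ∃ R : Sylow p A₁, (R : Subgroup A₁) = A₂.subgroupOf A₁ := by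
    rintro _ _ rfl rfl
    haveI : Finite (kap (stab Q f) Q hTN).range :=
      Finite.of_surjective (kap (stab Q f) Q hTN).rangeRestrict
        (kap (stab Q f) Q hTN).rangeRestrict_surjective
    have hpg : IsPGroup p ((((P ⊓ Subgroup.normalizer (Q : Set G)).subgroupOf (stab Q f)).map
        (kap (stab Q f) Q hTN)).subgroupOf (kap (stab Q f) Q hTN).range) :=
      (((hPe.1.to_le inf_le_left).comap_subtype).map _).comap_subtype
    have hidx : ¬ p ∣ ((((P ⊓ Subgroup.normalizer (Q : Set G)).subgroupOf (stab Q f)).map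
        (kap (stab Q f) Q hTN)).subgroupOf (kap (stab Q f) Q hTN).range).index := by
      intro hdvd
      have h1 := Subgroup.card_mul_index
        ((((P ⊓ Subgroup.normalizer (Q : Set G)).subgroupOf (stab Q f)).map
        (kap (stab Q f) Q hTN)).subgroupOf (kap (stab Q f) Q hTN).range)
      have h2 : Nat.card ((((P ⊓ Subgroup.normalizer (Q : Set G)).subgroupOf (stab Q f)).map
          (kap (stab Q f) Q hTN)).subgroupOf (kap (stab Q f) Q hTN).range) =
          Nat.card (((P ⊓ Subgroup.normalizer (Q : Set G)).subgroupOf (stab Q f)).map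
          (kap (stab Q f) Q hTN)) :=
        Nat.card_congr (Subgroup.subgroupOfEquivOfLe (Subgroup.map_le_range _ _)).toEquiv
      obtain ⟨m, hm⟩ : ∃ m : ℕ, m = (Nat.card (kap (stab Q f) Q hTN).range).factorization p :=
        ⟨_, rfl⟩
      rw [h2, hcard, ← hm] at h1
      have hne : Nat.card (kap (stab Q f) Q hTN).range ≠ 0 := Nat.card_pos.ne'
      have h3 : p ^ (m + 1) ∣ Nat.card (kap (stab Q f) Q hTN).range := by
        rw [← h1, pow_succ]
        exact Nat.mul_dvd_mul_left _ hdvd
      have h4 := (Nat.Prime.pow_dvd_iff_le_factorization hp hne).mp h3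
      omega
    exact ⟨hpg.toSylow hidx, rfl⟩
  exact key _ _ (autGroup_eq hM F hF hQP hle hTN) (autInducedBy_eq (stab Q f) P Q hTN hRT)

end Cfsg.Agent.Lib.Helper77.BPSat2
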