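import Cfsg.Agent.Lib.Helper77.BPSat2

/-!
# The fusion system of a block: fully normalized subgroups are receptive; saturation
-/

set_option autoImplicit false

namespace Cfsg.Agent.Lib.Helper77.BPSat3

open Cfsg Cfsg.Agent.Lib.Helper77.LocalRing Cfsg.Agent.Lib.Helper77.CentralChar
  Cfsg.Agent.Lib.Helper77.ClassSum Cfsg.Agent.Lib.Helper77.BlockIdem
  Cfsg.Agent.Lib.Helper77.OsimaVanish Cfsg.Agent.Lib.Helper77.IdemIn
  Cfsg.Agent.Lib.Helper77.BPBasic Cfsg.Agent.Lib.Helper77.BPBrauer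
  Cfsg.Agent.Lib.Helper77.BPPairs Cfsg.Agent.Lib.Helper77.BPConj
  Cfsg.Agent.Lib.Helper77.BPNormal Cfsg.Agent.Lib.Helper77.BPSubpair
  Cfsg.Agent.Lib.Helper77.BPIdem Cfsg.Agent.Lib.Helper77.BPMax
  Cfsg.Agent.Lib.Helper77.BPMax2 Cfsg.Agent.Lib.Helper77.BPEquiv
  Cfsg.Agent.Lib.Helper77.BPEquiv2
  Cfsg.Agent.Lib.Helper77.BPTransport Cfsg.Agent.Lib.Helper77.BPConjMax
  Cfsg.Agent.Lib.Helper77.BPCent Cfsg.Agent.Lib.Helper77.BPStab
  Cfsg.Agent.Lib.Helper77.BPNorm Cfsg.Agent.Lib.Helper77.BPFix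
  Cfsg.Agent.Lib.Helper77.BPSub Cfsg.Agent.Lib.Helper77.BPUp Cfsg.Agent.Lib.Helper77.BPNil
  Cfsg.Agent.Lib.Helper77.BPCentPair Cfsg.Agent.Lib.Helper77.BPCentric
  Cfsg.Agent.Lib.Helper77.BPSat1 Cfsg.Agent.Lib.Helper77.BPFusion
  Cfsg.Agent.Lib.Helper77.BPSat2
  Cfsg.Agent.Lib.CT.Wedderburn Cfsg.Agent.Lib.Helper16.ZR Cfsg.Agent.Lib.Helper33.Conj
  Cfsg.Agent.Lib.Helper16.MinMax

universe u
variable {G : Type u} [Group G] {M : Ideal AlgInt}

/-- The subgroup `D C` for `D` normalizing `C`. -/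
def mulSub (D C : Subgroup G) (h : D ≤ Subgroup.normalizer (C : Set G)) : Subgroup G where
  carrier := {t | ∃ d ∈ D, d⁻¹ * t ∈ C}
  mul_mem' := by
    rintro t₁ t₂ ⟨d₁, hd₁, h₁⟩ ⟨d₂, hd₂, h₂⟩
    refine ⟨d₁ * d₂, mul_mem hd₁ hd₂, ?_⟩
    have h3 : (d₁ * d₂)⁻¹ * (t₁ * t₂) = (d₂⁻¹ * (d₁⁻¹ * t₁) * d₂⁻¹⁻¹) * (d₂⁻¹ * t₂) := by group
    rw [h3]
    exact mul_mem ((Subgroup.mem_normalizer_iff.mp (h (inv_mem hd₂)) _).mp h₁) h₂
  one_mem' := ⟨1, one_mem _, by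
    rw [inv_one, one_mul]
    exact one_mem _⟩
  inv_mem' := by
    rintro t ⟨d, hd, h₁⟩
    refine ⟨d⁻¹, inv_mem hd, ?_⟩
    have h3 : d⁻¹⁻¹ * t⁻¹ = d * (d⁻¹ * t)⁻¹ * d⁻¹ := by group
    rw [h3]
    exact (Subgroup.mem_normalizer_iff.mp (h hd) _).mp (inv_mem h₁)

theorem mem_mulSub {D C : Subgroup G} {h : D ≤ Subgroup.normalizer (C : Set G)} {t : G} :
    t ∈ mulSub D C h ↔ ∃ d ∈ D, d⁻¹ * t ∈ C := Iff.rfl

/-- **Fully normalized subgroups are receptive** in the fusion system of a block. -/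
theorem isReceptive [Finite G] {p : ℕ} [Fact p.Prime] (hM : IsPModular p M)
    {B : Set (IrrCharacter G)} {P : Subgroup G}
    {e : Set (IrrCharacter (Subgroup.centralizer (P : Set G)))}
    (hmax : IsMaximalBrauerPair p M B P e) (F : FusionSystem P)
    (hF : IsBlockFusionSystemOn p M B P e F) :
    ∀ (Q : Subgroup G) (f : Set (IrrCharacter (Subgroup.centralizer (Q : Set G)))),
      Q ≤ P → SubpairLE p M Q f P e →
      (∀ y : G, SubpairLE p M (Q.map (MulAut.conj y).toMonoidHom) (conjBlock Q y f) P e →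
        Nat.card (P ⊓ Subgroup.normalizer
          ((Q.map (MulAut.conj y).toMonoidHom : Subgroup G) : Set G) : Subgroup G) ≤
          Nat.card (P ⊓ Subgroup.normalizer (Q : Set G) : Subgroup G)) →
      F.IsReceptive Q := by
  classical
  intro Q f hQP hle hbig
  have hMp := isPrime_of_isPModular hM
  have hPe := hmax.1.1
  refine ⟨hQP, fun R φ hφ hrange => ?_⟩
  obtain ⟨hRP, a, ha, hRa, fR, hfR, hfRa⟩ := (hF.2 R φ).mp hφ
  have hQeq : R.map (MulAut.conj a).toMonoidHom = Q := by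
    rw [← range_conj_eq φ a ha]
    exact hrange
  subst hQeq
  have hff : f = conjBlock R a fR := subpair_unique hM _ P rfl e _ f _ hPe hle hfRa
  subst hff
  have hQf := isBrauerPair_of_le (p := p) (M := M) ⟨_, _⟩ ⟨P, e⟩ hle hPe
  obtain ⟨hQT, hCT, hTN, hst, hRT⟩ := stab_data hM hPe hle
    (stab (R.map (MulAut.conj a).toMonoidHom) (conjBlock R a fR)) (fun y => Iff.rfl)
  -- the subgroup `X = N_P(Q) C_G(Q)`
  have hDC : P ⊓ Subgroup.normalizer
      ((R.map (MulAut.conj a).toMonoidHom : Subgroup G) : Set G) ≤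
      Subgroup.normalizer ((Subgroup.centralizer
        ((R.map (MulAut.conj a).toMonoidHom : Subgroup G) : Set G) : Subgroup G) : Set G) :=
    fun x hx => normalizer_le_normalizer_centralizer _ hx.2
  obtain ⟨X, hXdef⟩ : ∃ X : Subgroup G, X = mulSub _ _ hDC := ⟨_, rfl⟩
  have hXmem : ∀ t : G, t ∈ X ↔ ∃ d ∈ P ⊓ Subgroup.normalizer
      ((R.map (MulAut.conj a).toMonoidHom : Subgroup G) : Set G),
      d⁻¹ * t ∈ Subgroup.centralizer
        ((R.map (MulAut.conj a).toMonoidHom : Subgroup G) : Set G) := by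
    intro t
    rw [hXdef]
    exact Iff.rfl
  have hCX : Subgroup.centralizer
      ((R.map (MulAut.conj a).toMonoidHom : Subgroup G) : Set G) ≤ X := by
    intro t ht
    rw [hXmem]
    refine ⟨1, one_mem _, ?_⟩
    rw [inv_one, one_mul]
    exact ht
  have hDX : P ⊓ Subgroup.normalizer
      ((R.map (MulAut.conj a).toMonoidHom : Subgroup G) : Set G) ≤ X := by
    intro t ht
    rw [hXmem]
    refine ⟨t, ht, ?_⟩
    rw [inv_mul_cancel]
    exact one_mem _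
  have hQX : R.map (MulAut.conj a).toMonoidHom ≤ X :=
    (le_inf hQP Subgroup.le_normalizer).trans hDX
  have hXst : X ≤ stab (R.map (MulAut.conj a).toMonoidHom) (conjBlock R a fR) := by
    intro t ht
    rw [hXmem] at ht
    obtain ⟨d, hd, hdc⟩ := ht
    have h1 := mul_mem (hRT hd) (hCT hdc)
    rwa [mul_inv_cancel_left] at h1
  have hXN : X ≤ Subgroup.normalizer
      ((R.map (MulAut.conj a).toMonoidHom : Subgroup G) : Set G) := hXst.trans hTN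
  have hstX : ∀ t ∈ X, StabilizesBlock (Subgroup.centralizer
      ((R.map (MulAut.conj a).toMonoidHom : Subgroup G) : Set G)) (conjBlock R a fR) t :=
    fun t ht => hst t (hXst ht)
  obtain ⟨FX, hFX, hFXc⟩ := exists_block_coeff hM hQf.1 hQf.2 X hQX hCX hXN hstX
  have hDdef := isDefectGroup_of_max_normalizer hM hmax hle X hCX hXN hstX hDX FX hFX hFXc hbig
  -- the maximal pair of `X` on `N_P(Q)`
  obtain ⟨eD, hnD, hleD⟩ := exists_mid hM hPe hle (P ⊓ Subgroup.normalizer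
    ((R.map (MulAut.conj a).toMonoidHom : Subgroup G) : Set G))
    (le_inf hQP Subgroup.le_normalizer) inf_le_left inf_le_right
  obtain ⟨a₁, ha₁F, ha₁⟩ := exists_down_pair X hnD hCX hDX FX hFX hFXc
  have hfst₁ : a₁.1.map X.subtype = P ⊓ Subgroup.normalizer
      ((R.map (MulAut.conj a).toMonoidHom : Subgroup G) : Set G) := congrArg Sigma.fst ha₁
  have ha₁D : a₁.1 = (P ⊓ Subgroup.normalizer
      ((R.map (MulAut.conj a).toMonoidHom : Subgroup G) : Set G)).subgroupOf X := by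
    rw [← hfst₁]
    exact (Subgroup.comap_map_eq_self_of_injective (Subgroup.subtype_injective X) a₁.1).symm
  have hmax₁ : IsMaximalBrauerPair p M FX a₁.1 a₁.2 := by
    apply isMaximal_of_isDefectGroup hM ha₁F
    rw [ha₁D]
    exact hDdef
  -- the extender
  obtain ⟨N, hN⟩ : ∃ N : Subgroup G, N = FusionSystem.extender P R φ := ⟨_, rfl⟩
  have hRN : R ≤ N := by
    intro r hr
    rw [hN]
    apply Subgroup.subset_closure
    show r ∈ P ∧ r ∈ Subgroup.normalizer (R : Set G) ∧ ∃ h ∈ P, ∀ (x : R)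
      (hx : r * (x : G) * r⁻¹ ∈ R), φ ⟨r * x * r⁻¹, hx⟩ = h * φ x * h⁻¹
    refine ⟨hRP hr, Subgroup.le_normalizer hr, φ ⟨r, hr⟩,
      (F.le_of_mem hφ).2 ⟨r, hr⟩, fun x hx => ?_⟩
    have h1 : (⟨r * (x : G) * r⁻¹, hx⟩ : R) = ⟨r, hr⟩ * x * ⟨r, hr⟩⁻¹ := Subtype.ext rfl
    rw [h1, map_mul, map_mul, map_inv]
  have hNsub : N ≤ (P ⊓ Subgroup.normalizer (R : Set G)) ⊓
      X.map (MulAut.conj a⁻¹).toMonoidHom := by
    rw [hN]
    unfold FusionSystem.extender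
    rw [Subgroup.closure_le]
    rintro g ⟨hgP, hgN, h, hhP, hcond⟩
    refine ⟨⟨hgP, hgN⟩, ?_⟩
    show g ∈ X.map (MulAut.conj a⁻¹).toMonoidHom
    rw [mem_cj, inv_inv, hXmem]
    have key : ∀ x ∈ R, a * (g * x * g⁻¹) * a⁻¹ = h * (a * x * a⁻¹) * h⁻¹ := by
      intro x hx
      have hx' : g * x * g⁻¹ ∈ R := (Subgroup.mem_normalizer_iff.mp hgN x).mp hx
      have h1 := hcond ⟨x, hx⟩ hx'
      rw [ha, ha] at h1
      exact h1
    have hc₁ : h⁻¹ * (a * g * a⁻¹) ∈ Subgroup.centralizer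
        ((R.map (MulAut.conj a).toMonoidHom : Subgroup G) : Set G) := by
      rw [Subgroup.mem_centralizer_iff]
      rintro _ ⟨x, hx, rfl⟩
      show a * x * a⁻¹ * (h⁻¹ * (a * g * a⁻¹)) = h⁻¹ * (a * g * a⁻¹) * (a * x * a⁻¹)
      have h2 : h⁻¹ * (a * g * a⁻¹) * (a * x * a⁻¹) =
          h⁻¹ * (a * (g * x * g⁻¹) * a⁻¹) * (a * g * a⁻¹) := by group
      rw [h2, key x hx]
      group
    have hagN : a * g * a⁻¹ ∈ Subgroup.normalizer
        ((R.map (MulAut.conj a).toMonoidHom : Subgroup G) : Set G) := by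
      rw [normalizer_cj]
      exact conj_mem_cj hgN
    have hhN : h ∈ Subgroup.normalizer
        ((R.map (MulAut.conj a).toMonoidHom : Subgroup G) : Set G) := by
      have h3 : h = (a * g * a⁻¹) * (h⁻¹ * (a * g * a⁻¹))⁻¹ := by group
      rw [h3]
      exact mul_mem hagN (Subgroup.centralizer_le_normalizer _ (inv_mem hc₁))
    exact ⟨h, ⟨hhP, hhN⟩, hc₁⟩
  have hNP : N ≤ P := fun g hg => (hNsub hg).1.1
  have hNN : N ≤ Subgroup.normalizer (R : Set G) := fun g hg => (hNsub hg).1.2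
  have hNX : ∀ g ∈ N, a * g * a⁻¹ ∈ X := by
    intro g hg
    have h1 : g ∈ X.map (MulAut.conj a⁻¹).toMonoidHom := (hNsub hg).2
    rwa [mem_cj, inv_inv] at h1
  obtain ⟨fN, hnN, hleN⟩ := exists_mid hM hPe hfR N hRN hNP hNN
  have hnN' := isNormalSubpair_conj (M := M) a hnN
  have hNaX : N.map (MulAut.conj a).toMonoidHom ≤ X := by
    rintro _ ⟨g, hg, rfl⟩
    exact hNX g hg
  obtain ⟨a₂, ha₂F, ha₂⟩ := exists_down_pair X hnN' hCX hNaX FX hFX hFXc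
  obtain ⟨t, ht⟩ := exists_conj_le_of_maximal hM hmax₁ ha₂F
  have ht' : Relation.ReflTransGen (NormalSubpairRel p M) (cjp t a₂) a₁ := ht
  have hfst₂ : a₂.1.map X.subtype = N.map (MulAut.conj a).toMonoidHom :=
    congrArg Sigma.fst ha₂
  have hC₂ : Subgroup.centralizer ((a₂.1.map X.subtype : Subgroup G) : Set G) ≤ X := by
    rw [hfst₂]
    exact (Subgroup.centralizer_le hnN'.2.2.1).trans hCX
  have hup := up_le X (a := cjp t a₂) (b := a₁) (centralizer_cj_le X a₂.1 hC₂ t) ht'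
  rw [up_conj X a₂ hC₂ t, ha₂, ha₁] at hup
  obtain ⟨d, hd, hdc⟩ := (hXmem (t : G)).mp t.2
  obtain ⟨c, hc⟩ : ∃ c : G, c = d⁻¹ * (t : G) := ⟨_, rfl⟩
  rw [← hc] at hdc
  have h1 : Relation.ReflTransGen (NormalSubpairRel p M) (cjp (c * a) ⟨N, fN⟩) ⟨P, e⟩ := by
    have h2 := subpairLE_conj (M := M) (p := p) d⁻¹ (hup.trans hleD)
    have h4 : cjp d⁻¹ ⟨P, e⟩ = (⟨P, e⟩ : BrauerPairIdx G) :=
      cjp_eq_self (Subgroup.le_normalizer (inv_mem hd.1)) (stabilizes_of_mem P e (inv_mem hd.1))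
    rw [h4] at h2
    have h3 : cjp d⁻¹ (cjp (t : G) (cjp a ⟨N, fN⟩)) = cjp (c * a) ⟨N, fN⟩ := by
      rw [cjp_mul hMp a t _ hnN.2.1.2, cjp_mul hMp _ d⁻¹ _ hnN.2.1.2, hc, mul_assoc]
    rw [← h3]
    exact h2
  have hmem : conjHom N (c * a) ∈ F.Hom N :=
    (hF.2 N _).mpr ⟨hNP, c * a, fun u => rfl,
      le_of_subpairLE (p := p) (M := M) _ ⟨P, e⟩ h1, fN, hleN, h1⟩
  rw [← hN]
  refine ⟨conjHom N (c * a), hmem, ?_⟩
  intro x hR hN'
  show (c * a) * x * (c * a)⁻¹ = φ ⟨x, hR⟩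
  rw [ha]
  have h5 := Subgroup.mem_centralizer_iff.mp hdc (a * x * a⁻¹) (conj_mem_cj hR)
  show c * a * x * (c * a)⁻¹ = a * x * a⁻¹
  calc c * a * x * (c * a)⁻¹ = c * (a * x * a⁻¹) * c⁻¹ := by group
    _ = (a * x * a⁻¹) * c * c⁻¹ := by rw [h5]
    _ = a * x * a⁻¹ := by group

end Cfsg.Agent.Lib.Helper77.BPSat3
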