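import Cfsg.Agent.Lib.Helper77.BPStab

/-!
# Normal `p`-subgroups: the block idempotent as an orbit sum (Fong–Reynolds, idempotent form)
-/

set_option autoImplicit false

namespace Cfsg.Agent.Lib.Helper77.BPStab2

open Cfsg Cfsg.Agent.Lib.Helper77.LocalRing Cfsg.Agent.Lib.Helper77.CentralChar
  Cfsg.Agent.Lib.Helper77.ClassSum Cfsg.Agent.Lib.Helper77.BlockIdem
  Cfsg.Agent.Lib.Helper77.OsimaVanish Cfsg.Agent.Lib.Helper77.IdemIn
  Cfsg.Agent.Lib.Helper77.BPBasic Cfsg.Agent.Lib.Helper77.BPBrauer
  Cfsg.Agent.Lib.Helper77.BPPairs Cfsg.Agent.Lib.Helper77.BPConj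
  Cfsg.Agent.Lib.Helper77.BPNormal Cfsg.Agent.Lib.Helper77.BPSubpair
  Cfsg.Agent.Lib.Helper77.BPIdem Cfsg.Agent.Lib.Helper77.BPMax
  Cfsg.Agent.Lib.Helper77.BPStab
  Cfsg.Agent.Lib.CT.Wedderburn Cfsg.Agent.Lib.Helper16.ZR Cfsg.Agent.Lib.Helper33.Conj
  Cfsg.Agent.Lib.Helper16.MinMax

universe u
variable {G : Type u} [Group G] {M : Ideal AlgInt}

/-- Conjugation is multiplicative on the group algebra. -/
theorem conjA_mul_mul [Finite G] (x : G) (z w : MonoidAlgebra ℂ G) :
    conjA x (z * w) = conjA x z * conjA x w := by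
  classical
  haveI := Fintype.ofFinite G
  ext g
  rw [coeff_conjA, coeff_mul', coeff_mul']
  apply Fintype.sum_equiv (MulAut.conj x).toEquiv
  intro h
  simp only [coeff_conjA, MulEquiv.toEquiv_eq_coe, MulEquiv.coe_toEquiv, MulAut.conj_apply]
  congr 2 <;> group

/-- For a normal `p`-subgroup `P` and a Brauer pair `(P, e)` of the block `B`, the idempotent of
`B` is the sum of the distinct conjugates of the idempotent of `e`. -/
theorem blockIdem_eq_orbitSum [Finite G] {p : ℕ} [Fact p.Prime] (hM : IsPModular p M)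
    (P : Subgroup G) [P.Normal] (hP : IsPGroup p P) {B : Set (IrrCharacter G)}
    {e : Set (IrrCharacter (Subgroup.centralizer (P : Set G)))}
    (hBe : IsBrauerPairOf p M B P e) : blockIdem B = orbitSum P e := by
  classical
  haveI : Fintype G := Fintype.ofFinite G
  have hMp := isPrime_of_isPModular hM
  have hB := hBe.2.1
  have he := hBe.1.2
  have hNtop : Subgroup.normalizer (P : Set G) = ⊤ := Subgroup.normalizer_eq_top P
  have hεε := ext_blockIdem_mul_self hM (Subgroup.centralizer (P : Set G)) e he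
  obtain ⟨β, hβ⟩ : ∃ β, β = blockIdem B := ⟨_, rfl⟩
  rw [← hβ]
  have hβs : β ∈ supportSubring (Subgroup.centralizer (P : Set G)) := by
    intro g hg
    rw [hβ, coeff_blockIdem]
    exact Cfsg.Agent.S4653.result p M hM P hP B hB g hg
  have hβc : β ∈ Zc G := by rw [hβ]; exact blockIdem_mem_center B
  have hβfix : β ∈ fixedSubring (⊤ : Subgroup G) := mem_fixedSubring_top_iff.mpr hβc
  have hββ : β * β = β := by rw [hβ]; exact blockIdem_mul_self B
  obtain ⟨βC, hβC⟩ : ∃ βC, βC = res (Subgroup.centralizer (P : Set G)) β := ⟨_, rfl⟩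
  have hβCc : βC ∈ Zc (Subgroup.centralizer (P : Set G)) := by
    rw [hβC]
    exact res_mem_center _ (fixedSubring_mono le_top hβfix)
  have hβCβC : βC * βC = βC := by rw [hβC, ← res_mul _ _ _ hβs, hββ]
  have hom : ∀ ξ ∈ e, omega (ξ : Subgroup.centralizer (P : Set G) → ℂ) βC = 1 := by
    intro ξ hξ
    have h1 := hBe.2.2 ξ hξ
    rw [brauerOmega_eq] at h1
    have h2 : om (Subgroup.centralizer (P : Set G))
        (ξ : Subgroup.centralizer (P : Set G) → ℂ) (ofFun (blockCoeff B)) =
        omega (ξ : Subgroup.centralizer (P : Set G) → ℂ) βC := by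
      rw [hβC, hβ]
      rfl
    rw [h2] at h1
    rcases omega_idem ξ hβCc hβCβC with h | h
    · rw [h, zero_sub] at h1
      exact absurd (memLocalIdeal_neg_iff.mp h1) (not_memLocalIdeal_one hMp)
    · exact h
  have hεβ : ext (Subgroup.centralizer (P : Set G)) (blockIdem e) * β =
      ext (Subgroup.centralizer (P : Set G)) (blockIdem e) := by
    have h1 : blockIdem e * βC = blockIdem e := by
      apply eq_of_omega_eq _ _
        (Subalgebra.mul_mem _ (blockIdem_mem_center e) hβCc) (blockIdem_mem_center e)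
      intro ψ
      rw [omega_mul ψ.2 _ _ (blockIdem_mem_center e), omega_blockIdem]
      by_cases hψ : ψ ∈ e
      · rw [if_pos hψ, hom ψ hψ, mul_one]
      · rw [if_neg hψ, zero_mul]
    have h2 : ext (Subgroup.centralizer (P : Set G)) βC = β := by
      rw [hβC, ext_res, trunc_eq_self hβs]
    conv_lhs => rw [← h2, ← ext_mul, h1]
  have horb : ∀ s ∈ orbit P e, s * β = s := by
    intro s hs
    obtain ⟨x, -, rfl⟩ := mem_orbit.mp hs
    have h1 : conjA x β = β := (mem_fixedSubring_iff_conjA.mp hβfix) x (Subgroup.mem_top x)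
    conv_lhs => rw [← h1]
    rw [← conjA_mul_mul, hεβ]
  obtain ⟨O, hO⟩ : ∃ O, O = orbitSum P e := ⟨_, rfl⟩
  rw [← hO]
  have hOβ : O * β = O := by
    rw [hO]
    unfold orbitSum
    rw [Finset.sum_mul]
    exact Finset.sum_congr rfl horb
  have hOc : O ∈ Zc G := by
    rw [hO]
    apply mem_fixedSubring_top_iff.mp
    have := orbitSum_mem_fixed P e
    rwa [hNtop] at this
  have hOR : O ∈ intSubring M hMp := by
    rw [hO]
    exact (orbitSum_mem hMp he).2.2
  have hOO : O * O = O := by
    rw [hO]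
    unfold orbitSum
    rw [Finset.sum_mul_sum]
    apply Finset.sum_congr rfl
    intro s hs
    rw [Finset.sum_eq_single s]
    · obtain ⟨x, hx, -, rfl⟩ := orbit_block hs
      rw [← ext_mul, blockIdem_mul_self]
    · intro s' hs' hne
      obtain ⟨x, hx, -, rfl⟩ := orbit_block hs
      obtain ⟨x', hx', -, rfl⟩ := orbit_block hs'
      rw [← ext_mul, blockIdem_mul_of_disjoint, ext_zero]
      apply disjoint_of_ne hMp (isPBlock_conjB _ x hx he) (isPBlock_conjB _ x' hx' he)
      intro heq
      apply hne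
      rw [heq]
    · intro h
      exact absurd hs h
  have hO0 : O ≠ 0 := by
    intro h0
    obtain ⟨ξ, hξ⟩ := isPBlock_nonempty hMp he
    have := om_orbitSum hMp he ξ hξ
    rw [← hO, h0, om_zero] at this
    exact zero_ne_one this
  rcases idem_eq_zero_or_eq hMp hB hOc hOR hOO (by rw [← hβ]; exact hOβ) with h | h
  · exact absurd h hO0
  · rw [h, hβ]

/-- The sum of all conjugates of the idempotent of `e` is `|T|` times the orbit sum, `T` the
stabilizer of `e`. -/
theorem sum_conjA_eq [Fintype G] (P : Subgroup G) [P.Normal]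
    (e : Set (IrrCharacter (Subgroup.centralizer (P : Set G)))) (T : Subgroup G)
    (hT : ∀ x : G, x ∈ T ↔ StabilizesBlock (Subgroup.centralizer (P : Set G)) e x) :
    ∑ x : G, conjA x (ext (Subgroup.centralizer (P : Set G)) (blockIdem e)) =
      (Nat.card T : ℂ) • orbitSum P e := by
  classical
  haveI : Fintype T := Fintype.ofFinite T
  have hNtop : Subgroup.normalizer (P : Set G) = ⊤ := Subgroup.normalizer_eq_top P
  have hCN : ∀ x : G, x ∈ Subgroup.normalizer
      ((Subgroup.centralizer (P : Set G) : Subgroup G) : Set G) := fun x =>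
    normalizer_le_normalizer_centralizer P (by rw [hNtop]; trivial)
  obtain ⟨ε, hε⟩ : ∃ ε, ε = ext (Subgroup.centralizer (P : Set G)) (blockIdem e) := ⟨_, rfl⟩
  have hTε : ∀ x : G, x ∈ T ↔ conjA x ε = ε := by
    intro x
    rw [hT, stabilizesBlock_iff_conjA _ x (hCN x) e, hε]
  have himg : orbit P e = Finset.univ.image (fun x : G => conjA x ε) := by
    ext s
    rw [mem_orbit, Finset.mem_image]
    constructor
    · rintro ⟨x, -, rfl⟩
      exact ⟨x, Finset.mem_univ _, by rw [hε]⟩
    · rintro ⟨x, -, rfl⟩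
      exact ⟨x, by rw [hNtop]; trivial, by rw [hε]⟩
  have hfib : ∀ s ∈ Finset.univ.image (fun x : G => conjA x ε),
      (Finset.univ.filter (fun x : G => conjA x ε = s)).card = Nat.card T := by
    intro s hs
    obtain ⟨x₀, -, rfl⟩ := Finset.mem_image.mp hs
    rw [Nat.card_eq_fintype_card, ← Finset.card_univ (α := T)]
    symm
    apply Finset.card_bij (fun (t : T) _ => x₀ * (t : G))
    · intro t _
      rw [Finset.mem_filter]
      refine ⟨Finset.mem_univ _, ?_⟩
      rw [conjA_mul, (hTε t).mp t.2]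
    · intro t₁ _ t₂ _ h
      exact Subtype.ext (mul_left_cancel h)
    · intro x hx
      rw [Finset.mem_filter] at hx
      refine ⟨⟨x₀⁻¹ * x, ?_⟩, Finset.mem_univ _, by simp⟩
      rw [hTε, conjA_mul, hx.2, conjA_inv_cancel]
  rw [← hε]
  unfold orbitSum
  rw [himg, Finset.smul_sum,
    ← Finset.sum_fiberwise_of_maps_to (g := fun x : G => conjA x ε)
      (t := Finset.univ.image (fun x : G => conjA x ε))
      (fun x _ => Finset.mem_image_of_mem _ (Finset.mem_univ x))]
  apply Finset.sum_congr rfl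
  intro s hs
  rw [Finset.sum_congr rfl (fun x hx => (Finset.mem_filter.mp hx).2), Finset.sum_const,
    hfib s hs, Nat.cast_smul_eq_nsmul]

end Cfsg.Agent.Lib.Helper77.BPStab2
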