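import Mathlib
import Cfsg.Prelude.Def_Blocks

set_option autoImplicit false

/-!
The count and the degree congruences for the principal block of a group with Sylow `p`-subgroup
of order `p` (statement S0960), derived from the structure statement S4441 taken as an explicit
hypothesis (`hstruct` has exactly the conclusion of S4441).
-/

namespace Cfsg.Agent.Lib.Helper77.DefectOneCor

open Cfsg

theorem count_of_struct {G : Type*} [Group G] [Finite G] (p : ℕ) (M : Ideal Cfsg.AlgInt)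
    (P : Sylow p G) (e : ℕ)
    (hfin : Finite (Cfsg.IrrCharacter G))
    (hstruct : ∃ X Y : Set (Cfsg.IrrCharacter G), Cfsg.principalBlock M G = X ∪ Y ∧ Disjoint X Y ∧
      Nat.card X = e ∧ Nat.card Y = (p - 1) / e ∧ ∃ (εX : Cfsg.IrrCharacter G → ℤ) (ε : ℤ),
      (∀ χ ∈ X, (εX χ = 1 ∨ εX χ = -1) ∧
        (Cfsg.charDegree (χ : G → ℂ) : ℤ) ≡ εX χ [ZMOD p] ∧
        ∀ x : G, x ∈ (P : Subgroup G) → x ≠ 1 → ∀ y : G,
          y ∈ Subgroup.centralizer ((P : Subgroup G) : Set G) → ¬ p ∣ orderOf y →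
          (χ : G → ℂ) (x * y) = (εX χ : ℂ)) ∧ (ε = 1 ∨ ε = -1) ∧
      (∀ θ ∈ Y, (Cfsg.charDegree (θ : G → ℂ) : ℤ) ≡ ε * (e : ℤ) [ZMOD p]) ∧
      (∀ θ ∈ Y, ∀ θ' ∈ Y, ∀ g : G, ¬ p ∣ orderOf g → (θ : G → ℂ) g = (θ' : G → ℂ) g) ∧
      ∀ θ ∈ Y, ∀ g : G, ¬ p ∣ orderOf g →
        (ε : ℂ) * (θ : G → ℂ) g = ∑ᶠ χ ∈ X, (εX χ : ℂ) * (χ : G → ℂ) g) :
    Nat.card (Cfsg.principalBlock M G) = e + (p - 1) / e ∧
      ∀ χ ∈ Cfsg.principalBlock M G, ((Cfsg.charDegree (χ : G → ℂ) : ℤ) ≡ 1 [ZMOD p] ∨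
        (Cfsg.charDegree (χ : G → ℂ) : ℤ) ≡ -1 [ZMOD p] ∨
        (Cfsg.charDegree (χ : G → ℂ) : ℤ) ≡ (e : ℤ) [ZMOD p] ∨
        (Cfsg.charDegree (χ : G → ℂ) : ℤ) ≡ -(e : ℤ) [ZMOD p]) := by
  classical
  obtain ⟨X, Y, hXY, hdisj, hX, hY, εX, ε, hXp, hε, hYp, -, -⟩ := hstruct
  constructor
  · rw [hXY, Nat.card_coe_set_eq, Set.ncard_union_eq hdisj (Set.toFinite X) (Set.toFinite Y),
      ← Nat.card_coe_set_eq, ← Nat.card_coe_set_eq, hX, hY]
  · intro χ hχ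
    rw [hXY] at hχ
    rcases hχ with hχ | hχ
    · obtain ⟨h1, h2, -⟩ := hXp χ hχ
      rcases h1 with h1 | h1
      · left; rw [h1] at h2; exact h2
      · right; left; rw [h1] at h2; exact h2
    · have h2 := hYp χ hχ
      rcases hε with h1 | h1
      · right; right; left; rw [h1, one_mul] at h2; exact h2
      · right; right; right; rw [h1, neg_one_mul] at h2; exact h2

end Cfsg.Agent.Lib.Helper77.DefectOneCor
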