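import Mathlib

/-!
# Dihedral 2-groups inside a group: basic structure

`DihData P σ h`: the subgroup `P` has order `4h`, `σ ∈ P` has order `2h` and every element of `P`
outside `⟨σ⟩` is an involution inverting `σ`.
-/

set_option autoImplicit false

namespace Cfsg.Agent.Lib.Helper77.DihG

variable {G : Type*} [Group G]

structure DihData (P : Subgroup G) (σ : G) (h : ℕ) : Prop where
  two_le : 2 ≤ h
  mem : σ ∈ P
  ord : orderOf σ = 2 * h
  card : Nat.card P = 4 * h
  out : ∀ x ∈ P, x ∉ Subgroup.zpowers σ → x * x = 1 ∧ x * σ * x⁻¹ = σ⁻¹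

theorem dihData_of_equiv (P : Subgroup G) (σ : G) (h : ℕ) (h2 : 2 ≤ h) (hσ : σ ∈ P)
    (hord : orderOf σ = 2 * h) (e : ↥P ≃* DihedralGroup (2 * h)) : DihData P σ h := by
  haveI : NeZero (2 * h) := ⟨by omega⟩
  refine ⟨h2, hσ, hord, ?_, ?_⟩
  · rw [Nat.card_congr e.toEquiv, DihedralGroup.nat_card]
    ring
  · have hs : orderOf (⟨σ, hσ⟩ : ↥P) = 2 * h := by rw [Subgroup.orderOf_mk, hord]
    have hes : orderOf (e ⟨σ, hσ⟩) = 2 * h := by rw [MulEquiv.orderOf_eq, hs]
    intro x hx hxR
    cases hi : e ⟨σ, hσ⟩ with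
    | sr i =>
      rw [hi, DihedralGroup.orderOf_sr] at hes
      omega
    | r i =>
      cases hj : e ⟨x, hx⟩ with
      | r j =>
        exfalso
        apply hxR
        have h1 : Subgroup.zpowers (DihedralGroup.r i : DihedralGroup (2 * h)) =
            Subgroup.zpowers (DihedralGroup.r 1) := by
          apply Subgroup.eq_of_le_of_card_ge
          · rw [Subgroup.zpowers_le]
            have : (DihedralGroup.r i : DihedralGroup (2 * h)) = DihedralGroup.r 1 ^ i.val := by
              rw [DihedralGroup.r_one_pow, ZMod.natCast_zmod_val]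
            rw [this]
            exact Subgroup.pow_mem _ (Subgroup.mem_zpowers _) _
          · rw [Nat.card_zpowers, Nat.card_zpowers, DihedralGroup.orderOf_r_one, ← hi, hes]
        have h2 : (DihedralGroup.r j : DihedralGroup (2 * h)) ∈
            Subgroup.zpowers (DihedralGroup.r i : DihedralGroup (2 * h)) := by
          rw [h1]
          have : (DihedralGroup.r j : DihedralGroup (2 * h)) = DihedralGroup.r 1 ^ j.val := by
            rw [DihedralGroup.r_one_pow, ZMod.natCast_zmod_val]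
          rw [this]
          exact Subgroup.pow_mem _ (Subgroup.mem_zpowers _) _
        obtain ⟨k, hk⟩ := Subgroup.mem_zpowers_iff.mp h2
        rw [← hi, ← hj, ← map_zpow] at hk
        have hk' := e.injective hk
        have hk'' := congrArg Subtype.val hk'
        rw [Subgroup.coe_zpow] at hk''
        exact Subgroup.mem_zpowers_iff.mpr ⟨k, hk''⟩
      | sr j =>
        constructor
        · have h1 : e (⟨x, hx⟩ * ⟨x, hx⟩) = e 1 := by
            rw [map_mul, hj, DihedralGroup.sr_mul_self, map_one]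
          have h2 := congrArg Subtype.val (e.injective h1)
          exact h2
        · have h1 : e (⟨x, hx⟩ * ⟨σ, hσ⟩ * (⟨x, hx⟩ : ↥P)⁻¹) = e (⟨σ, hσ⟩ : ↥P)⁻¹ := by
            rw [map_mul, map_mul, map_inv, map_inv, hj, hi, DihedralGroup.inv_sr,
              DihedralGroup.sr_mul_r, DihedralGroup.sr_mul_sr, DihedralGroup.inv_r]
            congr 1
            ring
          have h2 := congrArg Subtype.val (e.injective h1)
          exact h2

namespace DihData

variable {P : Subgroup G} {σ : G} {h : ℕ}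

theorem R_le (D : DihData P σ h) : Subgroup.zpowers σ ≤ P := by
  rw [Subgroup.zpowers_le]
  exact D.mem

theorem card_R (D : DihData P σ h) : Nat.card (Subgroup.zpowers σ) = 2 * h := by
  rw [Nat.card_zpowers, D.ord]

theorem comm_R (y z : G) (hy : y ∈ Subgroup.zpowers σ) (hz : z ∈ Subgroup.zpowers σ) :
    y * z = z * y := by
  obtain ⟨i, rfl⟩ := Subgroup.mem_zpowers_iff.mp hy
  obtain ⟨j, rfl⟩ := Subgroup.mem_zpowers_iff.mp hz
  rw [← zpow_add, ← zpow_add, add_comm]

theorem inv_of_out (D : DihData P σ h) (x : G) (hx : x ∈ P) (hxR : x ∉ Subgroup.zpowers σ)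
    (y : G) (hy : y ∈ Subgroup.zpowers σ) : x * y * x⁻¹ = y⁻¹ := by
  obtain ⟨i, rfl⟩ := Subgroup.mem_zpowers_iff.mp hy
  rw [← conj_zpow, (D.out x hx hxR).2, inv_zpow]

theorem mem_R_of_sq_ne (D : DihData P σ h) (x : G) (hx : x ∈ P) (hxx : x * x ≠ 1) :
    x ∈ Subgroup.zpowers σ := by
  by_contra hc
  exact hxx (D.out x hx hc).1

theorem mem_R_of_commute (D : DihData P σ h) (y : G) (hy : y ∈ Subgroup.zpowers σ)
    (hyy : y * y ≠ 1) (x : G) (hx : x ∈ P) (hc : x * y = y * x) : x ∈ Subgroup.zpowers σ := by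
  by_contra hxR
  have h1 := D.inv_of_out x hx hxR y hy
  apply hyy
  have h2 : x * y * x⁻¹ = y := by rw [hc, mul_inv_cancel_right]
  rw [h2] at h1
  calc y * y = y * y⁻¹ := by rw [← h1]
    _ = 1 := mul_inv_cancel y

theorem orderOf_J (D : DihData P σ h) : orderOf (σ ^ h) = 2 := by
  have h0 : h ≠ 0 := by have := D.two_le; omega
  rw [orderOf_pow_of_dvd h0 (by rw [D.ord]; exact dvd_mul_left h 2), D.ord,
    Nat.mul_div_cancel _ (Nat.pos_of_ne_zero h0)]

theorem J_mem (σ : G) (h : ℕ) : σ ^ h ∈ Subgroup.zpowers σ :=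
  Subgroup.pow_mem _ (Subgroup.mem_zpowers σ) h

theorem J_sq (D : DihData P σ h) : σ ^ h * σ ^ h = 1 := by
  rw [← pow_two, ← D.orderOf_J]
  exact pow_orderOf_eq_one _

theorem J_central (D : DihData P σ h) (x : G) (hx : x ∈ P) : x * σ ^ h = σ ^ h * x := by
  by_cases hxR : x ∈ Subgroup.zpowers σ
  · exact comm_R x (σ ^ h) hxR (J_mem σ h)
  · have h1 := D.inv_of_out x hx hxR (σ ^ h) (J_mem σ h)
    have h2 : (σ ^ h)⁻¹ = σ ^ h := inv_eq_of_mul_eq_one_left D.J_sq
    rw [h2] at h1
    calc x * σ ^ h = x * σ ^ h * x⁻¹ * x := by group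
      _ = σ ^ h * x := by rw [h1]

theorem unique_invol (D : DihData P σ h) (y : G) (hy : y ∈ Subgroup.zpowers σ)
    (hy2 : orderOf y = 2) : y = σ ^ h := by
  have h0 : h ≠ 0 := by have := D.two_le; omega
  have hfin : IsOfFinOrder σ := by
    rw [← orderOf_pos_iff, D.ord]
    omega
  classical
  have hm := (hfin.mem_zpowers_iff_mem_range_orderOf).mp hy
  rw [Finset.mem_image] at hm
  obtain ⟨k, hk, rfl⟩ := hm
  rw [Finset.mem_range, D.ord] at hk
  have h1 : (σ ^ k) ^ 2 = 1 := by rw [← hy2]; exact pow_orderOf_eq_one _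
  rw [← pow_mul] at h1
  have h2 : 2 * h ∣ k * 2 := by rw [← D.ord]; exact orderOf_dvd_of_pow_eq_one h1
  have h3 : h ∣ k := by
    have : h * 2 ∣ k * 2 := by rwa [mul_comm h 2]
    exact (Nat.mul_dvd_mul_iff_right (by norm_num)).mp this
  obtain ⟨m, rfl⟩ := h3
  have hm : m < 2 := by
    by_contra hc
    have : 2 ≤ m := by omega
    have : h * 2 ≤ h * m := Nat.mul_le_mul_left h this
    omega
  interval_cases m
  · exfalso
    rw [mul_zero, pow_zero, orderOf_one] at hy2
    norm_num at hy2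
  · rw [mul_one]

end DihData

end Cfsg.Agent.Lib.Helper77.DihG
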