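import Cfsg.Agent.Lib.Helper77.DihG
import Cfsg.Agent.Lib.Helper76.PSolv
import Cfsg.Prelude.Def_Solvable

/-!
# Dihedral Sylow 2-subgroups: centralizers of elements of order at least 4 and fusion
-/

set_option autoImplicit false

namespace Cfsg.Agent.Lib.Helper77.DihG2

open Cfsg Cfsg.Agent.Lib.Helper77.DihG

variable {G : Type*} [Group G]

theorem exists_conj_le [Finite G] (P : Sylow 2 G) (T : Subgroup G) (hT : IsPGroup 2 T) :
    ∃ g : G, ∀ t ∈ T, g⁻¹ * t * g ∈ (P : Subgroup G) := by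
  obtain ⟨Q, hQ⟩ := hT.exists_le_sylow
  obtain ⟨g, hg⟩ := MulAction.exists_smul_eq G P Q
  refine ⟨g, fun t ht => ?_⟩
  have hmem : t ∈ ((g • P : Sylow 2 G) : Subgroup G) := by rw [hg]; exact hQ ht
  rw [Sylow.coe_subgroup_smul, Subgroup.mem_pointwise_smul_iff_inv_smul_mem] at hmem
  simpa [MulAut.smul_def] using hmem

theorem conj_sq_ne (y g : G) (hyy : y * y ≠ 1) : g⁻¹ * y * g * (g⁻¹ * y * g) ≠ 1 := by
  intro e
  apply hyy
  have h2 : y * y = g * (g⁻¹ * y * g * (g⁻¹ * y * g)) * g⁻¹ := by group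
  rw [h2, e]
  group

/-- A 2-subgroup centralizing an element of order at least 3 of `⟨σ⟩` is conjugate into `⟨σ⟩`. -/
theorem transport [Finite G] (P : Sylow 2 G) {σ : G} {h : ℕ} (D : DihData (P : Subgroup G) σ h)
    (y : G) (hy : y ∈ Subgroup.zpowers σ) (hyy : y * y ≠ 1) (T : Subgroup G) (hT : IsPGroup 2 T)
    (hc : ∀ t ∈ T, t * y = y * t) : ∃ g : G, ∀ t ∈ T, g⁻¹ * t * g ∈ Subgroup.zpowers σ := by
  have hyP : y ∈ (P : Subgroup G) := D.R_le hy
  have hY : IsPGroup 2 (Subgroup.zpowers y) :=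
    P.2.to_le (by rw [Subgroup.zpowers_le]; exact hyP)
  have hTN : T ≤ Subgroup.normalizer ((Subgroup.zpowers y : Subgroup G) : Set G) := by
    intro t ht
    apply Subgroup.centralizer_le_normalizer
    rw [Subgroup.mem_centralizer_iff]
    intro z hz
    obtain ⟨k, rfl⟩ := Subgroup.mem_zpowers_iff.mp hz
    have hcm : Commute t y := hc t ht
    exact ((hcm.zpow_right k).eq).symm
  have hT' := hT.to_sup_of_normal_right' hY hTN
  obtain ⟨g, hg⟩ := exists_conj_le P (T ⊔ Subgroup.zpowers y) hT'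
  refine ⟨g, fun t ht => ?_⟩
  have hsq := conj_sq_ne y g hyy
  have hy' : g⁻¹ * y * g ∈ Subgroup.zpowers σ :=
    D.mem_R_of_sq_ne _ (hg y (Subgroup.mem_sup_right (Subgroup.mem_zpowers y))) hsq
  apply D.mem_R_of_commute (g⁻¹ * y * g) hy' hsq _ (hg t (Subgroup.mem_sup_left ht))
  calc g⁻¹ * t * g * (g⁻¹ * y * g) = g⁻¹ * (t * y) * g := by group
    _ = g⁻¹ * (y * t) * g := by rw [hc t ht]
    _ = g⁻¹ * y * g * (g⁻¹ * t * g) := by group

theorem card_le [Finite G] (P : Sylow 2 G) {σ : G} {h : ℕ} (D : DihData (P : Subgroup G) σ h)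
    (y : G) (hy : y ∈ Subgroup.zpowers σ) (hyy : y * y ≠ 1) (T : Subgroup G) (hT : IsPGroup 2 T)
    (hc : ∀ t ∈ T, t * y = y * t) : Nat.card T ≤ 2 * h := by
  obtain ⟨g, hg⟩ := transport P D y hy hyy T hT hc
  rw [← D.card_R]
  apply Nat.card_le_card_of_injective
    (fun t : T => (⟨g⁻¹ * t * g, hg t t.2⟩ : Subgroup.zpowers σ))
  intro a b hab
  have h1 : g⁻¹ * (a : G) * g = g⁻¹ * (b : G) * g := congrArg Subtype.val hab
  apply Subtype.ext
  have h2 : (a : G) = g * (g⁻¹ * a * g) * g⁻¹ := by group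
  rw [h2, h1]
  group

theorem R_le_centralizer (σ y : G) (hy : y ∈ Subgroup.zpowers σ) :
    Subgroup.zpowers σ ≤ Subgroup.centralizer ({y} : Set G) := by
  intro z hz
  rw [Subgroup.mem_centralizer_iff]
  intro w hw
  rw [Set.mem_singleton_iff] at hw
  subst hw
  exact DihData.comm_R w z hy hz

/-- `⟨σ⟩` is a Sylow 2-subgroup of the centralizer of each of its elements of order `≥ 3`. -/
theorem exists_sylow_centralizer [Finite G] (P : Sylow 2 G) {σ : G} {h : ℕ}
    (D : DihData (P : Subgroup G) σ h) (y : G) (hy : y ∈ Subgroup.zpowers σ) (hyy : y * y ≠ 1) :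
    ∃ S : Sylow 2 ↥(Subgroup.centralizer ({y} : Set G)),
      (S : Subgroup ↥(Subgroup.centralizer ({y} : Set G))) =
        (Subgroup.zpowers σ).subgroupOf (Subgroup.centralizer ({y} : Set G)) := by
  have hRH := R_le_centralizer σ y hy
  have hR2 : IsPGroup 2 ((Subgroup.zpowers σ).subgroupOf (Subgroup.centralizer ({y} : Set G))) :=
    (P.2.to_le D.R_le).comap_subtype
  obtain ⟨S, hS⟩ := hR2.exists_le_sylow
  refine ⟨S, (Subgroup.eq_of_le_of_card_ge hS ?_).symm⟩
  have hT : IsPGroup 2 ((S : Subgroup ↥(Subgroup.centralizer ({y} : Set G))).map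
      (Subgroup.centralizer ({y} : Set G)).subtype) := S.2.map _
  have hc : ∀ t ∈ (S : Subgroup ↥(Subgroup.centralizer ({y} : Set G))).map
      (Subgroup.centralizer ({y} : Set G)).subtype, t * y = y * t := by
    rintro t ⟨s, -, rfl⟩
    exact (Subgroup.mem_centralizer_iff.mp s.2 y (Set.mem_singleton y)).symm
  have h1 := card_le P D y hy hyy _ hT hc
  rw [Subgroup.card_map_of_injective (Subgroup.subtype_injective _)] at h1
  calc Nat.card (S : Subgroup ↥(Subgroup.centralizer ({y} : Set G))) ≤ 2 * h := h1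
    _ = Nat.card (Subgroup.zpowers σ) := D.card_R.symm
    _ = Nat.card ((Subgroup.zpowers σ).subgroupOf (Subgroup.centralizer ({y} : Set G))) :=
        (Nat.card_congr (Subgroup.subgroupOfEquivOfLe hRH).toEquiv).symm

/-- A normal complement of a Sylow `p`-subgroup forces `O_{p'}` to have `p`-power index. -/
theorem index_of_complement {X : Type*} [Group X] [Finite X] (p : ℕ) [Fact p.Prime]
    (S : Sylow p X) (K : Subgroup X) (hKn : K.Normal) (hc : K.IsComplement' (S : Subgroup X)) :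
    ∃ k : ℕ, (pPrimeCore p X).index = p ^ k := by
  have hidx : K.index = Nat.card (S : Subgroup X) := hc.symm.index_eq_card
  have hKcard : Nat.card K = (S : Subgroup X).index := hc.index_eq_card.symm
  have hKcop : (Nat.card K).Coprime p := by
    rw [hKcard]
    exact ((Fact.out : p.Prime).coprime_iff_not_dvd.mpr S.not_dvd_index).symm
  have hKle : K ≤ pPrimeCore p X := Cfsg.Agent.Lib.Helper76.PSolv.le_pPrimeCore hKn hKcop
  have h1 : (pPrimeCore p X).index ∣ K.index := Subgroup.index_dvd_of_le hKle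
  obtain ⟨n, hn⟩ := IsPGroup.iff_card.mp S.2
  rw [hidx, hn] at h1
  obtain ⟨k, -, hk⟩ := (Nat.dvd_prime_pow Fact.out).mp h1
  exact ⟨k, hk⟩

theorem centralizer_facts [Finite G] (P : Sylow 2 G) {σ : G} {h : ℕ}
    (D : DihData (P : Subgroup G) σ h) (y : G) (hy : y ∈ Subgroup.zpowers σ) (hyy : y * y ≠ 1) :
    (∃ k : ℕ, (pPrimeCore 2 ↥(Subgroup.centralizer ({y} : Set G))).index = 2 ^ k) ∧
      2 ^ (Nat.card ↥(Subgroup.centralizer ({y} : Set G))).factorization 2 = 2 * h := by
  obtain ⟨S, hS⟩ := exists_sylow_centralizer P D y hy hyy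
  have hRH := R_le_centralizer σ y hy
  have hcard : Nat.card (S : Subgroup ↥(Subgroup.centralizer ({y} : Set G))) = 2 * h := by
    rw [hS, Nat.card_congr (Subgroup.subgroupOfEquivOfLe hRH).toEquiv, D.card_R]
  constructor
  · have hcyc : IsCyclic (S : Subgroup ↥(Subgroup.centralizer ({y} : Set G))) := by
      rw [hS]
      exact isCyclic_of_injective (Subgroup.subgroupOfEquivOfLe hRH).toMonoidHom
        (Subgroup.subgroupOfEquivOfLe hRH).injective
    have hmin : (Nat.card ↥(Subgroup.centralizer ({y} : Set G))).minFac = 2 := by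
      rw [Nat.minFac_eq_two_iff]
      have h1 : Nat.card (S : Subgroup ↥(Subgroup.centralizer ({y} : Set G))) ∣
          Nat.card ↥(Subgroup.centralizer ({y} : Set G)) := Subgroup.card_subgroup_dvd_card _
      rw [hcard] at h1
      exact (dvd_mul_right 2 h).trans h1
    have hNC := IsCyclic.normalizer_le_centralizer hmin hcyc
    exact index_of_complement 2 S _ (MonoidHom.normal_ker _)
      (MonoidHom.ker_transferSylow_isComplement' S hNC)
  · rw [← Sylow.card_eq_multiplicity S]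
    exact hcard

end Cfsg.Agent.Lib.Helper77.DihG2
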