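import Cfsg.Agent.Lib.Helper77.DihG2

/-!
# Dihedral Sylow 2-subgroups: fusion of elements of order at least 4
-/

set_option autoImplicit false

namespace Cfsg.Agent.Lib.Helper77.DihG3

open Cfsg Cfsg.Agent.Lib.Helper77.DihG Cfsg.Agent.Lib.Helper77.DihG2

variable {G : Type*} [Group G]

/-- The elements acting on `⟨σ⟩` by the identity or by inversion. -/
def W (σ : G) : Subgroup G where
  carrier := {n | (∀ y ∈ Subgroup.zpowers σ, n * y * n⁻¹ = y) ∨
    (∀ y ∈ Subgroup.zpowers σ, n * y * n⁻¹ = y⁻¹)}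
  one_mem' := Or.inl (fun y _ => by simp)
  mul_mem' := by
    rintro a b (ha | ha) (hb | hb)
    · left
      intro y hy
      calc a * b * y * (a * b)⁻¹ = a * (b * y * b⁻¹) * a⁻¹ := by group
        _ = y := by rw [hb y hy, ha y hy]
    · right
      intro y hy
      calc a * b * y * (a * b)⁻¹ = a * (b * y * b⁻¹) * a⁻¹ := by group
        _ = y⁻¹ := by rw [hb y hy, ha y⁻¹ (inv_mem hy)]
    · right
      intro y hy
      calc a * b * y * (a * b)⁻¹ = a * (b * y * b⁻¹) * a⁻¹ := by group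
        _ = y⁻¹ := by rw [hb y hy, ha y hy]
    · left
      intro y hy
      calc a * b * y * (a * b)⁻¹ = a * (b * y * b⁻¹) * a⁻¹ := by group
        _ = y := by rw [hb y hy, ha y⁻¹ (inv_mem hy), inv_inv]
  inv_mem' := by
    rintro a (ha | ha)
    · left
      intro y hy
      calc a⁻¹ * y * a⁻¹⁻¹ = a⁻¹ * (a * y * a⁻¹) * a⁻¹⁻¹ := by rw [ha y hy]
        _ = y := by group
    · right
      intro y hy
      have h1 := ha y⁻¹ (inv_mem hy)
      rw [inv_inv] at h1
      calc a⁻¹ * y * a⁻¹⁻¹ = a⁻¹ * (a * y⁻¹ * a⁻¹) * a⁻¹⁻¹ := by rw [h1]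
        _ = y⁻¹ := by group

theorem mem_W (σ n : G) : n ∈ W σ ↔ (∀ y ∈ Subgroup.zpowers σ, n * y * n⁻¹ = y) ∨
    (∀ y ∈ Subgroup.zpowers σ, n * y * n⁻¹ = y⁻¹) := Iff.rfl

/-- The normalizer of `⟨σ⟩` acts on it by the identity or by inversion. -/
theorem normalizer_action [Finite G] (P : Sylow 2 G) {σ : G} {h : ℕ}
    (D : DihData (P : Subgroup G) σ h) (n : G)
    (hn : n ∈ Subgroup.normalizer ((Subgroup.zpowers σ : Subgroup G) : Set G)) :
    (∀ y ∈ Subgroup.zpowers σ, n * y * n⁻¹ = y) ∨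
      (∀ y ∈ Subgroup.zpowers σ, n * y * n⁻¹ = y⁻¹) := by
  rw [← mem_W]
  have hPW : (P : Subgroup G) ≤ W σ := by
    intro x hx
    rw [mem_W]
    by_cases hxR : x ∈ Subgroup.zpowers σ
    · left
      intro y hy
      rw [DihData.comm_R x y hxR hy, mul_inv_cancel_right]
    · right
      exact fun y hy => D.inv_of_out x hx hxR y hy
  have hKW : Subgroup.centralizer ((Subgroup.zpowers σ : Subgroup G) : Set G) ≤ W σ := by
    intro x hx
    rw [mem_W]
    left
    intro y hy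
    rw [← Subgroup.mem_centralizer_iff.mp hx y hy, mul_inv_cancel_right]
  have hPN : (P : Subgroup G) ≤ Subgroup.normalizer ((Subgroup.zpowers σ : Subgroup G) : Set G) := by
    intro x hx
    apply Subgroup.mem_normalizer_fintype
    intro y hy
    have hy' : y ∈ Subgroup.zpowers σ := hy
    show x * y * x⁻¹ ∈ Subgroup.zpowers σ
    by_cases hxR : x ∈ Subgroup.zpowers σ
    · rw [DihData.comm_R x y hxR hy', mul_inv_cancel_right]
      exact hy'
    · rw [D.inv_of_out x hx hxR y hy']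
      exact inv_mem hy'
  have key := Subgroup.card_dvd_of_injective _
    (QuotientGroup.kerLift_injective (Subgroup.zpowers σ).normalizerMonoidHom)
  rw [Subgroup.normalizerMonoidHom_ker, ← Subgroup.index, ← Subgroup.relIndex] at key
  obtain ⟨k, hk⟩ := IsPGroup.iff_orderOf.mp P.2 ⟨σ, D.mem⟩
  rw [Subgroup.orderOf_mk] at hk
  have hk0 : 0 < k := by
    rcases Nat.eq_zero_or_pos k with h0 | h0
    · rw [h0, pow_zero, D.ord] at hk
      have := D.two_le
      omega
    · exact h0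
  rw [IsCyclic.card_mulAut, Nat.card_zpowers, hk, Nat.totient_prime_pow Nat.prime_two hk0] at key
  have h1 : ((P : Subgroup G) ⊔ Subgroup.centralizer ((Subgroup.zpowers σ : Subgroup G) : Set G)).relIndex
      (Subgroup.normalizer ((Subgroup.zpowers σ : Subgroup G) : Set G)) ∣ 2 ^ (k - 1) * (2 - 1) :=
    (Subgroup.relIndex_dvd_of_le_left _ le_sup_right).trans key
  have h2 : ((P : Subgroup G) ⊔ Subgroup.centralizer ((Subgroup.zpowers σ : Subgroup G) : Set G)).relIndex
      (Subgroup.normalizer ((Subgroup.zpowers σ : Subgroup G) : Set G)) ∣ (P : Subgroup G).index :=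
    (Subgroup.relIndex_dvd_of_le_left _ le_sup_left).trans (Subgroup.relIndex_dvd_index_of_le hPN)
  rw [Nat.sub_self 1 |> fun _ => (by norm_num : 2 - 1 = 1), mul_one] at h1
  obtain ⟨i, -, hi⟩ := (Nat.dvd_prime_pow Nat.prime_two).mp h1
  have hi0 : i = 0 := by
    by_contra hc
    have : 2 ∣ (P : Subgroup G).index := by
      refine Dvd.dvd.trans ?_ h2
      rw [hi]
      exact dvd_pow_self 2 hc
    exact P.not_dvd_index this
  rw [hi0, pow_zero, Subgroup.relIndex_eq_one] at hi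
  exact (sup_le hPW hKW) (hi hn)

/-- Fusion of elements of order at least 3 of `⟨σ⟩` is controlled by inversion. -/
theorem fusion [Finite G] (P : Sylow 2 G) {σ : G} {h : ℕ} (D : DihData (P : Subgroup G) σ h)
    (y : G) (hy : y ∈ Subgroup.zpowers σ) (hyy : y * y ≠ 1) (g : G)
    (hg : g * y * g⁻¹ ∈ Subgroup.zpowers σ) : g * y * g⁻¹ = y ∨ g * y * g⁻¹ = y⁻¹ := by
  have hzz : g * y * g⁻¹ * (g * y * g⁻¹) ≠ 1 := by
    have := conj_sq_ne y g⁻¹ hyy
    rwa [inv_inv] at this
  obtain ⟨S, hS⟩ := exists_sylow_centralizer P D (g * y * g⁻¹) hg hzz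
  have hTH : (Subgroup.zpowers σ).map (MulAut.conj g).toMonoidHom ≤
      Subgroup.centralizer ({g * y * g⁻¹} : Set G) := by
    rintro t ⟨r, hr, rfl⟩
    rw [Subgroup.mem_centralizer_iff]
    intro w hw
    rw [Set.mem_singleton_iff] at hw
    subst hw
    show g * y * g⁻¹ * (g * r * g⁻¹) = g * r * g⁻¹ * (g * y * g⁻¹)
    calc g * y * g⁻¹ * (g * r * g⁻¹) = g * (y * r) * g⁻¹ := by group
      _ = g * (r * y) * g⁻¹ := by rw [DihData.comm_R y r hy hr]
      _ = g * r * g⁻¹ * (g * y * g⁻¹) := by group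
  have hT2 : IsPGroup 2 (((Subgroup.zpowers σ).map (MulAut.conj g).toMonoidHom).subgroupOf
      (Subgroup.centralizer ({g * y * g⁻¹} : Set G))) :=
    ((P.2.to_le D.R_le).map _).comap_subtype
  obtain ⟨S', hS'⟩ := hT2.exists_le_sylow
  obtain ⟨c, hc⟩ := MulAction.exists_smul_eq ↥(Subgroup.centralizer ({g * y * g⁻¹} : Set G)) S' S
  have hnorm : (c : G) * g ∈ Subgroup.normalizer ((Subgroup.zpowers σ : Subgroup G) : Set G) := by
    apply Subgroup.mem_normalizer_fintype
    intro r hr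
    have hr' : r ∈ Subgroup.zpowers σ := hr
    have ht : g * r * g⁻¹ ∈ (Subgroup.zpowers σ).map (MulAut.conj g).toMonoidHom :=
      ⟨r, hr', rfl⟩
    have h1 : (⟨g * r * g⁻¹, hTH ht⟩ : ↥(Subgroup.centralizer ({g * y * g⁻¹} : Set G))) ∈
        (S' : Subgroup ↥(Subgroup.centralizer ({g * y * g⁻¹} : Set G))) :=
      hS' (Subgroup.mem_subgroupOf.mpr ht)
    have h2 : c * (⟨g * r * g⁻¹, hTH ht⟩ : ↥(Subgroup.centralizer ({g * y * g⁻¹} : Set G))) * c⁻¹ ∈
        ((c • S' : Sylow 2 ↥(Subgroup.centralizer ({g * y * g⁻¹} : Set G))) :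
          Subgroup ↥(Subgroup.centralizer ({g * y * g⁻¹} : Set G))) := by
      rw [Sylow.coe_subgroup_smul]
      exact Subgroup.smul_mem_pointwise_smul _ _ _ h1
    rw [hc, hS, Subgroup.mem_subgroupOf] at h2
    show (c : G) * g * r * ((c : G) * g)⁻¹ ∈ Subgroup.zpowers σ
    have e : (c : G) * g * r * ((c : G) * g)⁻¹ = (c : G) * (g * r * g⁻¹) * (c : G)⁻¹ := by group
    rw [e]
    exact h2
  have hcz : (c : G) * (g * y * g⁻¹) * (c : G)⁻¹ = g * y * g⁻¹ := by
    have := Subgroup.mem_centralizer_iff.mp c.2 (g * y * g⁻¹) (Set.mem_singleton _)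
    rw [← this, mul_inv_cancel_right]
  have e2 : (c : G) * g * y * ((c : G) * g)⁻¹ = g * y * g⁻¹ := by
    calc (c : G) * g * y * ((c : G) * g)⁻¹ = (c : G) * (g * y * g⁻¹) * (c : G)⁻¹ := by group
      _ = g * y * g⁻¹ := hcz
  rcases normalizer_action P D _ hnorm with h1 | h1
  · left
    rw [← e2]
    exact h1 y hy
  · right
    rw [← e2]
    exact h1 y hy

end Cfsg.Agent.Lib.Helper77.DihG3
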