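import Mathlib
import Cfsg.Agent.S1507
import Cfsg.Agent.Lib.Helper77.DihG

/-!
# Linear characters of a cyclic subgroup `⟨σ⟩`
-/

set_option autoImplicit false

namespace Cfsg.Agent.Lib.Helper77.DihHom

open Cfsg.Agent.Lib.Helper77.DihG

variable {G : Type*} [Group G]

/-- The generator of `⟨σ⟩`. -/
def gen (σ : G) : ↥(Subgroup.zpowers σ) := ⟨σ, Subgroup.mem_zpowers σ⟩

theorem hom_ext_gen {σ : G} (ψ ψ' : ↥(Subgroup.zpowers σ) →* ℂˣ)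
    (e : ψ (gen σ) = ψ' (gen σ)) : ψ = ψ' := by
  refine MonoidHom.ext fun x => ?_
  obtain ⟨k, hk⟩ := Subgroup.mem_zpowers_iff.mp x.2
  have hx : x = gen σ ^ k := Subtype.ext (by rw [Subgroup.coe_zpow]; exact hk.symm)
  rw [hx, map_zpow, map_zpow, e]

theorem exists_hom {σ : G} (z : ℂˣ) (hz : z ^ orderOf σ = 1) :
    ∃ ψ : ↥(Subgroup.zpowers σ) →* ℂˣ, ψ (gen σ) = z := by
  have hg : ∀ x : ↥(Subgroup.zpowers σ), x ∈ Subgroup.zpowers (gen σ) := by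
    intro x
    obtain ⟨k, hk⟩ := Subgroup.mem_zpowers_iff.mp x.2
    exact Subgroup.mem_zpowers_iff.mpr ⟨k, Subtype.ext (by rw [Subgroup.coe_zpow]; exact hk)⟩
  have hord : orderOf z ∣ orderOf (gen σ) := by
    have e : orderOf (gen σ) = orderOf σ := Subgroup.orderOf_mk _ _
    rw [e]
    exact orderOf_dvd_of_pow_eq_one hz
  exact ⟨monoidHomOfForallMemZpowers hg hord, monoidHomOfForallMemZpowers_apply_gen hg hord⟩

theorem apply_pow {σ : G} (ψ : ↥(Subgroup.zpowers σ) →* ℂˣ) (l : ℕ)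
    (hl : σ ^ l ∈ Subgroup.zpowers σ) : ψ ⟨σ ^ l, hl⟩ = ψ (gen σ) ^ l := by
  have e : (⟨σ ^ l, hl⟩ : ↥(Subgroup.zpowers σ)) = gen σ ^ l :=
    Subtype.ext (by rw [Subgroup.coe_pow]; rfl)
  rw [e, map_pow]

theorem apply_gen_pow {σ : G} (ψ : ↥(Subgroup.zpowers σ) →* ℂˣ) :
    ψ (gen σ) ^ orderOf σ = 1 := by
  have e : gen σ ^ orderOf σ = 1 :=
    Subtype.ext (by rw [Subgroup.coe_pow]; exact pow_orderOf_eq_one σ)
  rw [← map_pow, e, map_one]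

theorem eq_one_of_gen {σ : G} (ψ : ↥(Subgroup.zpowers σ) →* ℂˣ) (e : ψ (gen σ) = 1) :
    ψ = 1 :=
  hom_ext_gen ψ 1 (by rw [e, MonoidHom.one_apply])

theorem inv_inv' {σ : G} (ψ : ↥(Subgroup.zpowers σ) →* ℂˣ) : ψ⁻¹⁻¹ = ψ :=
  MonoidHom.ext fun w => by rw [MonoidHom.inv_apply, MonoidHom.inv_apply, inv_inv]

theorem inv_ne_one' {σ : G} (ψ : ↥(Subgroup.zpowers σ) →* ℂˣ) (hψ : ψ ≠ 1) : ψ⁻¹ ≠ 1 := by
  intro e
  apply hψ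
  apply eq_one_of_gen
  have e1 := DFunLike.congr_fun e (gen σ)
  rw [MonoidHom.inv_apply, MonoidHom.one_apply] at e1
  exact inv_eq_one.mp e1

theorem inv_eq_iff' {σ : G} (ψ ψ' : ↥(Subgroup.zpowers σ) →* ℂˣ) : ψ = ψ'⁻¹ ↔ ψ' = ψ⁻¹ := by
  constructor
  · intro e
    rw [e, inv_inv']
  · intro e
    rw [e, inv_inv']

/-- The character with `ψ₀(σ) = -1`. -/
theorem psi0_ne_one {σ : G} (ψ₀ : ↥(Subgroup.zpowers σ) →* ℂˣ) (h0 : ψ₀ (gen σ) = -1) :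
    ψ₀ ≠ 1 := by
  intro e
  rw [e, MonoidHom.one_apply] at h0
  have h1 := congrArg Units.val h0
  rw [Units.val_one, Units.val_neg, Units.val_one] at h1
  norm_num at h1

theorem psi0_inv {σ : G} (ψ₀ : ↥(Subgroup.zpowers σ) →* ℂˣ) (h0 : ψ₀ (gen σ) = -1) :
    ψ₀⁻¹ = ψ₀ := by
  apply hom_ext_gen
  rw [MonoidHom.inv_apply, h0]
  exact (Units.inv_eq_self_iff _).mpr (Or.inr rfl)

theorem inv_ne_self {σ : G} (ψ₀ : ↥(Subgroup.zpowers σ) →* ℂˣ) (h0 : ψ₀ (gen σ) = -1)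
    (ψ : ↥(Subgroup.zpowers σ) →* ℂˣ) (h1 : ψ ≠ 1) (h2 : ψ ≠ ψ₀) : ψ⁻¹ ≠ ψ := by
  intro e
  have e1 := DFunLike.congr_fun e (gen σ)
  rw [MonoidHom.inv_apply] at e1
  rcases (Units.inv_eq_self_iff _).mp e1 with h | h
  · exact h1 (eq_one_of_gen ψ h)
  · exact h2 (hom_ext_gen ψ ψ₀ (by rw [h, h0]))

theorem comm_zpowers (σ : G) :
    ∀ a ∈ Subgroup.zpowers σ, ∀ b ∈ Subgroup.zpowers σ, a * b = b * a :=
  fun a ha b hb => DihData.comm_R a b ha hb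

theorem card_hom [Finite G] (σ : G) :
    Nat.card (↥(Subgroup.zpowers σ) →* ℂˣ) = orderOf σ := by
  rw [Cfsg.Agent.S1507.card_hom_sub (Subgroup.zpowers σ) (comm_zpowers σ), Nat.card_zpowers]

theorem finite_hom' [Finite G] (σ : G) : Finite (↥(Subgroup.zpowers σ) →* ℂˣ) := by
  apply Nat.finite_of_card_ne_zero
  rw [card_hom]
  exact (orderOf_pos σ).ne'

theorem exists_notMem [Finite G] (σ : G) (S : Finset (↥(Subgroup.zpowers σ) →* ℂˣ))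
    (hS : S.card < orderOf σ) : ∃ ψ, ψ ∉ S := by
  classical
  haveI := finite_hom' σ
  let _ : Fintype (↥(Subgroup.zpowers σ) →* ℂˣ) := Fintype.ofFinite _
  by_contra hc
  have hall : ∀ ψ, ψ ∈ S := fun ψ => by
    by_contra h
    exact hc ⟨ψ, h⟩
  have hsub : Finset.univ ⊆ S := fun ψ _ => hall ψ
  have h1 := Finset.card_le_card hsub
  rw [Finset.card_univ, ← Nat.card_eq_fintype_card, card_hom] at h1
  omega

/-- There is a character other than `1` and `ψ₀`. -/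
theorem exists_ne [Finite G] (σ : G) (ho : 2 < orderOf σ)
    (ψ₀ : ↥(Subgroup.zpowers σ) →* ℂˣ) : ∃ ψ : ↥(Subgroup.zpowers σ) →* ℂˣ, ψ ≠ 1 ∧ ψ ≠ ψ₀ := by
  classical
  obtain ⟨ψ, hψ⟩ := exists_notMem σ {1, ψ₀} (lt_of_le_of_lt Finset.card_le_two ho)
  rw [Finset.mem_insert, Finset.mem_singleton, not_or] at hψ
  exact ⟨ψ, hψ.1, hψ.2⟩

/-- Given two pairs of characters, there is a third. -/
theorem exists_third [Finite G] (σ : G) (ho : orderOf σ = 4 ∨ 6 < orderOf σ)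
    (ψ₀ : ↥(Subgroup.zpowers σ) →* ℂˣ) (h0 : ψ₀ (gen σ) = -1)
    (ψ ψ' : ↥(Subgroup.zpowers σ) →* ℂˣ) (h1 : ψ ≠ 1) (h2 : ψ ≠ ψ₀) (h1' : ψ' ≠ 1)
    (h2' : ψ' ≠ ψ₀) (h3 : ψ' ≠ ψ) (h4 : ψ' ≠ ψ⁻¹) :
    ∃ ψ'' : ↥(Subgroup.zpowers σ) →* ℂˣ, ψ'' ≠ 1 ∧ ψ'' ≠ ψ₀ ∧ ψ'' ≠ ψ ∧ ψ'' ≠ ψ⁻¹ ∧ ψ'' ≠ ψ' ∧
      ψ'' ≠ ψ'⁻¹ := by
  classical
  rcases ho with ho | ho
  · exfalso
    haveI := finite_hom' σ
    let _ : Fintype (↥(Subgroup.zpowers σ) →* ℂˣ) := Fintype.ofFinite _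
    have hnd : ([1, ψ₀, ψ, ψ⁻¹, ψ'] : List (↥(Subgroup.zpowers σ) →* ℂˣ)).Nodup := by
      have a1 : (1 : ↥(Subgroup.zpowers σ) →* ℂˣ) ≠ ψ₀ := (psi0_ne_one ψ₀ h0).symm
      have a2 : (1 : ↥(Subgroup.zpowers σ) →* ℂˣ) ≠ ψ := h1.symm
      have a3 : (1 : ↥(Subgroup.zpowers σ) →* ℂˣ) ≠ ψ⁻¹ := (inv_ne_one' ψ h1).symm
      have a4 : (1 : ↥(Subgroup.zpowers σ) →* ℂˣ) ≠ ψ' := h1'.symm
      have a5 : ψ₀ ≠ ψ := h2.symm
      have a6 : ψ₀ ≠ ψ⁻¹ := by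
        intro e
        apply h2
        rw [← inv_inv' ψ, ← e, psi0_inv ψ₀ h0]
      have a7 : ψ₀ ≠ ψ' := h2'.symm
      have a8 : ψ ≠ ψ⁻¹ := (inv_ne_self ψ₀ h0 ψ h1 h2).symm
      have a9 : ψ ≠ ψ' := h3.symm
      have a10 : ψ⁻¹ ≠ ψ' := h4.symm
      simp only [List.nodup_cons, List.mem_cons, List.not_mem_nil, or_false, not_or,
        List.nodup_nil, and_true, not_false_eq_true]
      exact ⟨⟨a1, a2, a3, a4⟩, ⟨a5, a6, a7⟩, ⟨a8, a9⟩, a10⟩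
    have h5 := hnd.length_le_card
    rw [← Nat.card_eq_fintype_card, card_hom, ho] at h5
    simp at h5
  · obtain ⟨ψ'', hψ''⟩ := exists_notMem σ {1, ψ₀, ψ, ψ⁻¹, ψ', ψ'⁻¹}
      (lt_of_le_of_lt Finset.card_le_six ho)
    simp only [Finset.mem_insert, Finset.mem_singleton, not_or] at hψ''
    exact ⟨ψ'', hψ''.1, hψ''.2.1, hψ''.2.2.1, hψ''.2.2.2.1, hψ''.2.2.2.2.1, hψ''.2.2.2.2.2⟩

end Cfsg.Agent.Lib.Helper77.DihHom
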