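import Cfsg.Agent.Lib.Helper77.DihLat

/-!
# The abstract lattice lemma: shape of the vectors
-/

set_option autoImplicit false

namespace Cfsg.Agent.Lib.Helper77.DihLat2

open Cfsg.Agent.Lib.Helper77.DihLat

variable {X : Type*} [DecidableEq X] {Ψ : Type*} [DecidableEq Ψ]

/-- Hypotheses of the lattice lemma. -/
structure Hyp (B : Finset X) (one : X) (inv : Ψ → Ψ) (ψ₀ : Ψ) (u : Ψ → X → ℤ) (d : X → ℤ) :
    Prop where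
  one_mem : one ∈ B
  inv_inv : ∀ ψ, inv (inv ψ) = ψ
  inv_zero : inv ψ₀ = ψ₀
  u_inv : ∀ ψ χ, u (inv ψ) χ = u ψ χ
  u_one : ∀ ψ, u ψ one = 1
  gram : ∀ ψ ψ', ∑ χ ∈ B, u ψ χ * u ψ' χ =
    2 + (if ψ = ψ' then 1 else 0) + (if ψ' = inv ψ then 1 else 0)
  deg : ∀ ψ, ∑ χ ∈ B, u ψ χ * d χ = 0
  dpos : ∀ χ ∈ B, 0 < d χ
  done : d one = 1
  nz : ∀ χ ∈ B, ∃ ψ, u ψ χ ≠ 0
  ex : ∃ ψ, ψ ≠ ψ₀
  inv_ne : ∀ ψ, ψ ≠ ψ₀ → inv ψ ≠ ψ
  three : ∀ ψ ψ', ψ ≠ ψ₀ → ψ' ≠ ψ₀ → ψ' ≠ ψ → ψ' ≠ inv ψ →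
    ∃ ψ'', ψ'' ≠ ψ₀ ∧ ψ'' ≠ ψ ∧ ψ'' ≠ inv ψ ∧ ψ'' ≠ ψ' ∧ ψ'' ≠ inv ψ'

variable {B : Finset X} {one : X} {inv : Ψ → Ψ} {ψ₀ : Ψ} {u : Ψ → X → ℤ} {d : X → ℤ}

theorem inv_ne_zero (h : Hyp B one inv ψ₀ u d) (ψ : Ψ) (hψ : ψ ≠ ψ₀) : inv ψ ≠ ψ₀ := by
  intro e
  apply hψ
  rw [← h.inv_inv ψ, e, h.inv_zero]

theorem shape (h : Hyp B one inv ψ₀ u d) (ψ : Ψ) (hψ : ψ ≠ ψ₀) :
    ∃ a b, a ∈ B ∧ b ∈ B ∧ a ≠ one ∧ b ≠ one ∧ a ≠ b ∧ u ψ a = 1 ∧ u ψ b = -1 ∧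
      ∀ χ ∈ B, χ ≠ one → χ ≠ a → χ ≠ b → u ψ χ = 0 := by
  have hg := h.gram ψ ψ
  rw [if_pos rfl, if_neg (fun e => h.inv_ne ψ hψ e.symm)] at hg
  have e1 := Finset.add_sum_erase B (fun χ => u ψ χ * u ψ χ) h.one_mem
  have hT : ∑ χ ∈ B.erase one, u ψ χ * u ψ χ = 2 := by
    simp only [h.u_one] at e1
    linarith
  obtain ⟨a, haT, b, hbT, hab, hva, hvb, hz⟩ := norm_two (B.erase one) (u ψ) hT
  have haB := Finset.mem_of_mem_erase haT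
  have hbB := Finset.mem_of_mem_erase hbT
  have ha1 := Finset.ne_of_mem_erase haT
  have hb1 := Finset.ne_of_mem_erase hbT
  have hz' : ∀ χ ∈ B, χ ≠ one → χ ≠ a → χ ≠ b → u ψ χ = 0 := fun χ hχ c1 c2 c3 =>
    hz χ (Finset.mem_erase.mpr ⟨c1, hχ⟩) c2 c3
  have hd := h.deg ψ
  rw [sum_three B one a b (u ψ) d (u ψ a) (u ψ b) h.one_mem haB hbB ha1 hb1 hab (h.u_one ψ) rfl
    rfl hz', h.done] at hd
  have da := h.dpos a haB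
  have db := h.dpos b hbB
  rcases hva with va | va <;> rcases hvb with vb | vb
  · rw [va, vb] at hd
    exfalso
    linarith
  · exact ⟨a, b, haB, hbB, ha1, hb1, hab, va, vb, hz'⟩
  · exact ⟨b, a, hbB, haB, hb1, ha1, hab.symm, vb, va, fun χ hχ c1 c2 c3 => hz' χ hχ c1 c3 c2⟩
  · rw [va, vb] at hd
    exfalso
    linarith

theorem y_norm (h : Hyp B one inv ψ₀ u d) : ∑ χ ∈ B, u ψ₀ χ * u ψ₀ χ = 4 := by
  have hg := h.gram ψ₀ ψ₀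
  rw [if_pos rfl, if_pos h.inv_zero.symm] at hg
  rw [hg]
  norm_num

theorem y_bd (h : Hyp B one inv ψ₀ u d) (χ : X) (hχ : χ ∈ B) (hχ1 : χ ≠ one) :
    -1 ≤ u ψ₀ χ ∧ u ψ₀ χ ≤ 1 := by
  have e1 := Finset.add_sum_erase B (fun χ => u ψ₀ χ * u ψ₀ χ) h.one_mem
  have hχ' : χ ∈ B.erase one := Finset.mem_erase.mpr ⟨hχ1, hχ⟩
  have e2 := Finset.add_sum_erase (B.erase one) (fun χ => u ψ₀ χ * u ψ₀ χ) hχ'
  have n := sum_sq_nonneg ((B.erase one).erase χ) (u ψ₀)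
  have hn := y_norm h
  simp only [h.u_one] at e1
  have h3 : u ψ₀ χ * u ψ₀ χ ≤ 3 := by linarith
  constructor <;> nlinarith

/-- The vector `u ψ₀` cannot have three further entries of the same sign. -/
theorem no_three (h : Hyp B one inv ψ₀ u d) (x1 x2 x3 : X) (h1 : x1 ∈ B) (h2 : x2 ∈ B)
    (h3 : x3 ∈ B) (n1 : x1 ≠ one) (n2 : x2 ≠ one) (n3 : x3 ≠ one) (d12 : x1 ≠ x2) (d13 : x1 ≠ x3)
    (d23 : x2 ≠ x3) (e : ℤ) (he : e = 1 ∨ e = -1) (y1 : u ψ₀ x1 = e) (y2 : u ψ₀ x2 = e)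
    (y3 : u ψ₀ x3 = e) : False := by
  have hsub : ({one, x1, x2, x3} : Finset X) ⊆ B := by
    intro χ hχ
    simp only [Finset.mem_insert, Finset.mem_singleton] at hχ
    rcases hχ with rfl | rfl | rfl | rfl
    · exact h.one_mem
    · exact h1
    · exact h2
    · exact h3
  have hS : ∑ χ ∈ ({one, x1, x2, x3} : Finset X), u ψ₀ χ * u ψ₀ χ = 4 := by
    rw [Finset.sum_insert, Finset.sum_insert, Finset.sum_insert, Finset.sum_singleton, h.u_one,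
      y1, y2, y3]
    · rcases he with rfl | rfl <;> norm_num
    · simp [d23]
    · simp [d12, d13]
    · simp [n1.symm, n2.symm, n3.symm]
  have hz := zero_of_norm B {one, x1, x2, x3} (u ψ₀) hsub (by rw [hS, y_norm h])
  have hd := h.deg ψ₀
  rw [sum_four B one x1 x2 x3 (fun χ => u ψ₀ χ * d χ) h.one_mem h1 h2 h3 n1.symm n2.symm n3.symm
    d12 d13 d23 (fun χ hχ c0 c1 c2 c3 => by
      have : χ ∉ ({one, x1, x2, x3} : Finset X) := by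
        simp only [Finset.mem_insert, Finset.mem_singleton, not_or]
        exact ⟨c0, c1, c2, c3⟩
      show u ψ₀ χ * d χ = 0
      rw [hz χ hχ this, zero_mul])] at hd
  simp only [h.u_one, y1, y2, y3, h.done] at hd
  have p1 := h.dpos x1 h1
  have p2 := h.dpos x2 h2
  have p3 := h.dpos x3 h3
  rcases he with rfl | rfl <;> linarith

end Cfsg.Agent.Lib.Helper77.DihLat2
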