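import Cfsg.Agent.Lib.Helper77.DihLat2

/-!
# The abstract lattice lemma: main statement
-/

set_option autoImplicit false

namespace Cfsg.Agent.Lib.Helper77.DihLat3

open Cfsg.Agent.Lib.Helper77.DihLat Cfsg.Agent.Lib.Helper77.DihLat2

variable {X : Type*} [DecidableEq X] {Ψ : Type*} [DecidableEq Ψ]
variable {B : Finset X} {one : X} {inv : Ψ → Ψ} {ψ₀ : Ψ} {u : Ψ → X → ℤ} {d : X → ℤ}

/-- There is a point `χ₁` at which all vectors take the same value `s = ±1`. -/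
theorem exists_star (h : Hyp B one inv ψ₀ u d) :
    ∃ (χ₁ : X) (s : ℤ), (s = 1 ∨ s = -1) ∧ χ₁ ∈ B ∧ χ₁ ≠ one ∧ u ψ₀ χ₁ = s ∧
      ∀ ψ, ψ ≠ ψ₀ → u ψ χ₁ = s := by
  classical
  haveI : Nonempty X := ⟨one⟩
  choose! a b hsh using fun ψ (hψ : ψ ≠ ψ₀) => shape h ψ hψ
  have hsum : ∀ ψ, ψ ≠ ψ₀ → ∀ f : X → ℤ,
      ∑ χ ∈ B, u ψ χ * f χ = f one + f (a ψ) - f (b ψ) := by
    intro ψ hψ f
    obtain ⟨h1, h2, h3, h4, h5, h6, h7, h8⟩ := hsh ψ hψ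
    rw [sum_three B one (a ψ) (b ψ) (u ψ) f 1 (-1) h.one_mem h1 h2 h3 h4 h5 (h.u_one ψ) h6 h7 h8]
    ring
  have hval : ∀ ψ, ψ ≠ ψ₀ → ∀ χ ∈ B, χ ≠ one →
      u ψ χ = (if χ = a ψ then 1 else 0) - (if χ = b ψ then 1 else 0) := by
    intro ψ hψ χ hχ hχ1
    obtain ⟨h1, h2, h3, h4, h5, h6, h7, h8⟩ := hsh ψ hψ
    by_cases c2 : χ = a ψ
    · subst c2
      rw [if_pos rfl, if_neg h5, h6]
      ring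
    · by_cases c3 : χ = b ψ
      · subst c3
        rw [if_neg c2, if_pos rfl, h7]
        ring
      · rw [if_neg c2, if_neg c3, h8 χ hχ hχ1 c2 c3]
        ring
  have ha_unique : ∀ ψ, ψ ≠ ψ₀ → ∀ χ ∈ B, χ ≠ one → u ψ χ = 1 → χ = a ψ := by
    intro ψ hψ χ hχ hχ1 hv
    rw [hval ψ hψ χ hχ hχ1] at hv
    by_contra c
    rw [if_neg c] at hv
    split_ifs at hv <;> omega
  have hb_unique : ∀ ψ, ψ ≠ ψ₀ → ∀ χ ∈ B, χ ≠ one → u ψ χ = -1 → χ = b ψ := by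
    intro ψ hψ χ hχ hχ1 hv
    rw [hval ψ hψ χ hχ hχ1] at hv
    by_contra c
    rw [if_neg c] at hv
    split_ifs at hv <;> omega
  have hsame : ∀ ψ, ψ ≠ ψ₀ → a (inv ψ) = a ψ ∧ b (inv ψ) = b ψ := by
    intro ψ hψ
    have hi := inv_ne_zero h ψ hψ
    obtain ⟨h1, h2, h3, h4, h5, h6, h7, h8⟩ := hsh (inv ψ) hi
    constructor
    · exact ha_unique ψ hψ _ h1 h3 (by rw [← h.u_inv ψ]; exact h6)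
    · exact hb_unique ψ hψ _ h2 h4 (by rw [← h.u_inv ψ]; exact h7)
  have hpair : ∀ ψ ψ', ψ ≠ ψ₀ → ψ' ≠ ψ₀ → ψ' ≠ ψ → ψ' ≠ inv ψ →
      (a ψ = a ψ' ∧ b ψ ≠ b ψ') ∨ (b ψ = b ψ' ∧ a ψ ≠ a ψ') := by
    intro ψ ψ' hψ hψ' hne hne'
    have hg := h.gram ψ ψ'
    rw [if_neg (fun e => hne e.symm), if_neg hne', hsum ψ hψ (u ψ'), h.u_one ψ'] at hg
    obtain ⟨h1, h2, h3, h4, h5, h6, h7, h8⟩ := hsh ψ hψ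
    obtain ⟨k1, k2, k3, k4, k5, k6, k7, k8⟩ := hsh ψ' hψ'
    rw [hval ψ' hψ' (a ψ) h1 h3, hval ψ' hψ' (b ψ) h2 h4] at hg
    by_cases c1 : a ψ = a ψ'
    · left
      refine ⟨c1, ?_⟩
      intro c2
      have e1 : a ψ ≠ b ψ' := by rw [c1]; exact k5
      have e2 : b ψ ≠ a ψ' := by rw [c2]; exact k5.symm
      rw [if_pos c1, if_pos c2, if_neg e1, if_neg e2] at hg
      norm_num at hg
    · right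
      by_cases c2 : b ψ = b ψ'
      · exact ⟨c2, c1⟩
      · exfalso
        rw [if_neg c1, if_neg c2] at hg
        split_ifs at hg <;> omega
  have hy_rel : ∀ ψ, ψ ≠ ψ₀ → u ψ₀ (a ψ) - u ψ₀ (b ψ) = 1 := by
    intro ψ hψ
    have hg := h.gram ψ ψ₀
    have e2 : ψ₀ ≠ inv ψ := fun e => inv_ne_zero h ψ hψ e.symm
    rw [if_neg hψ, if_neg e2, hsum ψ hψ (u ψ₀), h.u_one ψ₀] at hg
    linarith
  obtain ⟨ψ₁, hψ₁⟩ := h.ex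
  have hdich : (∀ ψ, ψ ≠ ψ₀ → a ψ = a ψ₁) ∨ (∀ ψ, ψ ≠ ψ₀ → b ψ = b ψ₁) := by
    by_contra hc
    rw [not_or] at hc
    obtain ⟨hc1, hc2⟩ := hc
    rw [not_forall] at hc1 hc2
    obtain ⟨ψ₂, hc1⟩ := hc1
    obtain ⟨ψ₃, hc2⟩ := hc2
    rw [Classical.not_imp] at hc1 hc2
    obtain ⟨hψ₂, ha2⟩ := hc1
    obtain ⟨hψ₃, hb3⟩ := hc2
    have n2 : ψ₂ ≠ ψ₁ := fun e => ha2 (by rw [e])
    have n2' : ψ₂ ≠ inv ψ₁ := fun e => ha2 (by rw [e]; exact (hsame ψ₁ hψ₁).1)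
    have n3 : ψ₃ ≠ ψ₁ := fun e => hb3 (by rw [e])
    have n3' : ψ₃ ≠ inv ψ₁ := fun e => hb3 (by rw [e]; exact (hsame ψ₁ hψ₁).2)
    rcases hpair ψ₁ ψ₂ hψ₁ hψ₂ n2 n2' with ⟨p, _⟩ | ⟨p, _⟩
    · exact ha2 p.symm
    rcases hpair ψ₁ ψ₃ hψ₁ hψ₃ n3 n3' with ⟨q, _⟩ | ⟨q, _⟩
    swap
    · exact hb3 q.symm
    have n23 : ψ₃ ≠ ψ₂ := fun e => ha2 (by rw [← e]; exact q.symm)
    have n23' : ψ₃ ≠ inv ψ₂ := fun e => ha2 (by rw [← (hsame ψ₂ hψ₂).1, ← e]; exact q.symm)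
    rcases hpair ψ₂ ψ₃ hψ₂ hψ₃ n23 n23' with ⟨r, _⟩ | ⟨r, _⟩
    · exact ha2 (r.trans q.symm)
    · exact hb3 (r.symm.trans p.symm)
  rcases hdich with hA | hB
  · by_cases c : u ψ₀ (a ψ₁) = 1
    · exact ⟨a ψ₁, 1, Or.inl rfl, (hsh ψ₁ hψ₁).1, (hsh ψ₁ hψ₁).2.2.1, c,
        fun ψ hψ => by rw [← hA ψ hψ]; exact (hsh ψ hψ).2.2.2.2.2.1⟩
    · have hyb : ∀ ψ, ψ ≠ ψ₀ → u ψ₀ (b ψ) = -1 := by
        intro ψ hψ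
        have r := hy_rel ψ hψ
        rw [hA ψ hψ] at r
        have bd := y_bd h (b ψ) (hsh ψ hψ).2.1 (hsh ψ hψ).2.2.2.1
        have bda := y_bd h (a ψ₁) (hsh ψ₁ hψ₁).1 (hsh ψ₁ hψ₁).2.2.1
        omega
      by_cases c2 : ∀ ψ, ψ ≠ ψ₀ → b ψ = b ψ₁
      · exact ⟨b ψ₁, -1, Or.inr rfl, (hsh ψ₁ hψ₁).2.1, (hsh ψ₁ hψ₁).2.2.2.1, hyb ψ₁ hψ₁,
          fun ψ hψ => by rw [← c2 ψ hψ]; exact (hsh ψ hψ).2.2.2.2.2.2.1⟩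
      · exfalso
        rw [not_forall] at c2
        obtain ⟨ψ₂, c2⟩ := c2
        rw [Classical.not_imp] at c2
        obtain ⟨hψ₂, hb2⟩ := c2
        have n2 : ψ₂ ≠ ψ₁ := fun e => hb2 (by rw [e])
        have n2' : ψ₂ ≠ inv ψ₁ := fun e => hb2 (by rw [e]; exact (hsame ψ₁ hψ₁).2)
        obtain ⟨ψ₃, hψ₃, m1, m1', m2, m2'⟩ := h.three ψ₁ ψ₂ hψ₁ hψ₂ n2 n2'
        have d13 : b ψ₁ ≠ b ψ₃ := by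
          rcases hpair ψ₁ ψ₃ hψ₁ hψ₃ m1 m1' with ⟨_, q⟩ | ⟨_, q⟩
          · exact q
          · exact absurd (hA ψ₃ hψ₃).symm q
        have d23 : b ψ₂ ≠ b ψ₃ := by
          rcases hpair ψ₂ ψ₃ hψ₂ hψ₃ m2 m2' with ⟨_, q⟩ | ⟨_, q⟩
          · exact q
          · exact absurd ((hA ψ₂ hψ₂).trans (hA ψ₃ hψ₃).symm) q
        exact no_three h (b ψ₁) (b ψ₂) (b ψ₃) (hsh ψ₁ hψ₁).2.1 (hsh ψ₂ hψ₂).2.1 (hsh ψ₃ hψ₃).2.1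
          (hsh ψ₁ hψ₁).2.2.2.1 (hsh ψ₂ hψ₂).2.2.2.1 (hsh ψ₃ hψ₃).2.2.2.1 (Ne.symm hb2) d13 d23 (-1)
          (Or.inr rfl) (hyb ψ₁ hψ₁) (hyb ψ₂ hψ₂) (hyb ψ₃ hψ₃)
  · by_cases c : u ψ₀ (b ψ₁) = -1
    · exact ⟨b ψ₁, -1, Or.inr rfl, (hsh ψ₁ hψ₁).2.1, (hsh ψ₁ hψ₁).2.2.2.1, c,
        fun ψ hψ => by rw [← hB ψ hψ]; exact (hsh ψ hψ).2.2.2.2.2.2.1⟩
    · have hya : ∀ ψ, ψ ≠ ψ₀ → u ψ₀ (a ψ) = 1 := by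
        intro ψ hψ
        have r := hy_rel ψ hψ
        rw [hB ψ hψ] at r
        have bd := y_bd h (a ψ) (hsh ψ hψ).1 (hsh ψ hψ).2.2.1
        have bdb := y_bd h (b ψ₁) (hsh ψ₁ hψ₁).2.1 (hsh ψ₁ hψ₁).2.2.2.1
        omega
      by_cases c2 : ∀ ψ, ψ ≠ ψ₀ → a ψ = a ψ₁
      · exact ⟨a ψ₁, 1, Or.inl rfl, (hsh ψ₁ hψ₁).1, (hsh ψ₁ hψ₁).2.2.1, hya ψ₁ hψ₁,
          fun ψ hψ => by rw [← c2 ψ hψ]; exact (hsh ψ hψ).2.2.2.2.2.1⟩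
      · exfalso
        rw [not_forall] at c2
        obtain ⟨ψ₂, c2⟩ := c2
        rw [Classical.not_imp] at c2
        obtain ⟨hψ₂, ha2⟩ := c2
        have n2 : ψ₂ ≠ ψ₁ := fun e => ha2 (by rw [e])
        have n2' : ψ₂ ≠ inv ψ₁ := fun e => ha2 (by rw [e]; exact (hsame ψ₁ hψ₁).1)
        obtain ⟨ψ₃, hψ₃, m1, m1', m2, m2'⟩ := h.three ψ₁ ψ₂ hψ₁ hψ₂ n2 n2'
        have d13 : a ψ₁ ≠ a ψ₃ := by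
          rcases hpair ψ₁ ψ₃ hψ₁ hψ₃ m1 m1' with ⟨_, q⟩ | ⟨_, q⟩
          · exact absurd (hB ψ₃ hψ₃).symm q
          · exact q
        have d23 : a ψ₂ ≠ a ψ₃ := by
          rcases hpair ψ₂ ψ₃ hψ₂ hψ₃ m2 m2' with ⟨_, q⟩ | ⟨_, q⟩
          · exact absurd ((hB ψ₂ hψ₂).trans (hB ψ₃ hψ₃).symm) q
          · exact q
        exact no_three h (a ψ₁) (a ψ₂) (a ψ₃) (hsh ψ₁ hψ₁).1 (hsh ψ₂ hψ₂).1 (hsh ψ₃ hψ₃).1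
          (hsh ψ₁ hψ₁).2.2.1 (hsh ψ₂ hψ₂).2.2.1 (hsh ψ₃ hψ₃).2.2.1 (Ne.symm ha2) d13 d23 1
          (Or.inl rfl) (hya ψ₁ hψ₁) (hya ψ₂ hψ₂) (hya ψ₃ hψ₃)

end Cfsg.Agent.Lib.Helper77.DihLat3
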