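import Cfsg.Agent.Lib.Helper77.DihLat3

/-!
# The abstract lattice lemma: full description
-/

set_option autoImplicit false

namespace Cfsg.Agent.Lib.Helper77.DihLat4

open Cfsg.Agent.Lib.Helper77.DihLat Cfsg.Agent.Lib.Helper77.DihLat2
  Cfsg.Agent.Lib.Helper77.DihLat3

variable {X : Type*} [DecidableEq X] {Ψ : Type*} [DecidableEq Ψ]
variable {B : Finset X} {one : X} {inv : Ψ → Ψ} {ψ₀ : Ψ} {u : Ψ → X → ℤ} {d : X → ℤ}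

theorem shape2 (h : Hyp B one inv ψ₀ u d) (χ₁ : X) (s : ℤ) (hs : s = 1 ∨ s = -1) (hχ₁B : χ₁ ∈ B)
    (hχ₁1 : χ₁ ≠ one) (hu : ∀ ψ, ψ ≠ ψ₀ → u ψ χ₁ = s) (ψ : Ψ) (hψ : ψ ≠ ψ₀) :
    ∃ β, β ∈ B ∧ β ≠ one ∧ β ≠ χ₁ ∧ u ψ β = -s ∧
      ∀ χ ∈ B, χ ≠ one → χ ≠ χ₁ → χ ≠ β → u ψ χ = 0 := by
  obtain ⟨a, b, h1, h2, h3, h4, h5, h6, h7, h8⟩ := shape h ψ hψ
  have hv := hu ψ hψ
  rcases hs with rfl | rfl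
  · have e : χ₁ = a := by
      by_contra c
      by_cases c' : χ₁ = b
      · rw [c', h7] at hv
        norm_num at hv
      · rw [h8 χ₁ hχ₁B hχ₁1 c c'] at hv
        norm_num at hv
    subst e
    exact ⟨b, h2, h4, h5.symm, h7, fun χ hχ c1 c2 c3 => h8 χ hχ c1 c2 c3⟩
  · have e : χ₁ = b := by
      by_contra c
      by_cases c' : χ₁ = a
      · rw [c', h6] at hv
        norm_num at hv
      · rw [h8 χ₁ hχ₁B hχ₁1 c' c] at hv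
        norm_num at hv
    subst e
    exact ⟨a, h1, h3, h5, by rw [h6]; norm_num, fun χ hχ c1 c2 c3 => h8 χ hχ c1 c3 c2⟩

/-- The lattice lemma. -/
theorem main (h : Hyp B one inv ψ₀ u d) :
    ∃ (χ₁ χ₂ χ₃ : X) (s ε₂ ε₃ : ℤ) (β : Ψ → X),
      (s = 1 ∨ s = -1) ∧ (ε₂ = 1 ∨ ε₂ = -1) ∧ (ε₃ = 1 ∨ ε₃ = -1) ∧
      χ₁ ∈ B ∧ χ₂ ∈ B ∧ χ₃ ∈ B ∧ χ₁ ≠ one ∧ χ₂ ≠ one ∧ χ₃ ≠ one ∧ χ₁ ≠ χ₂ ∧ χ₁ ≠ χ₃ ∧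
      χ₂ ≠ χ₃ ∧
      (∀ ψ, ψ ≠ ψ₀ → β ψ ∈ B ∧ β ψ ≠ one ∧ β ψ ≠ χ₁ ∧ β ψ ≠ χ₂ ∧ β ψ ≠ χ₃) ∧
      (∀ ψ ψ', ψ ≠ ψ₀ → ψ' ≠ ψ₀ → (β ψ = β ψ' ↔ ψ' = ψ ∨ ψ' = inv ψ)) ∧
      (∀ χ ∈ B, χ = one ∨ χ = χ₁ ∨ χ = χ₂ ∨ χ = χ₃ ∨ ∃ ψ, ψ ≠ ψ₀ ∧ χ = β ψ) ∧
      (∀ ψ, u ψ χ₁ = s) ∧ u ψ₀ χ₂ = ε₂ ∧ (∀ ψ, ψ ≠ ψ₀ → u ψ χ₂ = 0) ∧
      u ψ₀ χ₃ = ε₃ ∧ (∀ ψ, ψ ≠ ψ₀ → u ψ χ₃ = 0) ∧
      (∀ ψ ψ', ψ' ≠ ψ₀ → u ψ (β ψ') = if ψ = ψ' ∨ ψ = inv ψ' then -s else 0) := by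
  classical
  haveI : Nonempty X := ⟨one⟩
  obtain ⟨χ₁, s, hs, hχ₁B, hχ₁1, hyχ₁, huχ₁⟩ := exists_star h
  have hss : s * s = 1 := by rcases hs with rfl | rfl <;> norm_num
  have hs0 : s ≠ 0 := by rcases hs with rfl | rfl <;> norm_num
  choose! β hβ using fun ψ (hψ : ψ ≠ ψ₀) => shape2 h χ₁ s hs hχ₁B hχ₁1 huχ₁ ψ hψ
  have hsum : ∀ ψ, ψ ≠ ψ₀ → ∀ f : X → ℤ,
      ∑ χ ∈ B, u ψ χ * f χ = f one + s * f χ₁ + (-s) * f (β ψ) := by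
    intro ψ hψ f
    obtain ⟨h1, h2, h3, h4, h5⟩ := hβ ψ hψ
    exact sum_three B one χ₁ (β ψ) (u ψ) f s (-s) h.one_mem hχ₁B h1 hχ₁1 h2 h3.symm (h.u_one ψ)
      (huχ₁ ψ hψ) h4 h5
  have hyβ : ∀ ψ, ψ ≠ ψ₀ → u ψ₀ (β ψ) = 0 := by
    intro ψ hψ
    have hg := h.gram ψ ψ₀
    have e2 : ψ₀ ≠ inv ψ := fun e => inv_ne_zero h ψ hψ e.symm
    rw [if_neg hψ, if_neg e2, hsum ψ hψ (u ψ₀), h.u_one ψ₀, hyχ₁, hss] at hg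
    have : s * u ψ₀ (β ψ) = 0 := by linarith
    rcases mul_eq_zero.mp this with h0 | h0
    · exact absurd h0 hs0
    · exact h0
  have hcross : ∀ ψ ψ', ψ ≠ ψ₀ → ψ' ≠ ψ₀ → ψ' ≠ ψ → ψ' ≠ inv ψ → u ψ' (β ψ) = 0 := by
    intro ψ ψ' hψ hψ' hne hne'
    have hg := h.gram ψ ψ'
    rw [if_neg (fun e => hne e.symm), if_neg hne', hsum ψ hψ (u ψ'), h.u_one ψ', huχ₁ ψ' hψ',
      hss] at hg
    have : s * u ψ' (β ψ) = 0 := by linarith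
    rcases mul_eq_zero.mp this with h0 | h0
    · exact absurd h0 hs0
    · exact h0
  have hβ_unique : ∀ ψ, ψ ≠ ψ₀ → ∀ χ ∈ B, χ ≠ one → u ψ χ = -s → χ = β ψ := by
    intro ψ hψ χ hχ hχ1 hv
    obtain ⟨h1, h2, h3, h4, h5⟩ := hβ ψ hψ
    by_contra c
    by_cases c' : χ = χ₁
    · rw [c', huχ₁ ψ hψ] at hv
      apply hs0
      linarith
    · rw [h5 χ hχ hχ1 c' c] at hv
      apply hs0
      linarith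
  have hβinv : ∀ ψ, ψ ≠ ψ₀ → β (inv ψ) = β ψ := by
    intro ψ hψ
    have hi := inv_ne_zero h ψ hψ
    obtain ⟨h1, h2, h3, h4, h5⟩ := hβ (inv ψ) hi
    exact hβ_unique ψ hψ _ h1 h2 (by rw [← h.u_inv ψ]; exact h4)
  -- the two remaining points
  have e1 := Finset.add_sum_erase B (fun χ => u ψ₀ χ * u ψ₀ χ) h.one_mem
  have hχ₁' : χ₁ ∈ B.erase one := Finset.mem_erase.mpr ⟨hχ₁1, hχ₁B⟩
  have e2 := Finset.add_sum_erase (B.erase one) (fun χ => u ψ₀ χ * u ψ₀ χ) hχ₁'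
  have hT : ∑ χ ∈ (B.erase one).erase χ₁, u ψ₀ χ * u ψ₀ χ = 2 := by
    have hn := y_norm h
    simp only [h.u_one, hyχ₁, hss] at e1 e2
    linarith
  obtain ⟨c₂, hc₂T, c₃, hc₃T, hc23, hv2, hv3, hz⟩ := norm_two _ (u ψ₀) hT
  have hc₂1 : c₂ ≠ one := Finset.ne_of_mem_erase (Finset.mem_of_mem_erase hc₂T)
  have hc₂B : c₂ ∈ B := Finset.mem_of_mem_erase (Finset.mem_of_mem_erase hc₂T)
  have hc₂χ : c₂ ≠ χ₁ := Finset.ne_of_mem_erase hc₂T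
  have hc₃1 : c₃ ≠ one := Finset.ne_of_mem_erase (Finset.mem_of_mem_erase hc₃T)
  have hc₃B : c₃ ∈ B := Finset.mem_of_mem_erase (Finset.mem_of_mem_erase hc₃T)
  have hc₃χ : c₃ ≠ χ₁ := Finset.ne_of_mem_erase hc₃T
  have hv20 : u ψ₀ c₂ ≠ 0 := by rcases hv2 with e | e <;> rw [e] <;> norm_num
  have hv30 : u ψ₀ c₃ ≠ 0 := by rcases hv3 with e | e <;> rw [e] <;> norm_num
  have hβc₂ : ∀ ψ, ψ ≠ ψ₀ → β ψ ≠ c₂ := fun ψ hψ e => hv20 (by rw [← e]; exact hyβ ψ hψ)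
  have hβc₃ : ∀ ψ, ψ ≠ ψ₀ → β ψ ≠ c₃ := fun ψ hψ e => hv30 (by rw [← e]; exact hyβ ψ hψ)
  refine ⟨χ₁, c₂, c₃, s, u ψ₀ c₂, u ψ₀ c₃, β, hs, hv2, hv3, hχ₁B, hc₂B, hc₃B, hχ₁1, hc₂1, hc₃1,
    hc₂χ.symm, hc₃χ.symm, hc23, ?_, ?_, ?_, ?_, rfl, ?_, rfl, ?_, ?_⟩
  · intro ψ hψ
    obtain ⟨h1, h2, h3, h4, h5⟩ := hβ ψ hψ
    exact ⟨h1, h2, h3, hβc₂ ψ hψ, hβc₃ ψ hψ⟩
  · intro ψ ψ' hψ hψ'
    constructor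
    · intro e
      by_contra hc
      rw [not_or] at hc
      have h0 := hcross ψ ψ' hψ hψ' hc.1 hc.2
      rw [e, (hβ ψ' hψ').2.2.2.1] at h0
      apply hs0
      linarith
    · rintro (rfl | rfl)
      · rfl
      · exact (hβinv ψ hψ).symm
  · intro χ hχ
    by_contra hc
    simp only [not_or, not_exists, not_and] at hc
    obtain ⟨n1, n2, n3, n4, n5⟩ := hc
    obtain ⟨ψ, hψ⟩ := h.nz χ hχ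
    apply hψ
    by_cases c : ψ = ψ₀
    · rw [c]
      exact hz χ (Finset.mem_erase.mpr ⟨n2, Finset.mem_erase.mpr ⟨n1, hχ⟩⟩) n3 n4
    · exact (hβ ψ c).2.2.2.2 χ hχ n1 n2 (n5 ψ c)
  · intro ψ
    by_cases c : ψ = ψ₀
    · rw [c]
      exact hyχ₁
    · exact huχ₁ ψ c
  · intro ψ hψ
    exact (hβ ψ hψ).2.2.2.2 c₂ hc₂B hc₂1 hc₂χ (hβc₂ ψ hψ).symm
  · intro ψ hψ
    exact (hβ ψ hψ).2.2.2.2 c₃ hc₃B hc₃1 hc₃χ (hβc₃ ψ hψ).symm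
  · intro ψ ψ' hψ'
    by_cases c : ψ = ψ₀
    · have n1 : ¬ (ψ = ψ' ∨ ψ = inv ψ') := by
        rw [c]
        rintro (e | e)
        · exact hψ' e.symm
        · exact inv_ne_zero h ψ' hψ' e.symm
      rw [if_neg n1, c]
      exact hyβ ψ' hψ'
    · by_cases c1 : ψ = ψ'
      · rw [if_pos (Or.inl c1), c1]
        exact (hβ ψ' hψ').2.2.2.1
      · by_cases c2 : ψ = inv ψ'
        · rw [if_pos (Or.inr c2), c2, h.u_inv]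
          exact (hβ ψ' hψ').2.2.2.1
        · rw [if_neg (by rw [not_or]; exact ⟨c1, c2⟩)]
          exact hcross ψ' ψ hψ' c c1 c2

end Cfsg.Agent.Lib.Helper77.DihLat4
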