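import Mathlib
import Cfsg.Agent.Lib.Helper45.EPStmt
import Cfsg.Agent.Lib.Helper44.TPStmt
import Cfsg.Agent.Lib.Helper77.OPPFIXA

/-!
# S5988 / PFIXE (all `q`): an isometry `x` of the plus form with `Q = 0` on `(x - 1) V` and
`dim (x - 1) V ≥ d - 1`: every invariant nondegenerate subspace of even dimension is of plus type.
(Hypotheses: the landed `TPStmt.Top`, `TPStmt.Perp`, `TPStmt.Cancel`.)
-/

set_option autoImplicit false
set_option maxHeartbeats 400000

namespace Cfsg.Agent.Lib.Helper77.EPPFIXE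

open Module QuadraticMap
open Cfsg.Agent.Lib.Helper44.QSpace Cfsg.Agent.Lib.Helper44.NegPairs
open Cfsg.Agent.Lib.Helper44.WittND Cfsg.Agent.Lib.Helper44.WittND2
open Cfsg.Agent.Lib.Helper94.OPStmt Cfsg.Agent.Lib.Helper45.EPStmt

universe u

theorem main (hTop : Cfsg.Agent.Lib.Helper44.TPStmt.Top.{u})
    (hPerp : Cfsg.Agent.Lib.Helper44.TPStmt.Perp.{u})
    (hCancel : Cfsg.Agent.Lib.Helper44.TPStmt.Cancel.{u}) : PFixE.{u} := by
  intro F _ _ d hd x hx hT hQ0 hrk W hND hStab hev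
  obtain ⟨Y₀, hWY₀, hNDY₀, hinf₀, hdim₀, hYst₀⟩ := hPerp F d W hND
  obtain ⟨Y, hYdef⟩ : ∃ Y : Submodule F (P d → F), Y = Y₀ := ⟨Y₀, rfl⟩
  have hWY : ∀ g ∈ W, ∀ y ∈ Y, polar (Cfsg.quadFormPlus d F) g y = 0 := by
    rw [hYdef]
    exact hWY₀
  have hNDY : NDegP d F Y := by
    rw [hYdef]
    exact hNDY₀
  have hinf : W ⊓ Y = ⊥ := by
    rw [hYdef]
    exact hinf₀
  have hdim : finrank F ↥W + finrank F ↥Y = 2 * d := by
    rw [hYdef]
    exact hdim₀
  have hStabY : StabP (x : Matrix (P d) (P d) F) Y := by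
    rw [hYdef]
    exact hYst₀ x hx hStab
  obtain ⟨N, hNdef⟩ : ∃ N : (P d → F) →ₗ[F] (P d → F), N = NP (x : Matrix (P d) (P d) F) :=
    ⟨_, rfl⟩
  rw [← hNdef] at hT hQ0 hrk
  have hNap : ∀ v, N v = Matrix.toLin' (x : Matrix (P d) (P d) F) v - v := by
    intro v
    rw [hNdef]
    unfold NP
    rw [LinearMap.sub_apply, LinearMap.id_apply]
  have hstab : ∀ (U : Submodule F (P d → F)), StabP (x : Matrix (P d) (P d) F) U →
      U.map N ≤ U := by
    intro U hU t ht
    obtain ⟨w, hw, rfl⟩ := Submodule.mem_map.mp ht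
    rw [hNap]
    exact U.sub_mem (hU (Submodule.mem_map_of_mem hw)) hw
  have hsing : ∀ (U : Submodule F (P d → F)), ∀ t ∈ U.map N, plusQ d F t = 0 := by
    intro U t ht
    obtain ⟨w, -, rfl⟩ := Submodule.mem_map.mp ht
    exact hQ0 w
  have hnd : ∀ (U : Submodule F (P d → F)), NDegP d F U → NDsub (plusQ d F) U := by
    intro U hU y hy hyz
    by_contra hy0
    obtain ⟨-, z, hz, hz0⟩ := hU y hy hy0
    exact hz0 (hyz z hz)
  have h1 : 2 * finrank F ↥(W.map N) ≤ finrank F ↥W :=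
    Cfsg.Agent.Lib.Helper77.OPPFIXA.ts_half (plusQ d F) (hnd W hND) (hstab W hStab) (hsing W)
  have h2 : 2 * finrank F ↥(Y.map N) ≤ finrank F ↥Y :=
    Cfsg.Agent.Lib.Helper77.OPPFIXA.ts_half (plusQ d F) (hnd Y hNDY) (hstab Y hStabY) (hsing Y)
  have hV : finrank F (P d → F) = 2 * d := by
    rw [Module.finrank_fintype_fun_eq_card, Fintype.card_sum, Fintype.card_fin]
    omega
  have hsup : W ⊔ Y = ⊤ := by
    apply Submodule.eq_top_of_finrank_eq
    have h3 := Submodule.finrank_sup_add_finrank_inf_eq W Y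
    rw [hinf, finrank_bot] at h3
    omega
  have hle : LinearMap.range N ≤ W.map N ⊔ Y.map N := by
    rintro t ht1
    obtain ⟨v, rfl⟩ := LinearMap.mem_range.mp ht1
    have hv : v ∈ W ⊔ Y := by rw [hsup]; exact Submodule.mem_top
    obtain ⟨w, hw, w', hw', rfl⟩ := Submodule.mem_sup.mp hv
    rw [map_add]
    exact Submodule.add_mem_sup (Submodule.mem_map_of_mem hw) (Submodule.mem_map_of_mem hw')
  have hd1 : finrank F ↥(LinearMap.range N) ≤ finrank F ↥(W.map N ⊔ Y.map N) :=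
    Submodule.finrank_mono hle
  have hd2 : finrank F ↥(W.map N ⊔ Y.map N) ≤ finrank F ↥(W.map N) + finrank F ↥(Y.map N) :=
    Submodule.finrank_add_le_finrank_add_finrank (W.map N) (Y.map N)
  obtain ⟨a, ha⟩ := hev
  have ha' : finrank F ↥W = a + a := ha
  have hrk' : finrank F ↥(LinearMap.range N) = d ∨ finrank F ↥(LinearMap.range N) = d - 1 := by
    rcases hrk with h | ⟨-, h⟩
    · exact Or.inl h
    · exact Or.inr h
  have hkey : 2 * finrank F ↥(W.map N) = finrank F ↥W ∨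
      2 * finrank F ↥(Y.map N) = finrank F ↥Y := by
    rcases hrk' with h | h <;> omega
  rcases hkey with h | h
  · exact ⟨W.map N, hstab W hStab, hsing W, h⟩
  · have hPY : Cfsg.Agent.Lib.Helper44.TPStmt.Plus d F Y :=
      ⟨Y.map N, hstab Y hStabY, hsing Y, h⟩
    have hPtop : Cfsg.Agent.Lib.Helper44.TPStmt.Plus d F (Y ⊔ W) := by
      rw [sup_comm, hsup]
      exact (hTop F d).2
    exact hCancel F d Y W hNDY hND
      (fun u hu v hv => by rw [polar_comm]; exact hWY v hv u hu) hPtop hPY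

end Cfsg.Agent.Lib.Helper77.EPPFIXE
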