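import Mathlib

set_option autoImplicit false
set_option maxHeartbeats 400000

namespace Cfsg.Agent.Lib.Helper77.GMCharpoly

open Polynomial Matrix

universe u

variable {F : Type u} [Field F] {ι : Type} [Fintype ι] [DecidableEq ι]

theorem charpoly_mul_charpoly_neg (M : Matrix ι ι F) (lam : F)
    (hM : M * M = lam • (1 : Matrix ι ι F)) :
    M.charpoly * (-M).charpoly = (X ^ 2 - C lam) ^ Fintype.card ι := by
  unfold Matrix.charpoly
  rw [← Matrix.det_mul]
  have h1 : charmatrix M * charmatrix (-M) = Matrix.scalar ι (X ^ 2 - C lam : F[X]) := by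
    unfold charmatrix
    rw [map_neg, sub_neg_eq_add]
    have hc : Commute (Matrix.scalar ι (X : F[X])) ((C : F →+* F[X]).mapMatrix M) :=
      Matrix.scalar_commute _ (fun r => Commute.all _ _) _
    have h2 : (Matrix.scalar ι (X : F[X]) - (C : F →+* F[X]).mapMatrix M) *
        (Matrix.scalar ι (X : F[X]) + (C : F →+* F[X]).mapMatrix M) =
        Matrix.scalar ι (X : F[X]) * Matrix.scalar ι (X : F[X]) -
          (C : F →+* F[X]).mapMatrix M * (C : F →+* F[X]).mapMatrix M := by
      rw [sub_mul, mul_add, mul_add, hc.eq]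
      abel
    rw [h2, ← map_mul, ← map_mul, hM, map_sub, ← pow_two]
    congr 1
    ext i j
    simp [Matrix.one_apply, Matrix.diagonal_apply]
    split_ifs <;> simp
  rw [h1, Matrix.scalar_apply, Matrix.det_diagonal, Finset.prod_const, Finset.card_univ]

theorem irreducible_X_sq_sub_C (lam : F) (hlam : ¬ IsSquare lam) :
    Irreducible (X ^ 2 - C lam : F[X]) := by
  apply X_pow_sub_C_irreducible_of_prime Nat.prime_two
  intro b hb
  exact hlam ⟨b, by rw [← hb, pow_two]⟩

theorem det_of_sq_nonsquare (M : Matrix ι ι F) (lam : F) (n : ℕ)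
    (hcard : Fintype.card ι = 2 * n) (hlam : ¬ IsSquare lam)
    (hM : M * M = lam • (1 : Matrix ι ι F)) : M.det = (-lam) ^ n := by
  have hirr := irreducible_X_sq_sub_C lam hlam
  have hmonic : (X ^ 2 - C lam : F[X]).Monic := monic_X_pow_sub_C lam (by norm_num)
  have hprod := charpoly_mul_charpoly_neg M lam hM
  have hdvd : M.charpoly ∣ (X ^ 2 - C lam : F[X]) ^ Fintype.card ι :=
    ⟨_, hprod.symm⟩
  obtain ⟨j, -, hj⟩ := (dvd_prime_pow hirr.prime _).1 hdvd
  have hpj : M.charpoly = (X ^ 2 - C lam : F[X]) ^ j :=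
    eq_of_monic_of_associated (Matrix.charpoly_monic M) (hmonic.pow j) hj
  have hdeg : M.charpoly.natDegree = Fintype.card ι := Matrix.charpoly_natDegree_eq_dim M
  rw [hpj, hmonic.natDegree_pow, natDegree_X_pow_sub_C, hcard] at hdeg
  have hjn : j = n := by omega
  rw [Matrix.det_eq_sign_charpoly_coeff, hpj, hjn, hcard, coeff_zero_eq_eval_zero, eval_pow]
  simp [pow_mul]

theorem det_of_anticommute (M N : Matrix ι ι F) (n : ℕ) (h2 : (2 : F) ≠ 0)
    (hcard : Fintype.card ι = 2 * n) (hM : M * M = 1) (hN : N.det ≠ 0)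
    (hNM : N * M = -(M * N)) : M.det = (-1) ^ n := by
  have hmonic : (X ^ 2 - C (1 : F) : F[X]).Monic := monic_X_pow_sub_C 1 (by norm_num)
  have hprod := charpoly_mul_charpoly_neg M 1 (by rw [hM, one_smul])
  -- `-M` is conjugate to `M`
  have hu : IsUnit N := (Matrix.isUnit_iff_isUnit_det N).2 (IsUnit.mk0 _ hN)
  have hconj : -M = hu.unit.val * M * hu.unit.val⁻¹ := by
    have h1 : hu.unit.val = N := rfl
    rw [h1, hNM, neg_mul, mul_assoc]
    have h3 : N * N⁻¹ = 1 := Matrix.mul_nonsing_inv N ((Matrix.isUnit_iff_isUnit_det N).1 hu)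
    rw [h3, mul_one]
  have hch : (-M).charpoly = M.charpoly := by
    rw [hconj]
    exact Matrix.charpoly_units_conj hu.unit M
  rw [hch, hcard] at hprod
  have hsq : M.charpoly * M.charpoly =
      ((X ^ 2 - C (1 : F) : F[X]) ^ n) * ((X ^ 2 - C (1 : F) : F[X]) ^ n) := by
    rw [hprod, ← pow_add]
    congr 1
    omega
  have hpm : M.charpoly = (X ^ 2 - C (1 : F) : F[X]) ^ n ∨
      M.charpoly = -((X ^ 2 - C (1 : F) : F[X]) ^ n) := mul_self_eq_mul_self_iff.1 hsq
  have hp : M.charpoly = (X ^ 2 - C (1 : F) : F[X]) ^ n := by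
    rcases hpm with h | h
    · exact h
    · exfalso
      have hl1 : M.charpoly.leadingCoeff = 1 := Matrix.charpoly_monic M
      rw [h, leadingCoeff_neg, (hmonic.pow n).leadingCoeff] at hl1
      apply h2
      have : (2 : F) = 1 - (-1) := by norm_num
      rw [this, hl1, sub_self]
  rw [Matrix.det_eq_sign_charpoly_coeff, hp, hcard, coeff_zero_eq_eval_zero, eval_pow]
  simp [pow_mul]

end Cfsg.Agent.Lib.Helper77.GMCharpoly
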