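import Mathlib
import Cfsg.Agent.Lib.Helper23.HNStmt

/-!
# S1438 / FUSH: fusion in a Hall subgroup `H` of `S` (`F ≤ S ≤ D`, `F` nilpotent normal,
`D / F` nilpotent) is controlled by `N(H)`.
Route: `A = H ⊓ F` is a Hall subgroup of `F`, normal in `F`, with complement `R` in `F`, normalized
by everything (`HallNilUniq`); `m H m⁻¹ ≤ H ⊔ F` (`HallNilUniq` in `X ⧸ F`); `HallConj` in `H ⊔ F`
gives `m = f n`, `f ∈ F`, `n ∈ N(H)`; `f = a r`, and `r` commutes with `n x n⁻¹` as `R ⊓ H = ⊥`.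
-/

set_option autoImplicit false
set_option maxHeartbeats 400000

namespace Cfsg.Agent.Lib.Helper77.HNFUSH

open Cfsg.Agent.Lib.Helper23.HNStmt

universe u

theorem main (hU : HallNilUniq.{u}) (hC : HallConj.{u}) : FusHall.{u} := by
  intro X _ _ hsolv S F D H _ hSn hFS hSD hFnil hFcop hDnil hHS hHcop x hx m hmx
  haveI := hsolv
  have hmapmem : ∀ (L : Subgroup X) (g y : X),
      y ∈ L.map (MulAut.conj g).toMonoidHom ↔ ∃ k ∈ L, g * k * g⁻¹ = y := by
    intro L g y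
    rw [Subgroup.mem_map]
    constructor
    · rintro ⟨k, hk, rfl⟩
      exact ⟨k, hk, rfl⟩
    · rintro ⟨k, hk, rfl⟩
      exact ⟨k, hk, rfl⟩
  have hcardmap : ∀ (L : Subgroup X) (g : X),
      Nat.card ↥(L.map (MulAut.conj g).toMonoidHom) = Nat.card ↥L :=
    fun L g => Subgroup.card_map_of_injective (MulAut.conj g).injective
  have hHFS : H ⊔ F ≤ S := sup_le hHS hFS
  have hd1 : H.relIndex (H ⊔ F) ∣ H.relIndex S :=
    Dvd.intro _ (Subgroup.relIndex_mul_relIndex H (H ⊔ F) S le_sup_left hHFS)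
  have hcopHF : (Nat.card ↥H).Coprime (H.relIndex (H ⊔ F)) :=
    Nat.Coprime.coprime_dvd_right hd1 hHcop
  have hrel : H.relIndex F = H.relIndex (H ⊔ F) := by
    have e1 := Subgroup.relIndex_inf_mul_relIndex H F (H ⊔ F)
    have e2 := Subgroup.relIndex_inf_mul_relIndex F H (H ⊔ F)
    rw [inf_eq_left.mpr le_sup_right] at e1
    rw [inf_eq_left.mpr le_sup_left] at e2
    rw [Subgroup.relIndex_sup_right] at e1
    rw [inf_comm F H, ← e1] at e2
    have hpos : 0 < F.relIndex H :=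
      Nat.pos_of_dvd_of_pos (Subgroup.relIndex_dvd_card F H) Nat.card_pos
    have e3 : F.relIndex H * H.relIndex (H ⊔ F) = F.relIndex H * H.relIndex F := by
      rw [e2, mul_comm]
    exact (Nat.eq_of_mul_eq_mul_left hpos e3).symm
  obtain ⟨A, hAdef⟩ : ∃ A : Subgroup X, A = H ⊓ F := ⟨_, rfl⟩
  have hAH : A ≤ H := by rw [hAdef]; exact inf_le_left
  have hAF : A ≤ F := by rw [hAdef]; exact inf_le_right
  have hArel : A.relIndex F = H.relIndex (H ⊔ F) := by
    rw [hAdef, Subgroup.inf_relIndex_right, hrel]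
  have hAcop : (Nat.card ↥A).Coprime (A.relIndex F) := by
    rw [hArel]
    exact Nat.Coprime.coprime_dvd_left (Subgroup.card_dvd_of_le hAH) hcopHF
  have hAconj : ∀ f ∈ F, A.map (MulAut.conj f).toMonoidHom = A := by
    intro f hf
    refine (hU F A (A.map (MulAut.conj f).toMonoidHom) hFnil hAF ?_ (hcardmap A f).symm
      hAcop).symm
    intro y hy
    obtain ⟨k, hk, rfl⟩ := (hmapmem A f y).mp hy
    exact F.mul_mem (F.mul_mem hf (hAF hk)) (F.inv_mem hf)
  haveI hA'n : (A.subgroupOf F).Normal := by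
    constructor
    intro k hk f
    rw [Subgroup.mem_subgroupOf] at hk ⊢
    have h1 : (f : X) * (k : X) * (f : X)⁻¹ ∈ A.map (MulAut.conj (f : X)).toMonoidHom :=
      (hmapmem A f _).mpr ⟨k, hk, rfl⟩
    rw [hAconj f f.2] at h1
    exact h1
  have hA'cop : (Nat.card ↥(A.subgroupOf F)).Coprime (A.subgroupOf F).index := by
    have h1 : Nat.card ↥(A.subgroupOf F) = Nat.card ↥A :=
      Nat.card_congr (Subgroup.subgroupOfEquivOfLe hAF).toEquiv
    rw [h1]
    exact hAcop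
  obtain ⟨K', hK'⟩ := Subgroup.exists_right_complement'_of_coprime hA'cop
  obtain ⟨R, hRdef⟩ : ∃ R : Subgroup X, R = K'.map F.subtype := ⟨_, rfl⟩
  have hRF : R ≤ F := by
    rw [hRdef]
    rintro _ ⟨k, -, rfl⟩
    exact k.2
  have hRA : R ⊓ A = ⊥ := by
    rw [eq_bot_iff]
    rintro y ⟨hyR, hyA⟩
    rw [hRdef] at hyR
    obtain ⟨k, hk, rfl⟩ := hyR
    have h1 : k ∈ A.subgroupOf F ⊓ K' := ⟨Subgroup.mem_subgroupOf.mpr hyA, hk⟩
    rw [hK'.disjoint.eq_bot, Subgroup.mem_bot] at h1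
    rw [Subgroup.mem_bot, h1]
    rfl
  have hRH : R ⊓ H = ⊥ := by
    rw [eq_bot_iff]
    rintro y ⟨hyR, hyH⟩
    have h1 : y ∈ R ⊓ A := ⟨hyR, by rw [hAdef]; exact ⟨hyH, hRF hyR⟩⟩
    rw [hRA] at h1
    exact h1
  have hdecomp : ∀ f ∈ F, ∃ a ∈ A, ∃ r ∈ R, f = a * r := by
    intro f hf
    obtain ⟨⟨a, k⟩, hak⟩ := hK'.2 (⟨f, hf⟩ : ↥F)
    refine ⟨((a : ↥F) : X), Subgroup.mem_subgroupOf.mp a.2, ((k : ↥F) : X), ?_, ?_⟩
    · rw [hRdef]
      exact ⟨(k : ↥F), k.2, rfl⟩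
    · have h1 := congrArg Subtype.val hak
      exact h1.symm
  have hRcard : Nat.card ↥R = A.relIndex F := by
    rw [hRdef, Subgroup.card_map_of_injective F.subtype_injective]
    exact hK'.symm.index_eq_card.symm
  have hRrel : R.relIndex F = Nat.card ↥A := by
    have h1 : R.subgroupOf F = K' := by
      ext k
      rw [Subgroup.mem_subgroupOf, hRdef]
      constructor
      · rintro ⟨k', hk', hkk'⟩
        have h2 : k' = k := Subtype.ext hkk'
        rw [← h2]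
        exact hk'
      · intro hk
        exact ⟨k, hk, rfl⟩
    have h2 : R.relIndex F = (R.subgroupOf F).index := rfl
    rw [h2, h1, hK'.index_eq_card]
    exact Nat.card_congr (Subgroup.subgroupOfEquivOfLe hAF).toEquiv
  have hRcop : (Nat.card ↥R).Coprime (R.relIndex F) := by
    rw [hRcard, hRrel]
    exact hAcop.symm
  have hRconj : ∀ g : X, R.map (MulAut.conj g).toMonoidHom = R := by
    intro g
    refine (hU F R (R.map (MulAut.conj g).toMonoidHom) hFnil hRF ?_ (hcardmap R g).symm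
      hRcop).symm
    intro y hy
    obtain ⟨k, hk, rfl⟩ := (hmapmem R g y).mp hy
    exact (inferInstance : F.Normal).conj_mem k (hRF hk) g
  -- `m H m⁻¹ ≤ H ⊔ F`
  have hstep6 : H.map (MulAut.conj m).toMonoidHom ≤ H ⊔ F := by
    obtain ⟨π, hπdef⟩ : ∃ π : X →* X ⧸ F, π = QuotientGroup.mk' F := ⟨_, rfl⟩
    have hSnil : Group.IsNilpotent ↥(S.map π) := by
      have hle : S.map π ≤ D.map π := Subgroup.map_mono hSD
      haveI : Group.IsNilpotent ↥(D.map π) := by rw [hπdef]; exact hDnil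
      have h1 : Group.IsNilpotent ((S.map π).subgroupOf (D.map π)) := inferInstance
      exact Group.nilpotent_of_mulEquiv (Subgroup.subgroupOfEquivOfLe hle)
    have hBS : H.map (MulAut.conj m).toMonoidHom ≤ S := by
      intro y hy
      obtain ⟨k, hk, rfl⟩ := (hmapmem H m y).mp hy
      exact hSn.conj_mem k (hHS hk) m
    have hcardq : Nat.card ↥(H.map π) =
        Nat.card ↥((H.map (MulAut.conj m).toMonoidHom).map π) := by
      have h1 : (H.map (MulAut.conj m).toMonoidHom).map π =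
          (H.map π).map (MulAut.conj (π m)).toMonoidHom := by
        rw [Subgroup.map_map, Subgroup.map_map]
        congr 1
        ext k
        simp
      rw [h1]
      exact (Subgroup.card_map_of_injective (MulAut.conj (π m)).injective).symm
    have hcopq : (Nat.card ↥(H.map π)).Coprime ((H.map π).relIndex (S.map π)) := by
      have h1 : (H.map π).relIndex (S.map π) = (H ⊔ F).relIndex S := by
        rw [Subgroup.relIndex_map_map, hπdef, QuotientGroup.ker_mk', sup_eq_left.mpr hFS]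
      rw [h1]
      have h2 : (H ⊔ F).relIndex S ∣ H.relIndex S :=
        Subgroup.relIndex_dvd_of_le_left S le_sup_left
      exact Nat.Coprime.coprime_dvd_left (Subgroup.card_map_dvd H π)
        (Nat.Coprime.coprime_dvd_right h2 hHcop)
    have heq := hU (S.map π) (H.map π) ((H.map (MulAut.conj m).toMonoidHom).map π) hSnil
      (Subgroup.map_mono hHS) (Subgroup.map_mono hBS) hcardq hcopq
    intro y hy
    have h1 : π y ∈ (H.map (MulAut.conj m).toMonoidHom).map π := Subgroup.mem_map_of_mem π hy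
    rw [← heq] at h1
    obtain ⟨h', hh', hh'y⟩ := h1
    have h2 : h'⁻¹ * y ∈ F := by
      rw [hπdef] at hh'y
      exact QuotientGroup.eq.mp hh'y
    have h3 : y = h' * (h'⁻¹ * y) := by group
    rw [h3]
    exact Subgroup.mul_mem _ (Subgroup.mem_sup_left hh') (Subgroup.mem_sup_right h2)
  obtain ⟨g, hg, hgeq⟩ := hC (H ⊔ F) H (H.map (MulAut.conj m).toMonoidHom) inferInstance
    le_sup_left hstep6 (hcardmap H m).symm hcopHF
  have hg' : g ∈ F ⊔ H := by rw [sup_comm]; exact hg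
  rw [← SetLike.mem_coe, Subgroup.normal_mul] at hg'
  obtain ⟨f, hf, h, hh, rfl⟩ := hg'
  have hf' : f ∈ F := hf
  have hh' : h ∈ H := hh
  have E1 : ∀ k ∈ H, ∃ k' ∈ H, m * k * m⁻¹ = f * k' * f⁻¹ := by
    intro k hk
    have h1 : m * k * m⁻¹ ∈ H.map (MulAut.conj m).toMonoidHom :=
      (hmapmem H m _).mpr ⟨k, hk, rfl⟩
    rw [hgeq] at h1
    obtain ⟨k', hk', hkk'⟩ := (hmapmem H (f * h) _).mp h1
    refine ⟨h * k' * h⁻¹, H.mul_mem (H.mul_mem hh' hk') (H.inv_mem hh'), ?_⟩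
    rw [← hkk']
    group
  have E2 : ∀ k ∈ H, ∃ k' ∈ H, f * k * f⁻¹ = m * k' * m⁻¹ := by
    intro k hk
    have h1 : f * k * f⁻¹ ∈ H.map (MulAut.conj (f * h)).toMonoidHom :=
      (hmapmem H (f * h) _).mpr
        ⟨h⁻¹ * k * h, H.mul_mem (H.mul_mem (H.inv_mem hh') hk) hh', by group⟩
    rw [← hgeq] at h1
    obtain ⟨k', hk', hkk'⟩ := (hmapmem H m _).mp h1
    exact ⟨k', hk', hkk'.symm⟩
  have hn : f⁻¹ * m ∈ Subgroup.normalizer (H : Set X) := by
    rw [Subgroup.mem_normalizer_iff]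
    intro k
    constructor
    · intro hk
      obtain ⟨k', hk', e⟩ := E1 k hk
      have h1 : f⁻¹ * m * k * (f⁻¹ * m)⁻¹ = f⁻¹ * (m * k * m⁻¹) * f := by group
      have h2 : f⁻¹ * (f * k' * f⁻¹) * f = k' := by group
      rw [h1, e, h2]
      exact hk'
    · intro hk
      obtain ⟨k', hk', e⟩ := E2 _ hk
      have h1 : f * (f⁻¹ * m * k * (f⁻¹ * m)⁻¹) * f⁻¹ = m * k * m⁻¹ := by group
      rw [h1] at e
      have h2 : k = m⁻¹ * (m * k * m⁻¹) * m := by group
      have h3 : m⁻¹ * (m * k' * m⁻¹) * m = k' := by group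
      rw [h2, e, h3]
      exact hk'
  obtain ⟨x', hx'def⟩ : ∃ x' : X, x' = f⁻¹ * m * x * (f⁻¹ * m)⁻¹ := ⟨_, rfl⟩
  have hx'H : x' ∈ H := by
    rw [hx'def]
    exact (Subgroup.mem_normalizer_iff.mp hn x).mp hx
  have hmx' : m * x * m⁻¹ = f * x' * f⁻¹ := by
    rw [hx'def]
    group
  obtain ⟨a, ha, r, hr, hfar⟩ := hdecomp f hf'
  have haH : a ∈ H := hAH ha
  have hrx : r * x' * r⁻¹ ∈ H := by
    have h1 : r * x' * r⁻¹ = a⁻¹ * (a * r * x' * (a * r)⁻¹) * a := by group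
    rw [h1, ← hfar, ← hmx']
    exact H.mul_mem (H.mul_mem (H.inv_mem haH) hmx) haH
  have hcomm : r * x' * r⁻¹ * x'⁻¹ = 1 := by
    have h1 : r * x' * r⁻¹ * x'⁻¹ ∈ R ⊓ H := by
      refine ⟨?_, H.mul_mem hrx (H.inv_mem hx'H)⟩
      have h2 : x' * r⁻¹ * x'⁻¹ ∈ R := by
        have h3 : x' * r⁻¹ * x'⁻¹ ∈ R.map (MulAut.conj x').toMonoidHom :=
          (hmapmem R x' _).mpr ⟨r⁻¹, R.inv_mem hr, rfl⟩
        rw [hRconj x'] at h3
        exact h3
      have h4 : r * x' * r⁻¹ * x'⁻¹ = r * (x' * r⁻¹ * x'⁻¹) := by group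
      rw [h4]
      exact R.mul_mem hr h2
    rw [hRH] at h1
    exact Subgroup.mem_bot.mp h1
  have hrx' : r * x' * r⁻¹ = x' := by
    have h1 : r * x' * r⁻¹ = (r * x' * r⁻¹ * x'⁻¹) * x' := by group
    rw [h1, hcomm, one_mul]
  refine ⟨a * (f⁻¹ * m), Subgroup.mul_mem _ (Subgroup.le_normalizer haH) hn, ?_⟩
  have h1 : a * (f⁻¹ * m) * x * (a * (f⁻¹ * m))⁻¹ = a * (f⁻¹ * m * x * (f⁻¹ * m)⁻¹) * a⁻¹ := by
    group
  rw [h1, ← hx'def, hmx', hfar]
  have h2 : a * r * x' * (a * r)⁻¹ = a * (r * x' * r⁻¹) * a⁻¹ := by group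
  rw [h2, hrx']

end Cfsg.Agent.Lib.Helper77.HNFUSH
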