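import Mathlib
import Cfsg.Agent.Lib.Helper52.KleinFusion

set_option autoImplicit false
set_option linter.unusedSectionVars false
set_option linter.unusedVariables false

/-!
Group-theoretic lemmas for Brauer's theorem on groups with a homocyclic Sylow 2-subgroup
(abelian Sylow 2-subgroup with exactly three involutions, `Helper52.KleinFusion.Omega`).
-/

namespace Cfsg.Agent.Lib.Helper77.HomoGT

open Cfsg.Agent.Lib.Helper52.KleinFusion

universe u

variable {G : Type u} [Group G] [Finite G]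

/-- The join of two odd-order subgroups, one of them normal, has odd order. -/
theorem odd_card_sup (A B : Subgroup G) [B.Normal] (hA : Odd (Nat.card A))
    (hB : Odd (Nat.card B)) : Odd (Nat.card (A ⊔ B : Subgroup G)) := by
  have h1 : Nat.card B * B.relIndex (A ⊔ B) = Nat.card (A ⊔ B : Subgroup G) := by
    have := Subgroup.relIndex_mul_relIndex ⊥ B (A ⊔ B) bot_le le_sup_right
    rwa [Subgroup.relIndex_bot_left, Subgroup.relIndex_bot_left] at this
  rw [Subgroup.relIndex_sup_right] at h1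
  rw [← h1]
  exact hB.mul (hA.of_dvd_nat (Subgroup.relIndex_dvd_card B A))

/-- A normal subgroup of a group without nontrivial normal subgroups of odd order has no
nontrivial normal subgroup of odd order either. -/
theorem oddFree_of_normal (hO : ∀ N : Subgroup G, N.Normal → Odd (Nat.card N) → N = ⊥)
    (K : Subgroup G) [K.Normal] (L : Subgroup K) (hL : L.Normal) (hodd : Odd (Nat.card L)) :
    L = ⊥ := by
  classical
  obtain ⟨A, hAS, hAmax⟩ := Set.exists_max_image {A : Subgroup K | A.Normal ∧ Odd (Nat.card A)}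
    (fun A : Subgroup K => Nat.card A) (Set.toFinite _) ⟨L, hL, hodd⟩
  have hge : ∀ B : Subgroup K, B.Normal → Odd (Nat.card B) → B ≤ A := by
    intro B hBn hBo
    haveI := hBn
    haveI := hAS.1
    have hAB : (A ⊔ B) ∈ {A : Subgroup K | A.Normal ∧ Odd (Nat.card A)} :=
      ⟨inferInstance, odd_card_sup A B hAS.2 hBo⟩
    have hle := hAmax _ hAB
    have heq : A = A ⊔ B := Subgroup.eq_of_le_of_card_ge le_sup_left hle
    rw [heq]; exact le_sup_right
  have hchar : A.Characteristic := by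
    rw [Subgroup.characteristic_iff_map_le]
    intro φ
    apply hge
    · exact Subgroup.Normal.map hAS.1 _ φ.surjective
    · rw [Subgroup.card_map_of_injective φ.injective]
      exact hAS.2
  haveI := hchar
  have hn : (A.map K.subtype).Normal := ConjAct.normal_of_characteristic_of_normal
  have hbot := hO _ hn (by
    rw [Subgroup.card_map_of_injective K.subtype_injective]; exact hAS.2)
  have hA : A = ⊥ := by
    rwa [Subgroup.map_eq_bot_iff_of_injective _ K.subtype_injective] at hbot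
  have := hge L hL hodd
  rw [hA] at this
  exact le_bot_iff.mp this

/-- Burnside: if `N(P) ≤ C(P)` and there is no nontrivial odd normal subgroup then `G = P`. -/
theorem eq_top_of_normalizer_le (hO : ∀ N : Subgroup G, N.Normal → Odd (Nat.card N) → N = ⊥)
    (P : Sylow 2 G)
    (hNC : Subgroup.normalizer (P : Set G) ≤ Subgroup.centralizer (P : Set G)) :
    (P : Subgroup G) = ⊤ := by
  haveI : Fact (Nat.Prime 2) := ⟨Nat.prime_two⟩
  have hcomp := MonoidHom.ker_transferSylow_isComplement' P hNC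
  have hker : (MonoidHom.transferSylow P hNC).ker = ⊥ := by
    apply hO _ inferInstance
    have := MonoidHom.not_dvd_card_ker_transferSylow P hNC
    rw [← Nat.not_even_iff_odd, even_iff_two_dvd]
    exact this
  rw [hker] at hcomp
  exact Subgroup.isComplement'_bot_left.mp hcomp

section transport

variable (P : Sylow 2 G) (H : Subgroup G) (hPH : (P : Subgroup G) ≤ H)

theorem mem_subtype_iff (x : H) :
    x ∈ ((P.subtype hPH : Sylow 2 H) : Subgroup H) ↔ (x : G) ∈ (P : Subgroup G) := by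
  rw [Sylow.coe_subtype, Subgroup.mem_subgroupOf]

theorem normalizer_subtype (n : H)
    (hn : n ∈ Subgroup.normalizer ((P.subtype hPH : Sylow 2 H) : Set H)) :
    (n : G) ∈ Subgroup.normalizer (P : Set G) := by
  have hn' : n ∈ Subgroup.normalizer (((P.subtype hPH : Sylow 2 H) : Subgroup H) : Set H) := hn
  replace hn := Subgroup.mem_normalizer_iff.1 hn'
  show (n : G) ∈ Subgroup.normalizer ((P : Subgroup G) : Set G)
  rw [Subgroup.mem_normalizer_iff]
  intro x
  constructor
  · intro hx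
    have h1 := (hn ⟨x, hPH hx⟩).1 ((mem_subtype_iff P H hPH _).2 hx)
    have h2 := (mem_subtype_iff P H hPH _).1 h1
    simpa using h2
  · intro hx
    have hxH : x ∈ H := by
      have h1 : (n : G) * x * (n : G)⁻¹ ∈ H := hPH hx
      have h2 : x = (n : G)⁻¹ * ((n : G) * x * (n : G)⁻¹) * (n : G) := by group
      rw [h2]; exact H.mul_mem (H.mul_mem (H.inv_mem n.2) h1) n.2
    have h1 := (hn ⟨x, hxH⟩).2 ((mem_subtype_iff P H hPH _).2 (by simpa using hx))
    exact (mem_subtype_iff P H hPH _).1 h1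

theorem le_normalizer_of_subtype_normal
    (hn : ((P.subtype hPH : Sylow 2 H) : Subgroup H).Normal) :
    H ≤ Subgroup.normalizer (P : Set G) := by
  intro g hg
  apply normalizer_subtype P H hPH ⟨g, hg⟩
  haveI := hn
  have : Subgroup.normalizer ((P.subtype hPH : Sylow 2 H) : Set H) = ⊤ :=
    Subgroup.normalizer_eq_top (H := ((P.subtype hPH : Sylow 2 H) : Subgroup H))
  rw [this]
  trivial

theorem card_subtype : Nat.card (P.subtype hPH : Sylow 2 H) = Nat.card P := by
  have : Nat.card ((P : Subgroup G).subgroupOf H) = Nat.card (P : Subgroup G) :=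
    Nat.card_congr (Subgroup.subgroupOfEquivOfLe hPH).toEquiv
  exact this

variable {P} {a b c : G}

theorem omega_subtype (h : Omega P a b c) :
    Omega (P.subtype hPH) (⟨a, hPH h.ha⟩ : H) ⟨b, hPH h.hb⟩ ⟨c, hPH h.hc⟩ := by
  refine ⟨?_, ?_, ?_, ?_, ?_, ?_, ?_, ?_, ?_, ?_, ?_⟩
  · intro x hx y hy
    exact Subtype.ext (h.comm _ ((mem_subtype_iff P H hPH x).1 hx) _
      ((mem_subtype_iff P H hPH y).1 hy))
  · exact (mem_subtype_iff P H hPH _).2 h.ha
  · exact (mem_subtype_iff P H hPH _).2 h.hb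
  · exact (mem_subtype_iff P H hPH _).2 h.hc
  · rw [← Subgroup.orderOf_coe]; exact h.oa
  · rw [← Subgroup.orderOf_coe]; exact h.ob
  · rw [← Subgroup.orderOf_coe]; exact h.oc
  · intro hh; exact h.hab (congrArg Subtype.val hh)
  · intro hh; exact h.hac (congrArg Subtype.val hh)
  · intro hh; exact h.hbc (congrArg Subtype.val hh)
  · intro x hx ox
    rcases h.all _ ((mem_subtype_iff P H hPH x).1 hx)
      (by rw [Subgroup.orderOf_coe]; exact ox) with e | e | e
    · exact Or.inl (Subtype.ext e)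
    · exact Or.inr (Or.inl (Subtype.ext e))
    · exact Or.inr (Or.inr (Subtype.ext e))

end transport

variable {P : Sylow 2 G} {a b c : G}

/-- The orbit of `a` under an element of the normalizer moving it. -/
theorem orbit_facts (h : Omega P a b c) (n₀ : G) (hn₀ : n₀ ∈ Subgroup.normalizer (P : Set G))
    (hmove : n₀ * a * n₀⁻¹ ≠ a) :
    ∃ b' c' : G, n₀ * a * n₀⁻¹ = b' ∧ n₀ * b' * n₀⁻¹ = c' ∧ n₀ * c' * n₀⁻¹ = a ∧
      ∀ x ∈ (P : Subgroup G), orderOf x = 2 → x = a ∨ x = b' ∨ x = c' := by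
  have key : ∀ b' c' : G, b' ∈ (P : Subgroup G) → c' ∈ (P : Subgroup G) → orderOf c' = 2 →
      a ≠ c' → b' ≠ c' →
      (∀ x ∈ (P : Subgroup G), orderOf x = 2 → x = a ∨ x = b' ∨ x = c') →
      n₀ * a * n₀⁻¹ = b' → n₀ * b' * n₀⁻¹ = c' → n₀ * c' * n₀⁻¹ = a := by
    intro b' c' hb' hc' oc' hac' hbc' hall e1 e2
    rcases hall _ (conj_mem_of_mem_normalizer P n₀ c' hn₀ hc') (by rw [orderOf_conj', oc'])
      with e | e | e
    · exact e
    · exact absurd (conj_inj n₀ _ _ (e1.trans e.symm)) hac'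
    · exact absurd (conj_inj n₀ _ _ (e2.trans e.symm)) hbc'
  rcases perm_of_move h n₀ hn₀ hmove with ⟨k1, k2⟩ | ⟨k1, k2⟩
  · exact ⟨b, c, k1, k2, key b c h.hb h.hc h.oc h.hac h.hbc h.all k1 k2, h.all⟩
  · refine ⟨c, b, k1, k2, key c b h.hc h.hb h.ob h.hab (Ne.symm h.hbc) ?_ k1 k2, ?_⟩
    · intro x hx ox
      rcases h.all x hx ox with e | e | e
      · exact Or.inl e
      · exact Or.inr (Or.inr e)
      · exact Or.inr (Or.inl e)
    · intro x hx ox
      rcases h.all x hx ox with e | e | e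
      · exact Or.inl e
      · exact Or.inr (Or.inr e)
      · exact Or.inr (Or.inl e)

/-- The cube of an element of the normalizer centralizes `P`. -/
theorem cube_mem (h : Omega P a b c) (n₀ : G) (hn₀ : n₀ ∈ Subgroup.normalizer (P : Set G)) :
    n₀ * n₀ * n₀ ∈ Subgroup.centralizer (P : Set G) := by
  have hn3 : n₀ * n₀ * n₀ ∈ Subgroup.normalizer (P : Set G) :=
    Subgroup.mul_mem _ (Subgroup.mul_mem _ hn₀ hn₀) hn₀
  by_cases hmove : n₀ * a * n₀⁻¹ = a
  · apply centralize h _ hn3 a h.ha h.oa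
    calc n₀ * n₀ * n₀ * a * (n₀ * n₀ * n₀)⁻¹
        = n₀ * (n₀ * (n₀ * a * n₀⁻¹) * n₀⁻¹) * n₀⁻¹ := by group
      _ = a := by rw [hmove, hmove, hmove]
  · obtain ⟨b', c', e1, e2, e3, -⟩ := orbit_facts h n₀ hn₀ hmove
    apply centralize h _ hn3 a h.ha h.oa
    calc n₀ * n₀ * n₀ * a * (n₀ * n₀ * n₀)⁻¹
        = n₀ * (n₀ * (n₀ * a * n₀⁻¹) * n₀⁻¹) * n₀⁻¹ := by group
      _ = a := by rw [e1, e2, e3]

/-- Coset decomposition of the normalizer modulo the centralizer. -/
theorem decomp (h : Omega P a b c) (n₀ : G) (hn₀ : n₀ ∈ Subgroup.normalizer (P : Set G))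
    (hmove : n₀ * a * n₀⁻¹ ≠ a) (n : G) (hn : n ∈ Subgroup.normalizer (P : Set G)) :
    n ∈ Subgroup.centralizer (P : Set G) ∨ n₀⁻¹ * n ∈ Subgroup.centralizer (P : Set G) ∨
      (n₀ * n₀)⁻¹ * n ∈ Subgroup.centralizer (P : Set G) := by
  obtain ⟨b', c', e1, e2, e3, hall⟩ := orbit_facts h n₀ hn₀ hmove
  rcases hall _ (conj_mem_of_mem_normalizer P n a hn h.ha) (by rw [orderOf_conj', h.oa])
    with e | e | e
  · exact Or.inl (centralize h n hn a h.ha h.oa e)
  · right; left
    apply centralize h _ (Subgroup.mul_mem _ (Subgroup.inv_mem _ hn₀) hn) a h.ha h.oa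
    calc n₀⁻¹ * n * a * (n₀⁻¹ * n)⁻¹ = n₀⁻¹ * (n * a * n⁻¹) * n₀ := by group
      _ = n₀⁻¹ * (n₀ * a * n₀⁻¹) * n₀ := by rw [e, e1]
      _ = a := by group
  · right; right
    apply centralize h _ (Subgroup.mul_mem _ (Subgroup.inv_mem _ (Subgroup.mul_mem _ hn₀ hn₀)) hn)
      a h.ha h.oa
    calc (n₀ * n₀)⁻¹ * n * a * ((n₀ * n₀)⁻¹ * n)⁻¹
        = (n₀ * n₀)⁻¹ * (n * a * n⁻¹) * (n₀ * n₀) := by
          simp only [mul_inv_rev, inv_inv, mul_assoc]
      _ = (n₀ * n₀)⁻¹ * (n₀ * (n₀ * a * n₀⁻¹) * n₀⁻¹) * (n₀ * n₀) := by rw [e, ← e2, ← e1]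
      _ = a := by
          simp only [mul_inv_rev, mul_assoc, inv_mul_cancel_left, inv_mul_cancel, mul_one]

/-- The normalizer is generated by the centralizer and `n₀`. -/
theorem sup_zpowers (h : Omega P a b c) (n₀ : G) (hn₀ : n₀ ∈ Subgroup.normalizer (P : Set G))
    (hmove : n₀ * a * n₀⁻¹ ≠ a) :
    Subgroup.centralizer (P : Set G) ⊔ Subgroup.zpowers n₀ = Subgroup.normalizer (P : Set G) := by
  apply le_antisymm
  · exact sup_le (Subgroup.centralizer_le_normalizer _) (by
      rw [Subgroup.zpowers_le]; exact hn₀)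
  · intro n hn
    have h0 : n₀ ∈ Subgroup.centralizer (P : Set G) ⊔ Subgroup.zpowers n₀ :=
      Subgroup.mem_sup_right (Subgroup.mem_zpowers n₀)
    rcases decomp h n₀ hn₀ hmove n hn with e | e | e
    · exact Subgroup.mem_sup_left e
    · have : n = n₀ * (n₀⁻¹ * n) := by group
      rw [this]
      exact Subgroup.mul_mem _ h0 (Subgroup.mem_sup_left e)
    · have : n = n₀ * n₀ * ((n₀ * n₀)⁻¹ * n) := by group
      rw [this]
      exact Subgroup.mul_mem _ (Subgroup.mul_mem _ h0 h0) (Subgroup.mem_sup_left e)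

end Cfsg.Agent.Lib.Helper77.HomoGT
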