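import Mathlib
import Cfsg.Agent.S4721
import Cfsg.Agent.Lib.Helper77.HomoGT
import Cfsg.Agent.Lib.Helper75.NumMinMax

set_option autoImplicit false
set_option linter.unusedSectionVars false
set_option linter.unusedVariables false

/-!
Character-theoretic step for Brauer's theorem on groups with a homocyclic Sylow 2-subgroup:
if the normalizer of an abelian Sylow 2-subgroup `P` with three involutions and `8 ∣ |P|`
acts nontrivially, then every involution lies in a proper normal subgroup.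
-/

namespace Cfsg.Agent.Lib.Helper77.HomoChar

open Cfsg Cfsg.Agent.Lib.Helper52.KleinFusion Cfsg.Agent.Lib.Helper77.HomoGT
open Cfsg.Agent.Lib.CT.Wedderburn

universe u

/-- There is a maximal ideal of the algebraic integers containing `2`. -/
theorem exists_isPModular_two : ∃ M : Ideal AlgInt, IsPModular 2 M := by
  have hne : Ideal.span {(2 : AlgInt)} ≠ ⊤ := by
    intro h
    rw [Ideal.span_singleton_eq_top] at h
    obtain ⟨v, hv⟩ := h.exists_right_inv
    have h2 : (2 : ℂ) * (v : ℂ) = 1 := by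
      have h3 : ((2 : AlgInt) : ℂ) * (v : ℂ) = 1 := congrArg (Subtype.val) hv
      have e2 : ((2 : AlgInt) : ℂ) = 2 := rfl
      rw [e2] at h3
      exact h3
    have hint : IsIntegral ℤ (v : ℂ) := v.2
    have hv' : (v : ℂ) = ((1 : ℕ) : ℂ) / ((2 : ℕ) : ℂ) := by
      push_cast
      rw [eq_div_iff (by norm_num)]
      linear_combination h2
    rw [hv'] at hint
    have := Cfsg.Agent.Lib.Helper80.Integrality.dvd_of_isIntegral_div (a := 1) (b := 2)
      (by norm_num) hint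
    omega
  obtain ⟨M, hM, hle⟩ := Ideal.exists_le_maximal _ hne
  refine ⟨M, Nat.prime_two, hM, ?_⟩
  have := hle (Ideal.subset_span (Set.mem_singleton _))
  simpa using this

/-- A rational number `k / n` which is an algebraic integer is an integer. -/
theorem int_dvd_of_isIntegral {k : ℤ} {n : ℕ} (hn : n ≠ 0) {t : ℂ} (ht : IsIntegral ℤ t)
    (h : (k : ℂ) = (n : ℂ) * t) : (n : ℤ) ∣ k := by
  have hn' : (n : ℂ) ≠ 0 := Nat.cast_ne_zero.mpr hn
  have ht' : t = (((k : ℚ) / (n : ℚ) : ℚ) : ℂ) := by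
    push_cast
    rw [eq_div_iff hn', mul_comm]; exact h.symm
  have h1 : IsIntegral ℤ ((k : ℚ) / (n : ℚ)) := by
    rw [← isIntegral_algebraMap_iff (algebraMap ℚ ℂ).injective]
    rw [ht'] at ht
    simpa using ht
  obtain ⟨y, hy⟩ := IsIntegrallyClosed.isIntegral_iff.1 h1
  have hnq : (n : ℚ) ≠ 0 := Nat.cast_ne_zero.mpr hn
  have h2 : (k : ℚ) = (y : ℚ) * (n : ℚ) := by
    have : (algebraMap ℤ ℚ y) = (y : ℚ) := rfl
    rw [this] at hy
    rw [hy]; field_simp
  have h3 : k = y * (n : ℤ) := by exact_mod_cast h2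
  exact ⟨y, by rw [h3]; ring⟩

/-- Degree congruence: the degree of a character plus the sum of its values over the
non-identity elements of a subgroup is divisible by the order of the subgroup. -/
theorem deg_cong {G : Type u} [Group G] [Finite G] (P : Subgroup G) {θ : G → ℂ}
    (hθ : IsCharacter G θ) (z : ℤ) [Fintype P] [DecidableEq P]
    (hsum : ∑ w ∈ (Finset.univ : Finset P).erase 1, θ (w : G) = (z : ℂ)) :
    (Nat.card P : ℤ) ∣ (charDegree θ : ℤ) + z := by
  obtain ⟨t, ht, hsumt⟩ := Cfsg.Agent.Lib.Helper75.NumMinMax.char_sum_mul_subgroup hθ P 1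
    (orderOf_pos 1) (by simp)
  have h1 : ∑ w : P, θ (1 * (w : G)) = θ 1 + z := by
    rw [← hsum, ← Finset.add_sum_erase _ _ (Finset.mem_univ (1 : P))]
    simp
  rw [h1, ← char_natCast_charDegree hθ] at hsumt
  apply int_dvd_of_isIntegral Nat.card_pos.ne' ht
  rw [← hsumt]
  push_cast
  ring

/-- The sum of a nontrivial linear character over the non-identity elements is `-1`. -/
theorem sum_hom_erase {W : Type*} [Group W] [Fintype W] [DecidableEq W] (ψ : W →* ℂˣ)
    (hψ : ψ ≠ 1) : ∑ w ∈ (Finset.univ : Finset W).erase 1, ((ψ w : ℂˣ) : ℂ) = -1 := by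
  have h1 := Cfsg.Agent.S1504.orth ψ 1
  rw [if_neg hψ] at h1
  have h2 : ∑ w : W, ((ψ w : ℂˣ) : ℂ) = 0 := by
    rw [← h1]
    refine Finset.sum_congr rfl fun w _ => ?_
    simp
  rw [Finset.sum_erase_eq_sub (Finset.mem_univ _), h2, map_one]
  simp

/-- The normalizer orbit of a nontrivial linear character of `P` has between one and three
elements, none of them trivial. -/
theorem orbit_props {G : Type u} [Group G] [Finite G] {P : Sylow 2 G} {a b c : G}
    (h : Cfsg.Agent.Lib.Helper52.KleinFusion.Omega P a b c) (n₀ : G)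
    (hn₀ : n₀ ∈ Subgroup.normalizer (P : Set G))
    (hmove : n₀ * a * n₀⁻¹ ≠ a) (ψ : ↥(P : Subgroup G) →* ℂˣ) (hψ : ψ ≠ 1)
    (S : Set (↥(P : Subgroup G) →* ℂˣ))
    (hS : S = {ψ' : ↥(P : Subgroup G) →* ℂˣ | ∃ n : G,
      n ∈ Subgroup.normalizer ((P : Subgroup G) : Set G) ∧
        ∀ w w' : ↥(P : Subgroup G), (w' : G) = n * w * n⁻¹ → ψ' w' = ψ w}) :
    S.Finite ∧ 1 ≤ S.ncard ∧ S.ncard ≤ 3 ∧ ∀ ψ' ∈ S, ψ' ≠ 1 := by
  obtain ⟨T, hT⟩ : ∃ T : G → Set (↥(P : Subgroup G) →* ℂˣ), T = fun m =>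
      {ψ' | ∀ w w' : ↥(P : Subgroup G), (w' : G) = m * w * m⁻¹ → ψ' w' = ψ w} := ⟨_, rfl⟩
  have hTsub : ∀ m ∈ Subgroup.normalizer (P : Set G), (T m).Subsingleton := by
    intro m hm ψ₁ h₁ ψ₂ h₂
    rw [hT] at h₁ h₂
    refine MonoidHom.ext fun w' => ?_
    have hmem : m⁻¹ * (w' : G) * m ∈ (P : Subgroup G) := by
      have := conj_mem_of_mem_normalizer P m⁻¹ (w' : G) (Subgroup.inv_mem _ hm) w'.2
      simpa using this
    have e : (w' : G) = m * ((⟨m⁻¹ * (w' : G) * m, hmem⟩ : ↥(P : Subgroup G)) : G) * m⁻¹ := by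
      show (w' : G) = m * (m⁻¹ * (w' : G) * m) * m⁻¹
      group
    rw [h₁ _ w' e, h₂ _ w' e]
  have hsub : S ⊆ T 1 ∪ T n₀ ∪ T (n₀ * n₀) := by
    rw [hS]
    rintro ψ' ⟨n, hn, hψ'⟩
    have hgen : ∀ m : G, m⁻¹ * n ∈ Subgroup.centralizer (P : Set G) → ψ' ∈ T m := by
      intro m e
      rw [hT]
      intro w w' hw'
      apply hψ' w w'
      rw [hw']
      have hc := Subgroup.mem_centralizer_iff.1 e (w : G) w.2
      calc m * (w : G) * m⁻¹ = m * ((w : G) * (m⁻¹ * n)) * (m⁻¹ * n)⁻¹ * m⁻¹ := by group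
        _ = m * (m⁻¹ * n * (w : G)) * (m⁻¹ * n)⁻¹ * m⁻¹ := by rw [hc]
        _ = n * (w : G) * n⁻¹ := by group
    rcases decomp h n₀ hn₀ hmove n hn with e | e | e
    · left; left
      exact hgen 1 (by simpa using e)
    · left; right
      exact hgen n₀ e
    · right
      exact hgen (n₀ * n₀) e
  have hfinT : (T 1 ∪ T n₀ ∪ T (n₀ * n₀)).Finite :=
    ((hTsub 1 (one_mem _)).finite.union (hTsub n₀ hn₀).finite).union
      (hTsub _ (mul_mem hn₀ hn₀)).finite
  have hSfin : S.Finite := hfinT.subset hsub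
  have hle1 : ∀ m ∈ Subgroup.normalizer (P : Set G), (T m).ncard ≤ 1 := by
    intro m hm
    rw [Set.ncard_le_one (hTsub m hm).finite]
    intro x hx y hy
    exact hTsub m hm hx hy
  refine ⟨hSfin, ?_, ?_, ?_⟩
  · have : 0 < S.ncard := by
      rw [Set.ncard_pos hSfin, hS]
      refine ⟨ψ, 1, one_mem _, ?_⟩
      intro w w' hw'
      have : w' = w := Subtype.ext (by simpa using hw')
      rw [this]
    exact this
  · calc S.ncard ≤ (T 1 ∪ T n₀ ∪ T (n₀ * n₀)).ncard := Set.ncard_le_ncard hsub hfinT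
      _ ≤ (T 1 ∪ T n₀).ncard + (T (n₀ * n₀)).ncard := Set.ncard_union_le _ _
      _ ≤ (T 1).ncard + (T n₀).ncard + (T (n₀ * n₀)).ncard :=
          Nat.add_le_add_right (Set.ncard_union_le _ _) _
      _ ≤ 1 + 1 + 1 := Nat.add_le_add (Nat.add_le_add (hle1 1 (one_mem _)) (hle1 n₀ hn₀))
          (hle1 _ (mul_mem hn₀ hn₀))
  · rw [hS]
    rintro ψ' ⟨n, hn, hψ'⟩ h1
    apply hψ
    refine MonoidHom.ext fun w => ?_
    have := hψ' w ⟨n * (w : G) * n⁻¹, conj_mem_of_mem_normalizer P n (w : G) hn w.2⟩ rfl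
    rw [h1] at this
    simpa using this.symm

end Cfsg.Agent.Lib.Helper77.HomoChar
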