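import Mathlib
import Cfsg.Agent.Lib.Helper77.HomoChar

set_option autoImplicit false
set_option linter.unusedSectionVars false
set_option linter.unusedVariables false

/-!
Character-theoretic step for Brauer's theorem on groups with a homocyclic Sylow 2-subgroup:
if the normalizer of an abelian Sylow 2-subgroup `P` with three involutions and `8 ∣ |P|`
acts nontrivially, then every involution lies in a proper normal subgroup.
-/

namespace Cfsg.Agent.Lib.Helper77.HomoChar2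

open Cfsg Cfsg.Agent.Lib.Helper52.KleinFusion Cfsg.Agent.Lib.Helper77.HomoGT
open Cfsg.Agent.Lib.Helper77.HomoChar Cfsg.Agent.Lib.CT.Wedderburn

universe u

theorem no_square : ∀ r : ZMod 8, r * r ≠ -1 ∧ r * r ≠ -2 ∧ r * r ≠ -3 := by decide

set_option maxHeartbeats 1000000 in
/-- If the normalizer of `P` acts nontrivially, every involution lies in a proper normal
subgroup. -/
theorem char_step {G : Type u} [Group G] [Finite G] (P : Sylow 2 G) (a b c : G)
    (h : Cfsg.Agent.Lib.Helper52.KleinFusion.Omega P a b c) (h8 : 8 ∣ Nat.card P) (n₀ : G)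
    (hn₀ : n₀ ∈ Subgroup.normalizer (P : Set G)) (hmove : n₀ * a * n₀⁻¹ ≠ a) (t : G)
    (ht : orderOf t = 2) : ∃ K : Subgroup G, K.Normal ∧ t ∈ K ∧ K ≠ ⊤ := by
  classical
  by_contra hcon
  have hcon' : ∀ K : Subgroup G, K.Normal → t ∈ K → K = ⊤ := by
    intro K hK htK
    by_contra hne
    exact hcon ⟨K, hK, htK, hne⟩
  haveI : Fact (Nat.Prime 2) := ⟨Nat.prime_two⟩
  haveI : Fintype ↥(P : Subgroup G) := Fintype.ofFinite _
  haveI := finite_irrCharacter G
  haveI : Fintype (IrrCharacter G) := Fintype.ofFinite _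
  obtain ⟨M, hM⟩ := exists_isPModular_two
  have hab : IsMulCommutative P := ⟨⟨fun x y => Subtype.ext (h.comm x x.2 y y.2)⟩⟩
  have h8' : 8 ∣ Nat.card (P : Subgroup G) := h8
  have hcard8 : 8 ≤ Nat.card (P : Subgroup G) := Nat.le_of_dvd Nat.card_pos h8'
  obtain ⟨X, Y, hXY, hdisj, hX3, hYc, ⟨χ₁, hχ₁X, hχ₁⟩, av, δ, ζ, hδ, hXv, hζY, hYs, hζc, hζv,
      hfin⟩ :=
    Cfsg.Agent.S4721.result 2 M hM P hab (by
        have : Nat.card P = Nat.card (P : Subgroup G) := rfl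
        omega) (relIndex_eq_three h n₀ hn₀ hmove)
      ⟨n₀, hn₀, sup_zpowers h n₀ hn₀ hmove⟩ (by
        have : Nat.card P = Nat.card (P : Subgroup G) := rfl
        omega)
      (fun y hy hy1 => centralizer_inf_normalizer h y hy hy1)
  obtain ⟨hcount, hsq⟩ := hfin ⟨t, ht, hcon'⟩
  -- p-parts
  have hpp : ∀ w : ↥(P : Subgroup G), IsPPart 2 (w : G) (w : G) := by
    intro w
    refine ⟨1, mul_one _, Commute.one_right _, ?_, by simp⟩
    obtain ⟨j, hj⟩ := P.2 w
    have hj' : (w : G) ^ (2 ^ j) = 1 := by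
      have := congrArg Subtype.val hj
      simpa using this
    obtain ⟨k, -, hk⟩ := (Nat.dvd_prime_pow Nat.prime_two).1 (orderOf_dvd_of_pow_eq_one hj')
    exact ⟨k, hk⟩
  have h8z : (8 : ℤ) ∣ (Nat.card (P : Subgroup G) : ℤ) := by exact_mod_cast h8'
  -- degrees of members of X
  have hdegX : ∀ χ ∈ X, ((charDegree (χ : G → ℂ) : ℕ) : ZMod 8) = ((av χ : ℤ) : ZMod 8) := by
    intro χ hχ
    have hχc := isCharacter_of_irr χ.2
    have hsum : ∑ w ∈ (Finset.univ : Finset ↥(P : Subgroup G)).erase 1, (χ : G → ℂ) (w : G) =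
        ((((Nat.card (P : Subgroup G) : ℤ) - 1) * av χ : ℤ) : ℂ) := by
      have e0 : ∀ w ∈ (Finset.univ : Finset ↥(P : Subgroup G)).erase 1,
          (χ : G → ℂ) (w : G) = (av χ : ℂ) := fun w hw =>
        (hXv χ hχ).2 (w : G) (w : G) (hpp w) w.2
          (fun h1 => (Finset.ne_of_mem_erase hw) (Subtype.ext h1))
      rw [Finset.sum_congr rfl e0]
      rw [Finset.sum_const, Finset.card_erase_of_mem (Finset.mem_univ _), Finset.card_univ,
        ← Nat.card_eq_fintype_card, nsmul_eq_mul, Nat.cast_sub (by omega)]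
      push_cast
      ring
    have hdvd := deg_cong (P : Subgroup G) hχc _ hsum
    have h1 : (8 : ℤ) ∣ (charDegree (χ : G → ℂ) : ℤ) - av χ := by
      have h2 : (charDegree (χ : G → ℂ) : ℤ) - av χ =
          ((charDegree (χ : G → ℂ) : ℤ) + ((Nat.card (P : Subgroup G) : ℤ) - 1) * av χ) -
            (Nat.card (P : Subgroup G) : ℤ) * av χ := by ring
      rw [h2]
      exact dvd_sub (h8z.trans hdvd) (Dvd.dvd.mul_right h8z _)
    have h3 := (ZMod.intCast_zmod_eq_zero_iff_dvd ((charDegree (χ : G → ℂ) : ℤ) - av χ) 8).2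
      (by exact_mod_cast h1)
    push_cast at h3
    exact sub_eq_zero.mp h3
  -- a member of Y
  have hYne : Nonempty Y := by
    have hne : Nat.card Y ≠ 0 := by
      rw [hYc]
      have : Nat.card P = Nat.card (P : Subgroup G) := rfl
      omega
    exact (Nat.card_ne_zero.mp hne).1
  obtain ⟨⟨η, hη⟩⟩ := hYne
  obtain ⟨ψ, hψ, hζψ⟩ := hYs η hη
  obtain ⟨S, hSdef⟩ : ∃ S : Set (↥(P : Subgroup G) →* ℂˣ), S =
      {ψ' : ↥(P : Subgroup G) →* ℂˣ | ∃ n : G,
        n ∈ Subgroup.normalizer ((P : Subgroup G) : Set G) ∧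
          ∀ w w' : ↥(P : Subgroup G), (w' : G) = n * w * n⁻¹ → ψ' w' = ψ w} := ⟨_, rfl⟩
  obtain ⟨hSfin, hS1, hS3, hSne⟩ := orbit_props h n₀ hn₀ hmove ψ hψ S hSdef
  have hdegη : ((charDegree (η : G → ℂ) : ℕ) : ZMod 8) =
      ((δ : ℤ) : ZMod 8) * ((S.ncard : ℕ) : ZMod 8) := by
    have hηc := isCharacter_of_irr η.2
    have hsum : ∑ w ∈ (Finset.univ : Finset ↥(P : Subgroup G)).erase 1, (η : G → ℂ) (w : G) =
        ((-(δ * (S.ncard : ℤ)) : ℤ) : ℂ) := by
      have e1 : ∀ w ∈ (Finset.univ : Finset ↥(P : Subgroup G)).erase 1,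
          (η : G → ℂ) (w : G) = (δ : ℂ) * ∑ ψ' ∈ hSfin.toFinset, ((ψ' w : ℂˣ) : ℂ) := by
        intro w hw
        rw [← hζψ, hζv ψ hψ (w : G) w (hpp w)
          (fun h1 => (Finset.ne_of_mem_erase hw) (Subtype.ext h1)), ← hSdef,
          finsum_mem_eq_finite_toFinset_sum _ hSfin]
      rw [Finset.sum_congr rfl e1, ← Finset.mul_sum, Finset.sum_comm]
      have e2 : ∀ ψ' ∈ hSfin.toFinset,
          ∑ w ∈ (Finset.univ : Finset ↥(P : Subgroup G)).erase 1, ((ψ' w : ℂˣ) : ℂ) = -1 :=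
        fun ψ' hψ' => sum_hom_erase ψ' (hSne ψ' ((Set.Finite.mem_toFinset hSfin).1 hψ'))
      rw [Finset.sum_congr rfl e2]
      rw [Finset.sum_const, Set.ncard_eq_toFinset_card S hSfin]
      push_cast
      simp
    have hdvd := deg_cong (P : Subgroup G) hηc _ hsum
    have h1 : (8 : ℤ) ∣ (charDegree (η : G → ℂ) : ℤ) - δ * (S.ncard : ℤ) := by
      have h2 : (charDegree (η : G → ℂ) : ℤ) - δ * (S.ncard : ℤ) =
          (charDegree (η : G → ℂ) : ℤ) + -(δ * (S.ncard : ℤ)) := by ring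
      rw [h2]
      exact h8z.trans hdvd
    have h3 := (ZMod.intCast_zmod_eq_zero_iff_dvd
      ((charDegree (η : G → ℂ) : ℤ) - δ * (S.ncard : ℤ)) 8).2 (by exact_mod_cast h1)
    push_cast at h3
    exact sub_eq_zero.mp h3
  -- the count and the product
  obtain ⟨k, hk2, hk⟩ : ∃ k : ℕ, k + (if δ = 1 then 1 else 0) = 2 ∧ _ = k := ⟨_, hcount, rfl⟩
  have hsqη := hsq η hη
  obtain ⟨D, hDsq, hD⟩ : ∃ D : ℕ, IsSquare (charDegree (η : G → ℂ) * D) ∧
      D = ∏ᶠ χ ∈ {χ : IrrCharacter G | χ ∈ X ∧ (χ : G → ℂ) ≠ fun _ => 1},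
        charDegree (χ : G → ℂ) := ⟨_, hsqη, rfl⟩
  have hX'fin : {χ : IrrCharacter G | χ ∈ X ∧ (χ : G → ℂ) ≠ fun _ => 1}.Finite := Set.toFinite _
  have hprod : ((D : ℕ) : ZMod 8) = (-1) ^ k := by
    rw [hD, finprod_mem_eq_finite_toFinset_prod _ hX'fin, Nat.cast_prod]
    have e1 : ∀ χ ∈ hX'fin.toFinset, ((charDegree (χ : G → ℂ) : ℕ) : ZMod 8) =
        if av χ = -1 then (-1 : ZMod 8) else 1 := by
      intro χ hχ
      have hχX : χ ∈ X := ((Set.Finite.mem_toFinset hX'fin).1 hχ).1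
      rw [hdegX χ hχX]
      rcases (hXv χ hχX).1 with e | e
      · rw [e]; simp
      · rw [e]; simp
    rw [Finset.prod_congr rfl e1, Finset.prod_ite, Finset.prod_const, Finset.prod_const_one,
      mul_one, ← hk]
    congr 1
    rw [Nat.card_eq_fintype_card]
    symm
    apply Fintype.card_of_subtype
    intro χ
    rw [Finset.mem_filter, Set.Finite.mem_toFinset]
    exact ⟨fun ⟨⟨h1, h2⟩, h3⟩ => ⟨h1, h2, h3⟩, fun ⟨h1, h2, h3⟩ => ⟨⟨h1, h2⟩, h3⟩⟩
  obtain ⟨r, hr⟩ := hDsq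
  have hr8 : ((charDegree (η : G → ℂ) : ℕ) : ZMod 8) * ((D : ℕ) : ZMod 8) =
      (r : ZMod 8) * (r : ZMod 8) := by
    rw [← Nat.cast_mul, ← Nat.cast_mul, hr]
  rw [hdegη, hprod] at hr8
  obtain ⟨s, hs⟩ : ∃ s : ℕ, S.ncard = s := ⟨_, rfl⟩
  rw [hs] at hS1 hS3 hr8
  have hfinal : (r : ZMod 8) * (r : ZMod 8) = -((s : ℕ) : ZMod 8) := by
    rw [← hr8]
    rcases hδ with hd | hd
    · have hk1 : k = 1 := by
        rw [hd] at hk2
        simpa using hk2
      rw [hd, hk1]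
      push_cast
      ring
    · have hk1 : k = 2 := by
        rw [hd] at hk2
        simpa using hk2
      rw [hd, hk1]
      push_cast
      ring
  have hns := no_square (r : ZMod 8)
  interval_cases s
  · exact hns.1 (by simpa using hfinal)
  · exact hns.2.1 (by simpa using hfinal)
  · exact hns.2.2 (by simpa using hfinal)

end Cfsg.Agent.Lib.Helper77.HomoChar2
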