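import Mathlib
import Cfsg.Agent.Lib.Helper77.HomoGT

set_option autoImplicit false
set_option linter.unusedSectionVars false
set_option linter.unusedVariables false

/-!
Group-theoretic lemmas for Brauer's theorem on groups with a homocyclic Sylow 2-subgroup, II.
-/

namespace Cfsg.Agent.Lib.Helper77.HomoGT2

open Cfsg.Agent.Lib.Helper52.KleinFusion Cfsg.Agent.Lib.Helper77.HomoGT

universe u

variable {G : Type u} [Group G] [Finite G] {P : Sylow 2 G} {a b c : G}

/-- If an element of the normalizer acts nontrivially, then `P K ≠ G` for a proper normal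
subgroup `K`. -/
theorem sup_ne_top (h : Omega P a b c) (n₀ : G) (hn₀ : n₀ ∈ Subgroup.normalizer (P : Set G))
    (hmove : n₀ * a * n₀⁻¹ ≠ a) (K : Subgroup G) [K.Normal] (hK : K ≠ ⊤) :
    (P : Subgroup G) ⊔ K ≠ ⊤ := by
  intro htop
  have hPK : ¬ (P : Subgroup G) ≤ K := fun hle => hK (by
    rw [← htop]; exact (sup_eq_right.mpr hle).symm)
  obtain ⟨x, hxP, hxK⟩ := SetLike.not_le_iff_exists.mp hPK
  have hn₀mem : n₀ ∈ ((P : Subgroup G) ⊔ K : Subgroup G) := by rw [htop]; trivial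
  rw [← SetLike.mem_coe, Subgroup.mul_normal] at hn₀mem
  obtain ⟨p, hp, k, hk, hpk⟩ := Set.mem_mul.mp hn₀mem
  have hk1 : (QuotientGroup.mk' K) k = 1 := (QuotientGroup.eq_one_iff k).mpr hk
  -- conjugation by `n₀` is trivial modulo `K` on `P`
  have hπ : ∀ z ∈ (P : Subgroup G), (QuotientGroup.mk' K) (n₀ * z * n₀⁻¹) = (QuotientGroup.mk' K) z := by
    intro z hz
    have e1 : (QuotientGroup.mk' K) (n₀ * z * n₀⁻¹) = (QuotientGroup.mk' K) (p * z * p⁻¹) := by
      rw [← hpk]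
      simp only [map_mul, map_inv, hk1, mul_one]
    rw [e1, h.comm p hp z hz, mul_assoc, mul_inv_cancel, mul_one]
  have hx' : n₀ * x * n₀⁻¹ ∈ (P : Subgroup G) := conj_mem_of_mem_normalizer P n₀ x hn₀ hxP
  have hx'' : n₀ * (n₀ * x * n₀⁻¹) * n₀⁻¹ ∈ (P : Subgroup G) :=
    conj_mem_of_mem_normalizer P n₀ _ hn₀ hx'
  have h3 : n₀ * (n₀ * (n₀ * x * n₀⁻¹) * n₀⁻¹) * n₀⁻¹ = x := by
    have hc := cube_mem h n₀ hn₀
    have hc' := Subgroup.mem_centralizer_iff.1 hc x hxP
    calc n₀ * (n₀ * (n₀ * x * n₀⁻¹) * n₀⁻¹) * n₀⁻¹ = (n₀ * n₀ * n₀) * x * (n₀ * n₀ * n₀)⁻¹ := by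
          group
      _ = x := by rw [← hc', mul_assoc, mul_inv_cancel, mul_one]
  obtain ⟨y, hy⟩ : ∃ y : G, y = x * (n₀ * x * n₀⁻¹) * (n₀ * (n₀ * x * n₀⁻¹) * n₀⁻¹) := ⟨_, rfl⟩
  have hyP : y ∈ (P : Subgroup G) := by
    rw [hy]; exact mul_mem (mul_mem hxP hx') hx''
  have hyfix : n₀ * y * n₀⁻¹ = y := by
    have e1 : n₀ * y * n₀⁻¹ = (n₀ * x * n₀⁻¹) * (n₀ * (n₀ * x * n₀⁻¹) * n₀⁻¹) *
        (n₀ * (n₀ * (n₀ * x * n₀⁻¹) * n₀⁻¹) * n₀⁻¹) := by
      rw [hy]; group
    rw [e1, h3, hy]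
    exact (h.comm _ (mul_mem hx' hx'') x hxP).trans (mul_assoc _ _ _).symm
  have hy1 : y = 1 := by
    by_contra hne
    have hmem : n₀ ∈ Subgroup.centralizer ({y} : Set G) ⊓ Subgroup.normalizer (P : Set G) := by
      refine Subgroup.mem_inf.2 ⟨?_, hn₀⟩
      rw [Subgroup.mem_centralizer_iff]
      intro z hz
      rw [Set.mem_singleton_iff] at hz
      rw [hz]
      calc y * n₀ = (n₀ * y * n₀⁻¹) * n₀ := by rw [hyfix]
        _ = n₀ * y := by group
    rw [centralizer_inf_normalizer h y hyP hne] at hmem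
    apply hmove
    rw [← Subgroup.mem_centralizer_iff.1 hmem a h.ha, mul_assoc, mul_inv_cancel, mul_one]
  have hπy : (QuotientGroup.mk' K) x ^ 3 = 1 := by
    have e1 : (QuotientGroup.mk' K) y = (QuotientGroup.mk' K) x * (QuotientGroup.mk' K) x *
        (QuotientGroup.mk' K) x := by
      rw [hy, map_mul, map_mul, hπ _ hx', hπ _ hxP]
    rw [hy1, map_one] at e1
    rw [pow_succ, pow_two]
    exact e1.symm
  obtain ⟨j, hj⟩ := P.2 ⟨x, hxP⟩
  have hj' : x ^ (2 ^ j) = 1 := by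
    have := congrArg Subtype.val hj
    simpa using this
  have hπj : (QuotientGroup.mk' K) x ^ (2 ^ j) = 1 := by
    rw [← map_pow, hj', map_one]
  have hd : orderOf ((QuotientGroup.mk' K) x) ∣ Nat.gcd 3 (2 ^ j) :=
    Nat.dvd_gcd (orderOf_dvd_of_pow_eq_one hπy) (orderOf_dvd_of_pow_eq_one hπj)
  have hg : Nat.gcd 3 (2 ^ j) = 1 := Nat.Coprime.pow_right j (by norm_num)
  rw [hg, Nat.dvd_one, orderOf_eq_one_iff] at hd
  exact hxK ((QuotientGroup.eq_one_iff x).mp hd)

/-- If a normal subgroup `K` normalizes `P`, then `P ⊓ K` is normal. -/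
theorem inf_normal (P : Sylow 2 G) (K : Subgroup G) [K.Normal]
    (hK : K ≤ Subgroup.normalizer (P : Set G)) : ((P : Subgroup G) ⊓ K).Normal := by
  constructor
  intro x hx g
  have hxK : g * x * g⁻¹ ∈ K := Subgroup.Normal.conj_mem inferInstance x hx.2 g
  refine ⟨?_, hxK⟩
  obtain ⟨j, hj⟩ := P.2 ⟨x, hx.1⟩
  have hj' : x ^ (2 ^ j) = 1 := by
    have := congrArg Subtype.val hj
    simpa using this
  apply mem_of_pow_two P _ (hK hxK) j
  rw [conj_pow, hj', mul_one, mul_inv_cancel]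

/-- `P K` has no nontrivial normal subgroup of odd order when `K` is normal in `G`. -/
theorem oddFree_sup (hO : ∀ N : Subgroup G, N.Normal → Odd (Nat.card N) → N = ⊥)
    (P : Sylow 2 G) (K : Subgroup G) [K.Normal]
    (L : Subgroup ((P : Subgroup G) ⊔ K : Subgroup G)) (hL : L.Normal)
    (hodd : Odd (Nat.card L)) : L = ⊥ := by
  obtain ⟨L', hL'⟩ : ∃ L' : Subgroup G, L' = L.map ((P : Subgroup G) ⊔ K : Subgroup G).subtype :=
    ⟨_, rfl⟩
  have hcard : Nat.card L' = Nat.card L := by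
    rw [hL']; exact Subgroup.card_map_of_injective (Subgroup.subtype_injective _)
  have hL'le : L' ≤ (P : Subgroup G) ⊔ K := by
    rw [hL']
    rintro _ ⟨l, -, rfl⟩
    exact l.2
  -- `L' ⊓ K` is trivial
  have hMn : (L'.subgroupOf K).Normal := by
    constructor
    intro x hx k
    rw [Subgroup.mem_subgroupOf] at hx ⊢
    rw [hL'] at hx ⊢
    obtain ⟨l, hl, hlx⟩ := hx
    have hkH : (k : G) ∈ (P : Subgroup G) ⊔ K := Subgroup.mem_sup_right k.2
    refine ⟨(⟨(k : G), hkH⟩ : ((P : Subgroup G) ⊔ K : Subgroup G)) * l * ⟨(k : G), hkH⟩⁻¹,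
      hL.conj_mem l hl _, ?_⟩
    simp only [Subgroup.coe_subtype, Subgroup.coe_mul, Subgroup.coe_inv] at hlx ⊢
    rw [hlx]
  have hMmap : (L'.subgroupOf K).map K.subtype = L' ⊓ K := Subgroup.subgroupOf_map_subtype L' K
  have hMcard : Nat.card (L'.subgroupOf K) = Nat.card (L' ⊓ K : Subgroup G) := by
    rw [← hMmap]; exact (Subgroup.card_map_of_injective (Subgroup.subtype_injective _)).symm
  have hMbot : L'.subgroupOf K = ⊥ := by
    apply oddFree_of_normal hO K _ hMn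
    rw [hMcard]
    exact (hcard ▸ hodd).of_dvd_nat (Subgroup.card_dvd_of_le inf_le_left)
  have hinf : L' ⊓ K = ⊥ := by
    rw [← hMmap, hMbot, Subgroup.map_bot]
  -- the order of `L'` divides the order of `P`
  have h1 : K.relIndex L' = Nat.card L' := by
    rw [← Subgroup.inf_relIndex_right, inf_comm, hinf, Subgroup.relIndex_bot_left]
  have h2 : K.relIndex (L' ⊔ K) = Nat.card L' := by
    rw [Subgroup.relIndex_sup_right, h1]
  have h3 : K.relIndex (L' ⊔ K) ∣ K.relIndex ((P : Subgroup G) ⊔ K) :=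
    Dvd.intro _ (Subgroup.relIndex_mul_relIndex K (L' ⊔ K) ((P : Subgroup G) ⊔ K) le_sup_right
      (sup_le hL'le le_sup_right))
  have h4 : K.relIndex ((P : Subgroup G) ⊔ K) ∣ Nat.card (P : Subgroup G) := by
    rw [Subgroup.relIndex_sup_right]
    exact Subgroup.relIndex_dvd_card K (P : Subgroup G)
  have h5 : Nat.card L' ∣ Nat.card (P : Subgroup G) := h2 ▸ (h3.trans h4)
  obtain ⟨k, hk⟩ := IsPGroup.iff_card.mp P.2
  have hk' : Nat.card (P : Subgroup G) = 2 ^ k := hk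
  rw [hk'] at h5
  obtain ⟨i, -, hi⟩ := (Nat.dvd_prime_pow Nat.prime_two).1 h5
  have hi0 : i = 0 := by
    by_contra hne
    have : Even (Nat.card L') := by
      rw [hi]; exact (Nat.even_pow' hne).mpr even_two
    rw [hcard] at this
    exact (Nat.not_even_iff_odd.mpr hodd) this
  rw [hi0, pow_zero, hcard] at hi
  exact Subgroup.card_eq_one.mp hi

/-- A normal subgroup containing `P` all of whose elements fix the involution `a` equals `P`. -/
theorem eq_of_fix (hO : ∀ N : Subgroup G, N.Normal → Odd (Nat.card N) → N = ⊥)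
    (h : Omega P a b c) (G₁ : Subgroup G) [G₁.Normal] (hP : (P : Subgroup G) ≤ G₁)
    (hfix : ∀ g ∈ G₁, g * a * g⁻¹ = a) : (P : Subgroup G) = G₁ := by
  apply le_antisymm hP
  have htop := eq_top_of_normalizer_le (G := G₁) (oddFree_of_normal hO G₁) (P.subtype hP) (by
    intro n hn
    have hnG := normalizer_subtype P G₁ hP n hn
    have hc := centralize h (n : G) hnG a h.ha h.oa (hfix _ n.2)
    show n ∈ Subgroup.centralizer (((P.subtype hP : Sylow 2 G₁) : Subgroup G₁) : Set G₁)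
    rw [Subgroup.mem_centralizer_iff]
    intro y hy
    apply Subtype.ext
    have hy' : (y : G) ∈ (P : Subgroup G) := (mem_subtype_iff P G₁ hP y).1 hy
    exact Subgroup.mem_centralizer_iff.1 hc (y : G) hy')
  intro g hg
  have : (⟨g, hg⟩ : G₁) ∈ ((P.subtype hP : Sylow 2 G₁) : Subgroup G₁) := by rw [htop]; trivial
  exact (mem_subtype_iff P G₁ hP _).1 this

end Cfsg.Agent.Lib.Helper77.HomoGT2
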