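import Mathlib
import Cfsg.Agent.Lib.Helper77.HomoGT2
import Cfsg.Agent.Lib.Helper77.HomoChar2

set_option autoImplicit false
set_option linter.unusedSectionVars false
set_option linter.unusedVariables false

/-!
Brauer's theorem: a finite group without nontrivial normal subgroups of odd order whose Sylow
2-subgroup `P` is abelian with exactly three involutions and order divisible by `8` has `P`
normal, self-centralizing, of index `1` or `3`.
-/

namespace Cfsg.Agent.Lib.Helper77.HomoMain

open Cfsg.Agent.Lib.Helper52.KleinFusion Cfsg.Agent.Lib.Helper77.HomoGT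
open Cfsg.Agent.Lib.Helper77.HomoGT2 Cfsg.Agent.Lib.Helper77.HomoChar2

universe u

/-- `P` is normal (induction on the order of the group). -/
theorem normal_aux : ∀ (n : ℕ) (G : Type u) [Group G] [Finite G] (P : Sylow 2 G) (a b c : G),
    Nat.card G = n → Cfsg.Agent.Lib.Helper52.KleinFusion.Omega P a b c → 8 ∣ Nat.card P →
    (∀ N : Subgroup G, N.Normal → Odd (Nat.card N) → N = ⊥) → (P : Subgroup G).Normal := by
  intro n
  induction n using Nat.strong_induction_on with
  | _ n ih =>
    intro G _ _ P a b c hn h h8 hO
    by_cases hfix : ∀ m ∈ Subgroup.normalizer (P : Set G), m * a * m⁻¹ = a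
    · have hNC := normalizer_le_centralizer h hfix
      have htop := eq_top_of_normalizer_le hO P hNC
      rw [htop]; infer_instance
    · push Not at hfix
      obtain ⟨n₀, hn₀, hmove⟩ := hfix
      obtain ⟨K, hKn, haK, hKtop⟩ := char_step P a b c h h8 n₀ hn₀ hmove a h.oa
      haveI := hKn
      have hHtop := sup_ne_top h n₀ hn₀ hmove K hKtop
      have hPH : (P : Subgroup G) ≤ (P : Subgroup G) ⊔ K := le_sup_left
      have hcard : Nat.card ((P : Subgroup G) ⊔ K : Subgroup G) < n := by
        rw [← hn]
        exact lt_of_le_of_ne (Subgroup.card_le_card_group _)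
          (fun hh => hHtop (Subgroup.eq_top_of_card_eq _ hh))
      have hnorm := ih _ hcard ((P : Subgroup G) ⊔ K : Subgroup G) (P.subtype hPH) _ _ _ rfl
        (omega_subtype ((P : Subgroup G) ⊔ K) hPH h)
        (by rw [card_subtype P _ hPH]; exact h8) (oddFree_sup hO P K)
      have hKN : K ≤ Subgroup.normalizer (P : Set G) :=
        le_sup_right.trans (le_normalizer_of_subtype_normal P _ hPH hnorm)
      haveI := inf_normal P K hKN
      have heq := eq_of_fix hO h (Subgroup.centralizer (((P : Subgroup G) ⊓ K : Subgroup G) : Set G))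
        (by
          intro x hx
          rw [Subgroup.mem_centralizer_iff]
          intro y hy
          exact h.comm y hy.1 x hx)
        (by
          intro g hg
          have := Subgroup.mem_centralizer_iff.1 hg a ⟨h.ha, haK⟩
          rw [← this, mul_assoc, mul_inv_cancel, mul_one])
      rw [heq]; infer_instance

/-- Brauer's theorem in intrinsic form. -/
theorem main {G : Type u} [Group G] [Finite G] (P : Sylow 2 G) (a b c : G)
    (h : Cfsg.Agent.Lib.Helper52.KleinFusion.Omega P a b c) (h8 : 8 ∣ Nat.card P)
    (hO : ∀ N : Subgroup G, N.Normal → Odd (Nat.card N) → N = ⊥) :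
    (P : Subgroup G).Normal ∧ Subgroup.centralizer (P : Set G) = (P : Subgroup G) ∧
      ((P : Subgroup G).index = 1 ∨ (P : Subgroup G).index = 3) := by
  have hPn := normal_aux _ G P a b c rfl h h8 hO
  haveI := hPn
  have hC : (P : Subgroup G) = Subgroup.centralizer ((P : Subgroup G) : Set G) :=
    eq_of_fix hO h (Subgroup.centralizer ((P : Subgroup G) : Set G))
      (by
        intro x hx
        rw [Subgroup.mem_centralizer_iff]
        intro y hy
        exact h.comm y hy x hx)
      (by
        intro g hg
        have := Subgroup.mem_centralizer_iff.1 hg a h.ha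
        rw [← this, mul_assoc, mul_inv_cancel, mul_one])
  refine ⟨hPn, hC.symm, ?_⟩
  have h13 := relIndex_eq_one_or_three h
  have hN : Subgroup.normalizer (P : Set G) = ⊤ :=
    Subgroup.normalizer_eq_top (H := (P : Subgroup G))
  have hC' : Subgroup.centralizer (P : Set G) = (P : Subgroup G) := hC.symm
  rw [hN, hC', Subgroup.relIndex_top_right] at h13
  exact h13

end Cfsg.Agent.Lib.Helper77.HomoMain
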