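import Mathlib
import Cfsg.Agent.Lib.Helper94.OPStmt

set_option autoImplicit false
set_option maxHeartbeats 400000

namespace Cfsg.Agent.Lib.Helper77.OPSCAL

open Cfsg.Agent.Lib.Helper94.OPStmt
open scoped Matrix

universe u

theorem main : Scal.{u} := by
  intro F _ _ d hd y hy z hz
  classical
  have hd0 : 0 < d := hd
  obtain ⟨v, hv⟩ : ∃ v : P d → F, v = Sum.elim (fun i => if i = (⟨0, hd0⟩ : Fin d) then 1 else 0)
      (fun i => if i = (⟨0, hd0⟩ : Fin d) then 1 else 0) := ⟨_, rfl⟩
  have hQv : Cfsg.quadFormPlus d F v = 1 := by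
    unfold Cfsg.quadFormPlus
    rw [hv]
    simp
  have h1 : Cfsg.quadFormPlus d F ((y : Matrix (P d) (P d) F) *ᵥ v) = Cfsg.quadFormPlus d F v :=
    hy v v
  have h2 : (y : Matrix (P d) (P d) F) *ᵥ v = z • v := by
    rw [hz, Matrix.smul_mulVec, Matrix.one_mulVec]
  have h3 : Cfsg.quadFormPlus d F (z • v) = z * z * Cfsg.quadFormPlus d F v := by
    unfold Cfsg.quadFormPlus
    rw [Finset.mul_sum]
    apply Finset.sum_congr rfl
    intro i _
    simp only [Pi.smul_apply, smul_eq_mul]
    ring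
  rw [h2, h3, hQv, mul_one] at h1
  have h4 : (z - 1) * (z + 1) = 0 := by linear_combination h1
  rcases mul_eq_zero.mp h4 with h | h
  · left
    exact sub_eq_zero.mp h
  · right
    exact eq_neg_of_add_eq_zero_left h

end Cfsg.Agent.Lib.Helper77.OPSCAL
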