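import Mathlib
import Cfsg.Agent.Lib.Helper18.ReeMultStmt

set_option autoImplicit false
set_option maxHeartbeats 400000

namespace Cfsg.Agent.Lib.Helper77.ReeMultSQFORM

open Cfsg.Agent.Lib.Helper18.ReeMultStmt

universe v w

theorem main : SQFORM.{v, w} := by
  intro K _ M _ B h3 hex hadd1 hadd2 hinv a b
  obtain ⟨r, hr0, hr8⟩ := hex
  have B0 : ∀ b, B 0 b = 1 := by
    intro b
    have h1 := hadd1 0 0 b
    rw [add_zero] at h1
    have h2 : B 0 b * 1 = B 0 b * B 0 b := by rw [mul_one]; exact h1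
    exact (mul_left_cancel h2).symm
  have hs : ∀ s : K, s ≠ 0 → ∀ a b, B (s ^ 2 * a) b = B a ((s ^ 2)⁻¹ * b) := by
    intro s hs0 a b
    have h1 := hinv s a ((s ^ 2)⁻¹ * b) hs0
    rw [← mul_assoc, mul_inv_cancel₀ (pow_ne_zero 2 hs0), one_mul] at h1
    exact h1
  have hr2 : r ^ 2 ≠ 1 := fun h => hr8 (by rw [show r ^ 8 = (r ^ 2) ^ 4 by ring, h, one_pow])
  have hr2' : r ^ 2 ≠ -1 := fun h => hr8 (by rw [show r ^ 8 = (r ^ 2) ^ 4 by ring, h]; norm_num)
  have hr4 : r ^ 4 ≠ -1 := fun h => hr8 (by rw [show r ^ 8 = (r ^ 4) ^ 2 by ring, h]; norm_num)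
  have h1p : 1 + r ≠ 0 := by
    intro h
    apply hr2
    have h' : r = -1 := by linear_combination h
    rw [h']; norm_num
  have h1m : 1 - r ≠ 0 := by
    intro h
    apply hr2
    have h' : r = 1 := by linear_combination -h
    rw [h']; norm_num
  have hrel : ∀ a b, B ((1 + r) ^ 2 * a) b * B ((1 - r) ^ 2 * a) b * B a b * B (r ^ 2 * a) b
      = 1 := by
    intro a b
    rw [← hadd1, ← hadd1, ← hadd1]
    have h0 : (1 + r) ^ 2 * a + (1 - r) ^ 2 * a + a + r ^ 2 * a = 0 := by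
      linear_combination (a * (1 + r ^ 2)) * h3
    rw [h0, B0]
  obtain ⟨E, hE⟩ : ∃ E : K, E = ((1 + r) ^ 2)⁻¹ + ((1 - r) ^ 2)⁻¹ + 1 + (r ^ 2)⁻¹ := ⟨_, rfl⟩
  have hkey : ∀ a b, B a (E * b) = 1 := by
    intro a b
    have h1 := hrel a b
    rw [hs _ h1p, hs _ h1m, hs _ hr0] at h1
    rw [← hadd2, ← hadd2, ← hadd2] at h1
    have e : E * b = ((1 + r) ^ 2)⁻¹ * b + ((1 - r) ^ 2)⁻¹ * b + b + (r ^ 2)⁻¹ * b := by
      rw [hE]; ring
    rw [e]; exact h1
  have hE0 : E ≠ 0 := by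
    intro h
    have hmul : E * (r ^ 2 * ((1 + r) ^ 2 * (1 - r) ^ 2)) = (1 + r ^ 2) * (1 + r ^ 4) := by
      rw [hE]
      field_simp
      ring
    rw [h, zero_mul] at hmul
    rcases mul_eq_zero.mp hmul.symm with h' | h'
    · exact hr2' (by linear_combination h')
    · exact hr4 (by linear_combination h')
  have h1 := hkey a (E⁻¹ * b)
  rwa [← mul_assoc, mul_inv_cancel₀ hE0, one_mul] at h1

end Cfsg.Agent.Lib.Helper77.ReeMultSQFORM
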