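import Mathlib
import Cfsg.Agent.Lib.Helper40.SFStmt

set_option autoImplicit false
set_option maxHeartbeats 400000

namespace Cfsg.Agent.Lib.Helper77.SFNF

open Cfsg.Agent.Lib.Helper40.SFStmt
open Cfsg.Agent.Lib.Helper94.Basic

universe u

theorem main : NF.{u} := by
  intro F L _ _ _ _ n c g hg v u hrk
  have h1 : Module.finrank F (LinearMap.range (theta g v u)) = 1 := hrk
  obtain ⟨⟨ℓ₀, hℓ₀mem⟩, hℓ₀ne, hspan⟩ := finrank_eq_one_iff'.mp h1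
  have hℓ₀ : ℓ₀ ≠ 0 := fun h => hℓ₀ne (Subtype.ext h)
  obtain ⟨c₀, hc₀⟩ := hℓ₀mem
  obtain ⟨b, hb⟩ : ∃ b : L, c.τ b ≠ 0 := by
    by_contra h
    push_neg at h
    exact c.hτ (LinearMap.ext h)
  obtain ⟨φ, hφ⟩ : ∃ φ : L →ₗ[F] F, ∀ x : L, φ x = (c.τ b)⁻¹ * c.τ (x * (ℓ₀⁻¹ * b)) := by
    refine ⟨(c.τ b)⁻¹ • (c.τ ∘ₗ LinearMap.mulRight F (ℓ₀⁻¹ * b)), fun x => ?_⟩
    simp [mul_assoc]
  have hφ1 : φ ℓ₀ = 1 := by
    rw [hφ, ← mul_assoc, mul_inv_cancel₀ hℓ₀, one_mul, inv_mul_cancel₀ hb]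
  obtain ⟨ϑ, hϑ⟩ : ∃ ϑ : L →ₗ[F] F, ϑ = φ ∘ₗ theta g v u := ⟨_, rfl⟩
  have hθ : ∀ x : L, theta g v u x = ϑ x • ℓ₀ := by
    intro x
    obtain ⟨s, hs⟩ := hspan ⟨theta g v u x, LinearMap.mem_range_self _ x⟩
    have hs' : s • ℓ₀ = theta g v u x := congrArg Subtype.val hs
    rw [hϑ, LinearMap.comp_apply, ← hs', map_smul, hφ1, smul_eq_mul, mul_one]
  have hϑne : ϑ ≠ 0 := by
    intro h
    have h2 := hθ c₀
    rw [hc₀, h, LinearMap.zero_apply, zero_smul] at h2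
    exact hℓ₀ h2
  obtain ⟨a, ha⟩ : ∃ a : L, a * ℓ₀ * ℓ₀ = b :=
    ⟨b * (ℓ₀ * ℓ₀)⁻¹, by
      rw [mul_assoc, inv_mul_cancel_right₀ (mul_ne_zero hℓ₀ hℓ₀)]⟩
  have ht : (ltv u a).restrictScalars F ∈ c.M := c.hsub _ (ltv_isom u a)
  have hγ : g⁻¹ * (ltv u a).restrictScalars F * g ∈ c.M :=
    c.M.mul_mem (c.M.mul_mem (c.M.inv_mem hg) ht) hg
  have hgγ : ∀ x : W n L, g ((g⁻¹ * (ltv u a).restrictScalars F * g) x)
      = g x + (a * Cfsg.sympForm n L (g x) u) • u := by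
    intro x
    show g (g.symm (ltv u a (g x))) = _
    rw [LinearEquiv.apply_symm_apply, ltv_apply]
  refine ⟨_, hγ, ϑ, - c.τ b, hϑne, neg_ne_zero.mpr hb, ?_, ?_⟩
  · intro x hx
    apply g.injective
    rw [hgγ]
    have h0 : Cfsg.sympForm n L (g (x • v)) u = 0 := by
      rw [← theta_apply, hθ, hx, zero_smul]
    rw [h0, mul_zero, zero_smul, add_zero]
  · intro x y
    rw [← c.isom g hg, hgγ, ff_add_left, c.isom g hg]
    have e1 : ff c.τ (x • v) (y • v) = 0 := by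
      rw [ff_lsmul_left, sympForm_smul_right, sympForm_self, mul_zero, mul_zero, map_zero]
    have e2 : ff c.τ ((a * Cfsg.sympForm n L (g (x • v)) u) • u) (g (y • v))
        = - (ϑ x * ϑ y * c.τ b) := by
      rw [ff_lsmul_left, sympForm_skew u (g (y • v)), ← theta_apply, ← theta_apply, hθ, hθ]
      have e3 : a * ϑ x • ℓ₀ * -(ϑ y • ℓ₀) = (-(ϑ x * ϑ y)) • b := by
        rw [← ha, Algebra.smul_def, Algebra.smul_def, Algebra.smul_def, map_neg, map_mul]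
        ring
      rw [e3, map_smul, smul_eq_mul]
      ring
    rw [e1, e2]
    ring

end Cfsg.Agent.Lib.Helper77.SFNF
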