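import Mathlib
import Cfsg.Agent.Lib.Helper40.SFStmt

set_option autoImplicit false
set_option maxHeartbeats 400000

namespace Cfsg.Agent.Lib.Helper77.SFSPREAD

open Cfsg.Agent.Lib.Helper40.SFStmt

universe u

theorem indep_of_not_mem {L : Type u} [Field L] {V : Type u} [AddCommGroup V] [Module L V]
    (u w : V) (hu : u ≠ 0) (hw : ∀ b : L, w ≠ b • u) :
    ∀ s t : L, s • u + t • w = 0 → s = 0 ∧ t = 0 := by
  intro s t h
  have ht : t = 0 := by
    by_contra ht
    apply hw (-(t⁻¹ * s))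
    have h2 : t • w = -(s • u) := eq_neg_of_add_eq_zero_right h
    have h3 : w = t⁻¹ • (t • w) := by rw [smul_smul, inv_mul_cancel₀ ht, one_smul]
    rw [h3, h2, smul_neg, smul_smul, neg_smul]
  subst ht
  rw [zero_smul, add_zero] at h
  exact ⟨(smul_eq_zero.mp h).resolve_right hu, rfl⟩

theorem main : Spread.{u} := by
  intro F L _ _ _ n hn g hg a
  choose μ hμ using fun x => hg x a
  -- claim 1
  have c1 : ∀ x y : W n L, (∀ s t : L, s • g x + t • g y = 0 → s = 0 ∧ t = 0) → μ x = μ y := by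
    intro x y hind
    have h1 : g (a • (x + y)) = μ (x + y) • g (x + y) := hμ (x + y)
    rw [smul_add, map_add, map_add, hμ x, hμ y, smul_add] at h1
    have h2 : (μ x - μ (x + y)) • g x + (μ y - μ (x + y)) • g y = 0 := by
      rw [sub_smul, sub_smul]
      rw [← sub_eq_zero] at h1
      rw [← h1]; abel
    obtain ⟨ha, hb⟩ := hind _ _ h2
    rw [sub_eq_zero] at ha hb
    rw [ha, hb]
  have hn0 : 0 < n := hn
  obtain ⟨e1, he1⟩ : ∃ e1 : W n L, e1 = Pi.single (Sum.inl ⟨0, hn0⟩) 1 := ⟨_, rfl⟩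
  obtain ⟨e2, he2⟩ : ∃ e2 : W n L, e2 = Pi.single (Sum.inr ⟨0, hn0⟩) 1 := ⟨_, rfl⟩
  have e1l : e1 (Sum.inl ⟨0, hn0⟩) = 1 := by rw [he1]; simp
  have e1r : e1 (Sum.inr ⟨0, hn0⟩) = 0 := by rw [he1]; simp
  have e2l : e2 (Sum.inl ⟨0, hn0⟩) = 0 := by rw [he2]; simp
  have e2r : e2 (Sum.inr ⟨0, hn0⟩) = 1 := by rw [he2]; simp
  have e1ne : e1 ≠ 0 := by
    intro h
    rw [h] at e1l
    exact zero_ne_one e1l
  have c2 : ∀ w : W n L, w ≠ 0 → ∃ z : W n L, ∀ b : L, g z ≠ b • w := by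
    intro w hw
    by_cases h1 : ∀ b : L, e1 ≠ b • w
    · exact ⟨g.symm e1, by rw [LinearEquiv.apply_symm_apply]; exact h1⟩
    · refine ⟨g.symm e2, ?_⟩
      rw [LinearEquiv.apply_symm_apply]
      push_neg at h1
      obtain ⟨s, hs⟩ := h1
      intro t ht
      have hs1 : (1 : L) = s * w (Sum.inl ⟨0, hn0⟩) := by
        have := congrFun hs (Sum.inl ⟨0, hn0⟩)
        rw [e1l] at this
        simpa using this
      have hs2 : (0 : L) = s * w (Sum.inr ⟨0, hn0⟩) := by
        have := congrFun hs (Sum.inr ⟨0, hn0⟩)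
        rw [e1r] at this
        simpa using this
      have ht2 : (1 : L) = t * w (Sum.inr ⟨0, hn0⟩) := by
        have := congrFun ht (Sum.inr ⟨0, hn0⟩)
        rw [e2r] at this
        simpa using this
      have hs0 : s ≠ 0 := by
        rintro rfl
        rw [zero_mul] at hs1
        exact one_ne_zero hs1
      have hw2 : w (Sum.inr ⟨0, hn0⟩) ≠ 0 := by
        intro h
        rw [h, mul_zero] at ht2
        exact one_ne_zero ht2
      exact (mul_ne_zero hs0 hw2) hs2.symm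
  have c3 : ∀ x y : W n L, x ≠ 0 → y ≠ 0 → μ x = μ y := by
    intro x y hx hy
    have hgx : g x ≠ 0 := fun h => hx (by simpa using h)
    have hgy : g y ≠ 0 := fun h => hy (by simpa using h)
    by_cases h : ∀ b : L, g y ≠ b • g x
    · exact c1 x y (indep_of_not_mem (g x) (g y) hgx h)
    · push_neg at h
      obtain ⟨b, hb⟩ := h
      obtain ⟨z, hz⟩ := c2 (g x) hgx
      have hzy : ∀ c : L, g z ≠ c • g y := by
        intro c hc
        rw [hb, smul_smul] at hc
        exact hz _ hc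
      rw [c1 x z (indep_of_not_mem _ _ hgx hz), c1 y z (indep_of_not_mem _ _ hgy hzy)]
  refine ⟨μ e1, fun x => ?_⟩
  by_cases hx : x = 0
  · subst hx
    simp
  · rw [hμ x, c3 x e1 hx e1ne]

end Cfsg.Agent.Lib.Helper77.SFSPREAD
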