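import Mathlib
import Cfsg.Agent.Lib.Helper41.SpFStmt
import Cfsg.Agent.Lib.Helper77.SpFField

set_option maxHeartbeats 400000

/-! # S5975, piece AUT: elements of order prime to `k` in the normalizer centralize `K` -/

namespace Cfsg.Agent.Lib.Helper77.SpFAUT

open Matrix
open Cfsg.Agent.Lib.Helper41.SpFStmt

universe u

section

variable {F : Type u} [Field F] {d : ℕ}

/-- conjugation by an element of the normalizer, as an algebra automorphism of `K` -/
noncomputable def conjE (K : Subalgebra F (Mat d F))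
    (g : ↥(Cfsg.Geo.subalgebraNormalizer K)) : ↥K ≃ₐ[F] ↥K where
  toFun a := ⟨g.1.val * a.1 * (g.1⁻¹).val, (g.2 a.1).1 a.2⟩
  invFun a := ⟨(g.1⁻¹).val * a.1 * g.1.val, by
    apply (g.2 _).2
    have h : g.1.val * ((g.1⁻¹).val * a.1 * g.1.val) * (g.1⁻¹).val = a.1 := by
      simp [mul_assoc]
    rw [h]
    exact a.2⟩
  left_inv a := Subtype.ext (by simp [mul_assoc])
  right_inv a := Subtype.ext (by simp [mul_assoc])
  map_mul' a b := Subtype.ext (by simp [mul_assoc])
  map_add' a b := Subtype.ext (by simp [mul_add, add_mul])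
  commutes' c := Subtype.ext (by simp [Algebra.algebraMap_eq_smul_one])

theorem conjE_apply (K : Subalgebra F (Mat d F))
    (g : ↥(Cfsg.Geo.subalgebraNormalizer K)) (a : ↥K) :
    ((conjE K g a : ↥K) : Mat d F) = g.1.val * a.1 * (g.1⁻¹).val := rfl

/-- the action of the normalizer on `K` -/
noncomputable def conjHom (K : Subalgebra F (Mat d F)) :
    ↥(Cfsg.Geo.subalgebraNormalizer K) →* (↥K ≃ₐ[F] ↥K) :=
  MonoidHom.mk' (conjE K) (by
    intro g h
    apply AlgEquiv.ext
    intro a
    apply Subtype.ext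
    rw [AlgEquiv.mul_apply, conjE_apply, conjE_apply, conjE_apply]
    simp [mul_assoc])

end

theorem main : Aut.{u} := by
  intro F _ _ d k K hk hK y hy r hr hrk hyr a ha
  classical
  rcases subsingleton_or_nontrivial (Mat d F) with hs | hn
  · exact Subsingleton.elim _ _
  letI : Field ↥K := Cfsg.Agent.Lib.Helper77.SpFField.fieldK K hK
  haveI : Finite ↥K := inferInstance
  have hcard : Nat.card (↥K ≃ₐ[F] ↥K) = k := by
    rw [IsGalois.card_aut_eq_finrank, hK.finrank_eq]
  have h1 : conjHom K ⟨y, hy⟩ ^ k = 1 := by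
    rw [← hcard]
    exact pow_card_eq_one'
  have h2 : conjHom K ⟨y, hy⟩ ^ r = 1 := by
    rw [← map_pow]
    have h : (⟨y, hy⟩ : ↥(Cfsg.Geo.subalgebraNormalizer K)) ^ r = 1 := by
      apply Subtype.ext
      apply Units.ext
      simpa using hyr
    rw [h, map_one]
  have h3 : conjHom K ⟨y, hy⟩ = 1 := by
    have h := pow_gcd_eq_one.2 ⟨h2, h1⟩
    rwa [Nat.Coprime.gcd_eq_one ((Nat.coprime_primes hr hk).2 hrk), pow_one] at h
  have h4 := congrArg (fun τ : ↥K ≃ₐ[F] ↥K => ((τ ⟨a, ha⟩ : ↥K) : Mat d F)) h3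
  have h5 : y.val * a * (y⁻¹).val = a := h4
  calc y.val * a = (y.val * a * (y⁻¹).val) * y.val := by simp [mul_assoc]
    _ = a * y.val := by rw [h5]

end Cfsg.Agent.Lib.Helper77.SpFAUT
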