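import Mathlib
import Cfsg.Agent.Lib.Helper41.SpFStmt
import Cfsg.Agent.Lib.Helper77.SpFField

set_option maxHeartbeats 400000

/-! # S5975, piece KDIM -/

namespace Cfsg.Agent.Lib.Helper77.SpFKDIM

open Matrix
open Cfsg.Agent.Lib.Helper41.SpFStmt

universe u

theorem main : KDim.{u} := by
  intro F _ d k K hK U hU
  exact Cfsg.Agent.Lib.Helper77.SpFField.dvd_finrank K hK U hU

end Cfsg.Agent.Lib.Helper77.SpFKDIM
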