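import Mathlib
import Cfsg.Agent.Lib.Helper41.SpFStmt
import Cfsg.Agent.Lib.Helper77.SpFField

set_option maxHeartbeats 400000

/-! # S5975, piece RANKTRICK -/

namespace Cfsg.Agent.Lib.Helper77.SpFRANKTRICK

open Matrix
open Cfsg.Agent.Lib.Helper41.SpFStmt

universe u

theorem main : RankTrick.{u} := by
  intro F _ d k K hK y hy hrank a ha
  classical
  have ha' : y.val * a * (y⁻¹).val ∈ K := (hy a).1 ha
  obtain ⟨a', ha'def⟩ : ∃ a' : Mat d F, a' = y.val * a * (y⁻¹).val := ⟨_, rfl⟩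
  rw [← ha'def] at ha'
  have hya : y.val * a = a' * y.val := by
    rw [ha'def]
    simp [mul_assoc]
  have hD : a' - a = (y.val - 1) * a - a' * (y.val - 1) := by
    rw [sub_mul, mul_sub, one_mul, mul_one, hya]
    abel
  by_contra hne
  have hDne : a' - a ≠ 0 := by
    intro h0
    apply hne
    rw [hya, sub_eq_zero.1 h0]
  obtain ⟨z, hzK, hz⟩ := hK.inv (a' - a) (K.sub_mem ha' ha) hDne
  have hunit : IsUnit (a' - a) :=
    (Matrix.isUnit_iff_isUnit_det _).2 (Matrix.isUnit_det_of_right_inverse hz)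
  have hr := Matrix.rank_of_isUnit _ hunit
  have h1 : (a' - a).rank ≤ (y.val - 1).rank + (y.val - 1).rank := by
    rw [hD]
    exact (Cfsg.Agent.Lib.Helper77.SpFField.rank_sub_le' _ _).trans
      (Nat.add_le_add (Matrix.rank_mul_le_left _ _) (Matrix.rank_mul_le_right _ _))
  rw [Fintype.card_sum, Fintype.card_fin] at hr
  omega

end Cfsg.Agent.Lib.Helper77.SpFRANKTRICK
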